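/-
Helper7: piece CASEAB of CALL S5954 (`SU_n(q)` on nondegenerate `m`-spaces): the unipotent case,
from the fixed nondegenerate subspaces to the partition condition.
-/
import Mathlib
import Cfsg.Agent.Helper13.TLDefs
import Cfsg.Agent.Helper61.TLUMODELALL
import Cfsg.Agent.Helper20.TLUJTSUB
import Cfsg.Agent.Helper73.TLUEXND

set_option autoImplicit false
set_option linter.unusedVariables false
set_option linter.unusedSectionVars false

namespace Cfsg.Agent.Helper7.TI5954

open Module Polynomial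
open Cfsg.Agent.Helper13.TIu Cfsg.Agent.Helper13.TIsp
open Cfsg.Agent.Helper20.TI5954
open Cfsg.Agent.Helper61.TI5954
open Cfsg.Agent.Helper73.TI5954

section cases

variable {F : Type*} [Field F] [Fintype F] {σ : F →+* F}

/-- in characteristic `p`, `T ^ p = 1` gives `(T - 1) ^ p = 0` -/
theorem sub_one_pow_char_u' (p : ℕ) [Fact p.Prime] [CharP F p] (n : ℕ) (hn : 1 ≤ n)
    (T : Module.End F (Fin n → F)) (hT : T ^ p = 1) : (T - 1) ^ p = 0 := by
  have : Nonempty (Fin n) := ⟨⟨0, hn⟩⟩
  have : Nontrivial (Fin n → F) := inferInstance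
  have hinj : Function.Injective (algebraMap F (Module.End F (Fin n → F))) := by
    intro c c' h
    obtain ⟨v, hv⟩ := exists_ne (0 : Fin n → F)
    have h1 := congrArg (fun g : Module.End F (Fin n → F) => g v) h
    simp only [Module.algebraMap_end_apply] at h1
    exact smul_left_injective F hv h1
  haveI : CharP (Module.End F (Fin n → F)) p := charP_of_injective_algebraMap hinj p
  rw [sub_pow_char_of_commute p (Commute.one_right T), hT, one_pow, sub_self]

/-- CASEAB (uses UMODELALL, UJTSUB, UEXND; mirror `p_fwd`): for `μ` take the model `T` (`det T = 1`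
since `(det T) ^ p = 1` in characteristic `p`; `T` is not scalar, else a nondegenerate `m`-space
(UEXND) would be invariant and UJTSUB gives `ν`); `UAll` gives `W`, UJTSUB gives `ν`. -/
theorem u_case_p_back (p : ℕ) [Fact p.Prime] [CharP F p] (q : ℕ) (hq : Fintype.card F = q ^ 2)
    (hσ : ∀ a, σ a = a ^ q) (hσ2 : ∀ a, σ (σ a) = a) (hσne : σ ≠ RingHom.id F) (n m : ℕ)
    (hn : 1 ≤ n) (hmn : m ≤ n) (hL : UAll σ n m p) :
    ∀ μ : Multiset ℕ, (∀ a ∈ μ, 0 < a ∧ a ≤ p) → μ.sum = n →
      ∃ ν : Multiset ℕ, ν ≤ μ ∧ ν.sum = m := by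
  have hpp : p.Prime := Fact.out
  intro μ hμ hsum
  obtain ⟨T, hT, hTp, hJT⟩ := umodel_all (F := F) (σ := σ) hσ2 hσne p μ hμ n hsum
  have hNp := sub_one_pow_char_u' p n hn T hTp
  have hS := stdH_symm σ hσ2 n
  -- an invariant nondegenerate `m`-space
  have key : ∃ W : Submodule F (Fin n → F), finrank F W = m ∧ UNd (stdH σ n) W ∧ W.map T ≤ W := by
    by_cases hsc : ∃ z : F, T = z • (1 : Module.End F (Fin n → F))
    · obtain ⟨z, hz⟩ := hsc
      obtain ⟨W, -, hW, hWf⟩ := u_exists_nd (stdH σ n) hσ2 hσne hS ⊤ (stdH_nd_top σ n) m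
        (by rw [finrank_top, Module.finrank_fin_fun]; exact hmn)
      refine ⟨W, hWf, hW, ?_⟩
      intro y hy
      obtain ⟨w, hw, rfl⟩ := Submodule.mem_map.mp hy
      rw [hz, LinearMap.smul_apply, Module.End.one_apply]
      exact W.smul_mem z hw
    · have hdet : LinearMap.det T = 1 := by
        have h1 : LinearMap.det T ^ p = 1 ^ p := by
          rw [← map_pow, hTp, map_one, one_pow]
        exact frobenius_inj F p h1
      exact hL T hT hdet ⟨1, by rw [hTp, one_smul]⟩ (fun z hz => hsc ⟨z, hz⟩)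
  obtain ⟨W, hWf, hW, hWT⟩ := key
  obtain ⟨ν, hle, hνs⟩ := u_jt_sub (stdH σ n) hσ2 hσne hS (stdH_nd_top σ n) T hT p hpp.pos hTp p hNp
    μ (fun a ha => (hμ a ha).1) hJT W hWT hW
  exact ⟨ν, hle, by rw [hνs, hWf]⟩

end cases

end Cfsg.Agent.Helper7.TI5954
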