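/-
Helper7: piece CASEAF of CALL S5954 (`SU_n(q)` on nondegenerate `m`-spaces): the unipotent case,
from the partition condition to the fixed nondegenerate subspaces.
-/
import Mathlib
import Cfsg.Agent.Helper13.TLDefs
import Cfsg.Agent.Helper57.TLUZNORM
import Cfsg.Agent.Helper53.TLUSCAL
import Cfsg.Agent.Helper26.TLUSMUL
import Cfsg.Agent.Helper50.TLUSTRUCT

set_option autoImplicit false

namespace Cfsg.Agent.Helper7.TI5954

open Module Polynomial
open Cfsg.Agent.Helper13.TIu Cfsg.Agent.Helper13.TIsp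
open Cfsg.Agent.Helper26.TI5954
open Cfsg.Agent.Helper50.TI5954
open Cfsg.Agent.Helper53.TI5954
open Cfsg.Agent.Helper57.TI5954

section cases

variable {F : Type*} [Field F] [Fintype F] {σ : F →+* F}

/-- in characteristic `p`, `T ^ p = 1` gives `(T - 1) ^ p = 0` -/
theorem sub_one_pow_char_u (p : ℕ) [Fact p.Prime] [CharP F p] (n : ℕ) (hn : 1 ≤ n)
    (T : Module.End F (Fin n → F)) (hT : T ^ p = 1) : (T - 1) ^ p = 0 := by
  have : Nonempty (Fin n) := ⟨⟨0, hn⟩⟩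
  have : Nontrivial (Fin n → F) := inferInstance
  have hinj : Function.Injective (algebraMap F (Module.End F (Fin n → F))) := by
    intro c c' h
    obtain ⟨v, hv⟩ := exists_ne (0 : Fin n → F)
    have h1 := congrArg (fun g : Module.End F (Fin n → F) => g v) h
    simp only [Module.algebraMap_end_apply] at h1
    exact smul_left_injective F hv h1
  haveI : CharP (Module.End F (Fin n → F)) p := charP_of_injective_algebraMap hinj p
  rw [sub_pow_char_of_commute p (Commute.one_right T), hT, one_pow, sub_self]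

/-- CASEAF (uses UZNORM, USCAL, USMUL, USTRUCT, `jt_sum`; mirror `p_back` in Helper13/TKMain.lean):
`T ^ p = z • 1`, `z ^ (q+1) = 1`, `z₀ ^ p = z` (`p ∣ q`), `T' = z₀⁻¹ • T` is an isometry with
`(T' - 1) ^ p = 0`; USTRUCT on `⊤` gives `μ` of sum `n`; take `ν ≤ μ` of sum `m`. -/
theorem u_case_p_fwd (p : ℕ) [Fact p.Prime] [CharP F p] (q : ℕ) (hq : Fintype.card F = q ^ 2)
    (hσ : ∀ a, σ a = a ^ q) (hσ2 : ∀ a, σ (σ a) = a) (hσne : σ ≠ RingHom.id F) (n m : ℕ)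
    (hn : 1 ≤ n) (hmn : m ≤ n)
    (hPC : ∀ μ : Multiset ℕ, (∀ a ∈ μ, 0 < a ∧ a ≤ p) → μ.sum = n →
      ∃ ν : Multiset ℕ, ν ≤ μ ∧ ν.sum = m) : UAll σ n m p := by
  have hpp : p.Prime := Fact.out
  intro T hT _hdet hz _hns
  obtain ⟨z, hz⟩ := hz
  have hzn : σ z * z = 1 := u_z_norm n hn T hT p z hz
  have hz1 : z ^ (q + 1) = 1 := by
    rw [pow_succ, ← hσ]
    exact hzn
  -- `p ∣ q`
  have hpq : p ∣ q := by
    have h1 : p ∣ Fintype.card F := by
      obtain ⟨k, -, hk⟩ := FiniteField.card F p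
      rw [hk]
      exact dvd_pow_self p k.ne_zero
    rw [hq] at h1
    exact hpp.dvd_of_dvd_pow h1
  have hcop : Nat.Coprime p (q + 1) := by
    refine (Nat.Prime.coprime_iff_not_dvd hpp).mpr fun h => ?_
    have h1 : p ∣ 1 := (Nat.dvd_add_right hpq).mp h
    exact hpp.one_lt.ne' (Nat.dvd_one.mp h1)
  obtain ⟨z₀, hz₀1, hz₀p⟩ := u_scal_root z (q + 1) p hcop hz1
  have hz₀0 : z₀ ≠ 0 := by
    rintro rfl
    rw [zero_pow (Nat.succ_ne_zero q)] at hz₀1
    exact zero_ne_one hz₀1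
  have hc : σ z₀⁻¹ * z₀⁻¹ = 1 := by
    rw [hσ, ← pow_succ, inv_pow, hz₀1, inv_one]
  have hT' : UPres (stdH σ n) (z₀⁻¹ • T) := u_smul_pres (stdH σ n) T hT z₀⁻¹ hc
  have hT'p : (z₀⁻¹ • T) ^ p = 1 := by
    rw [_root_.smul_pow, hz, smul_smul, inv_pow, hz₀p, inv_mul_cancel₀, one_smul]
    rw [← hz₀p]
    exact pow_ne_zero p hz₀0
  have hNp := sub_one_pow_char_u p n hn (z₀⁻¹ • T) hT'p
  obtain ⟨μ, hJT, hpos, hsel⟩ := ustruct_p (stdH σ n) hσ2 hσne (stdH_symm σ hσ2 n) (z₀⁻¹ • T) hT'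
    p hpp.pos hT'p p hNp ⊤ le_top (stdH_nd_top σ n)
  have hsum : μ.sum = n := by
    rw [← jt_sum (z₀⁻¹ • T - 1) p hNp ⊤ μ hJT (fun a ha => (hpos a ha).2), finrank_top,
      Module.finrank_fin_fun]
  obtain ⟨ν, hle, hνs⟩ := hPC μ hpos hsum
  obtain ⟨W, -, hWT, hWnd, hWf⟩ := hsel ν hle
  refine ⟨W, by rw [hWf, hνs], hWnd, ?_⟩
  intro y hy
  obtain ⟨w, hw, rfl⟩ := Submodule.mem_map.mp hy
  have h1 : T w = z₀ • (z₀⁻¹ • T) w := by
    rw [LinearMap.smul_apply, smul_smul, mul_inv_cancel₀ hz₀0, one_smul]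
  rw [h1]
  exact W.smul_mem z₀ (hWT (Submodule.mem_map_of_mem hw))

end cases

end Cfsg.Agent.Helper7.TI5954
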