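/-
Helper7 library: transitivity of `M24` on lists of at most five distinct points and on pairs of
sets with a given intersection pattern (at most five points in total).
-/
import Cfsg.Agent.Helper7.M24Trans

set_option autoImplicit false
open scoped Pointwise

namespace Cfsg.Agent.Helper7

open Cfsg

/-- `M24` maps any list of at most five distinct points to any other such list of the same
length. -/
theorem m24_lists {l l' : List GolayPt} (hlen : l.length = l'.length) (h5 : l.length ≤ 5)
    (hnd : l.Nodup) (hnd' : l'.Nodup) : ∃ g ∈ M24, l.map g = l' := by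
  have key : ∀ base : List ℕ, ChainOK G3 (setOf 0xffffff) [] base → l.length = base.length →
      ∃ g ∈ M24, l.map g = l' := by
    intro base hch hb
    obtain ⟨g, hg, h⟩ := m24_tuple base hch l hb hnd
    obtain ⟨g', hg', h'⟩ := m24_tuple base hch l' (hlen ▸ hb) hnd'
    refine ⟨g' * g⁻¹, M24.mul_mem hg' (M24.inv_mem hg), ?_⟩
    rw [← h, ← h', List.map_map]
    apply List.map_congr_left
    intro j _
    simp
  have h6 : l.length = 0 ∨ l.length = 1 ∨ l.length = 2 ∨ l.length = 3 ∨ l.length = 4
      ∨ l.length = 5 := by omega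
  rcases h6 with h | h | h | h | h | h
  · exact key [] trivial h
  · exact key [0] m24chain1 h
  · exact key [0, 1] m24chain2 h
  · exact key [0, 1, 2] m24chain3 h
  · exact key [0, 1, 2, 3] m24chain4 h
  · exact key [0, 1, 2, 3, 4] m24chain h

theorem smul_finset_eq_of_map_toList {g : Equiv.Perm GolayPt} {s t : Finset GolayPt}
    (h : s.toList.map g = t.toList) : g • s = t := by
  ext x
  rw [Finset.mem_smul_finset]
  constructor
  · rintro ⟨y, hy, rfl⟩
    rw [← Finset.mem_toList, ← h, List.mem_map]
    exact ⟨y, Finset.mem_toList.mpr hy, rfl⟩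
  · intro hx
    rw [← Finset.mem_toList, ← h, List.mem_map] at hx
    obtain ⟨y, hy, rfl⟩ := hx
    exact ⟨y, Finset.mem_toList.mp hy, rfl⟩

/-- `M24` is transitive on pairs of sets `(s, y)` with prescribed sizes of `s ∩ y`, `s \ y`,
`y \ s`, as long as `s ∪ y` has at most five points. -/
theorem m24_finset_pair {s y s' y' : Finset GolayPt} (h1 : (s ∩ y).card = (s' ∩ y').card)
    (h2 : (s \ y).card = (s' \ y').card) (h3 : (y \ s).card = (y' \ s').card)
    (h5 : (s ∪ y).card ≤ 5) : ∃ g ∈ M24, g • s = s' ∧ g • y = y' := by
  have hnd : ∀ a b : Finset GolayPt,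
      ((a ∩ b).toList ++ ((a \ b).toList ++ (b \ a).toList)).Nodup := by
    intro a b
    rw [List.nodup_append, List.nodup_append]
    refine ⟨Finset.nodup_toList _, ⟨Finset.nodup_toList _, Finset.nodup_toList _, ?_⟩, ?_⟩
    · intro x hx z hz hxz
      rw [Finset.mem_toList, Finset.mem_sdiff] at hx hz
      exact hz.2 (hxz ▸ hx.1)
    · intro x hx z hz hxz
      rw [Finset.mem_toList, Finset.mem_inter] at hx
      rw [List.mem_append, Finset.mem_toList, Finset.mem_toList, Finset.mem_sdiff,
        Finset.mem_sdiff] at hz
      rcases hz with hz | hz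
      · exact hz.2 (hxz ▸ hx.2)
      · exact hz.2 (hxz ▸ hx.1)
  have hcard : (s ∪ y).card = (s ∩ y).card + ((s \ y).card + (y \ s).card) := by
    have e1 : s ∪ y = (s ∩ y) ∪ ((s \ y) ∪ (y \ s)) := by
      ext x
      simp only [Finset.mem_union, Finset.mem_inter, Finset.mem_sdiff]
      tauto
    rw [e1, Finset.card_union_of_disjoint, Finset.card_union_of_disjoint]
    · rw [Finset.disjoint_left]
      intro x hx hx'
      rw [Finset.mem_sdiff] at hx hx'
      exact hx'.2 hx.1
    · rw [Finset.disjoint_left]
      intro x hx hx'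
      rw [Finset.mem_inter] at hx
      rw [Finset.mem_union, Finset.mem_sdiff, Finset.mem_sdiff] at hx'
      rcases hx' with hx' | hx'
      · exact hx'.2 hx.2
      · exact hx'.2 hx.1
  obtain ⟨g, hg, hmap⟩ := m24_lists
    (l := (s ∩ y).toList ++ ((s \ y).toList ++ (y \ s).toList))
    (l' := (s' ∩ y').toList ++ ((s' \ y').toList ++ (y' \ s').toList))
    (by simp only [List.length_append, Finset.length_toList]; omega)
    (by simp only [List.length_append, Finset.length_toList]; omega) (hnd s y) (hnd s' y')
  rw [List.map_append, List.map_append] at hmap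
  obtain ⟨e1, hmap'⟩ := List.append_inj hmap (by simp only [List.length_map, Finset.length_toList]; exact h1)
  obtain ⟨e2, e3⟩ := List.append_inj hmap' (by simp only [List.length_map, Finset.length_toList]; exact h2)
  have f1 := smul_finset_eq_of_map_toList e1
  have f2 := smul_finset_eq_of_map_toList e2
  have f3 := smul_finset_eq_of_map_toList e3
  refine ⟨g, hg, ?_, ?_⟩
  · have hs : s = (s ∩ y) ∪ (s \ y) := by
      ext x
      simp only [Finset.mem_union, Finset.mem_inter, Finset.mem_sdiff]
      tauto
    have hs' : s' = (s' ∩ y') ∪ (s' \ y') := by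
      ext x
      simp only [Finset.mem_union, Finset.mem_inter, Finset.mem_sdiff]
      tauto
    rw [hs, Finset.smul_finset_union, f1, f2, ← hs']
  · have hy : y = (s ∩ y) ∪ (y \ s) := by
      ext x
      simp only [Finset.mem_union, Finset.mem_inter, Finset.mem_sdiff]
      tauto
    have hy' : y' = (s' ∩ y') ∪ (y' \ s') := by
      ext x
      simp only [Finset.mem_union, Finset.mem_inter, Finset.mem_sdiff]
      tauto
    rw [hy, Finset.smul_finset_union, f1, f3, ← hy']

end Cfsg.Agent.Helper7
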