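/-
Helper7: piece SYMCLS of CALL S2676: the invertible symmetric matrices over a finite field of
odd characteristic form two congruence classes in every positive dimension (the discriminant).
-/
import Mathlib
import Cfsg.Agent.Helper44.SPCDefs
import Cfsg.Agent.Helper13.FinQuad

set_option autoImplicit false
set_option linter.unusedSectionVars false

namespace Cfsg.Agent.Helper7.SPCSYMCLS

open Matrix Cfsg.Agent.Helper21.JCent Cfsg.Agent.Helper44.UC Cfsg.Agent.Helper44.SPC

variable {F : Type*} [Field F] [Fintype F] {κ : Type*} [Fintype κ] [DecidableEq κ]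

theorem conj_apply (S G : Matrix κ κ F) (j j' : κ) :
    (Sᵀ * G * S) j j' = (fun i => S i j) ⬝ᵥ G *ᵥ (fun i => S i j') := by
  rw [Matrix.dotProduct_mulVec]
  simp [Matrix.mul_apply, dotProduct, Matrix.vecMul]

/-- the normal forms -/
def nf {n : ℕ} (e : κ ≃ Fin (n + 1)) (ε : F) : Matrix κ κ F :=
  Matrix.diagonal (fun c => if e c = Fin.last n then ε else 1)

theorem det_nf {n : ℕ} (e : κ ≃ Fin (n + 1)) (ε : F) : (nf e ε).det = ε := by
  rw [nf, Matrix.det_diagonal, ← Equiv.prod_comp e.symm]
  simp only [Equiv.apply_symm_apply]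
  rw [Finset.prod_ite_eq' Finset.univ (Fin.last n) (fun _ => ε), if_pos (Finset.mem_univ _)]

/-- an invertible symmetric matrix is congruent to a normal form -/
theorem normal_form (h2 : (2 : F) ≠ 0) {n : ℕ} (e : κ ≃ Fin (n + 1)) (α : F)
    (hα : ¬ IsSquare α) (G : Matrix κ κ F) (hGs : Gᵀ = G) (hG : G.det ≠ 0) :
    ∃ (S : Matrix κ κ F) (ε : F), S.det ≠ 0 ∧ (ε = 1 ∨ ε = α) ∧ Sᵀ * G * S = nf e ε := by
  classical
  let B : LinearMap.BilinForm F (κ → F) := Matrix.toBilin' G
  have hBf : ∀ x y, B x y = x ⬝ᵥ G *ᵥ y := fun x y => Matrix.toBilin'_apply' G x y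
  have hBs : B.IsSymm := by
    refine LinearMap.BilinForm.isSymm_def.mpr fun x y => ?_
    rw [hBf, hBf, Matrix.dotProduct_mulVec, ← Matrix.mulVec_transpose, hGs, dotProduct_comm]
  have hBn : B.Nondegenerate := LinearMap.BilinForm.nondegenerate_toBilin'_iff_det_ne_zero.mpr hG
  have hfin : Module.finrank F (κ → F) = n + 1 := by
    rw [Module.finrank_pi, Fintype.card_congr e, Fintype.card_fin]
  obtain ⟨b, hb1, hb2, hb3⟩ :=
    Cfsg.Agent.Helper13.exists_orthonormalish_basis B h2 hBs hBn hfin α hα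
  let v' : Module.Basis κ F (κ → F) := b.reindex e.symm
  have hv' : ∀ c, v' c = b (e c) := by
    intro c
    simp [v']
  let S : Matrix κ κ F := (Pi.basisFun F κ).toMatrix v'
  have h3 : ∀ j, (fun i => S i j) = v' j := by
    intro j
    funext i
    simp [S, Module.Basis.toMatrix_apply]
  have hSS : S * v'.toMatrix (Pi.basisFun F κ) = 1 :=
    Module.Basis.toMatrix_mul_toMatrix_flip _ _
  refine ⟨S, B (b (Fin.last n)) (b (Fin.last n)), Matrix.det_ne_zero_of_right_inverse hSS, hb3,
    ?_⟩
  ext j j'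
  rw [conj_apply, h3, h3, ← Matrix.toBilin'_apply' G, hv', hv', nf]
  by_cases hjj : j = j'
  · subst hjj
    rw [Matrix.diagonal_apply_eq]
    by_cases hl : e j = Fin.last n
    · rw [if_pos hl, hl]
    · rw [if_neg hl]
      exact hb2 _ hl
  · rw [Matrix.diagonal_apply_ne _ hjj]
    exact hb1 _ _ (fun h => hjj (e.injective h))

theorem sq_iff {u a : F} (hu : u ≠ 0) : IsSquare (u * a * u) ↔ IsSquare a := by
  constructor
  · rintro ⟨s, hs⟩
    refine ⟨s / u, ?_⟩
    field_simp
    linear_combination hs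
  · rintro ⟨s, rfl⟩
    exact ⟨u * s, by ring⟩

theorem sq_congr {i : ℕ} {β β' : {β : Matrix κ κ F // IsSymT i β}} (h : congRel i β β') :
    IsSquare β.1.det ↔ IsSquare β'.1.det := by
  obtain ⟨g, hg, h⟩ := h
  rw [h, Matrix.det_mul, Matrix.det_mul, Matrix.det_transpose, sq_iff hg.ne_zero]

/-- SYMCLS: invertible symmetric matrices over a finite field of odd characteristic: two
congruence classes (discriminant) in every positive dimension. -/
theorem spc_symcls {F : Type*} [Field F] [Fintype F] (h2 : (2 : F) ≠ 0) {κ : Type*} [Fintype κ]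
    [DecidableEq κ] (i : ℕ) (hi : Even i) :
    Nat.card (Quot (congRel (F := F) (ι := κ) i)) = if Fintype.card κ = 0 then 1 else 2 := by
  classical
  have hm1 : ((-1 : F) ^ i) = 1 := hi.neg_one_pow
  have hsym : ∀ β : {β : Matrix κ κ F // IsSymT i β}, β.1ᵀ = β.1 ∧ β.1.det ≠ 0 := by
    intro β
    obtain ⟨hu, ht⟩ := β.2
    rw [hm1, one_smul] at ht
    exact ⟨ht, hu.ne_zero⟩
  have hmk : ∀ G : Matrix κ κ F, Gᵀ = G → G.det ≠ 0 → IsSymT i G := by
    intro G hGs hG
    refine ⟨isUnit_iff_ne_zero.mpr hG, ?_⟩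
    rw [hm1, one_smul, hGs]
  by_cases hκ : Fintype.card κ = 0
  · rw [if_pos hκ]
    have hempty : IsEmpty κ := Fintype.card_eq_zero_iff.mp hκ
    have hsub : Subsingleton (Quot (congRel (F := F) (ι := κ) i)) := by
      refine ⟨fun a b => ?_⟩
      induction a using Quot.ind
      induction b using Quot.ind
      congr 1
      apply Subtype.ext
      ext r
      exact isEmptyElim r
    have hne : Nonempty (Quot (congRel (F := F) (ι := κ) i)) :=
      ⟨Quot.mk _ ⟨1, hmk 1 Matrix.transpose_one (by rw [Matrix.det_one]; exact one_ne_zero)⟩⟩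
    exact Nat.card_eq_one_iff_unique.mpr ⟨hsub, hne⟩
  · rw [if_neg hκ]
    obtain ⟨n, hn⟩ : ∃ n, Fintype.card κ = n + 1 := Nat.exists_eq_succ_of_ne_zero hκ
    let e : κ ≃ Fin (n + 1) := Fintype.equivFinOfCardEq hn
    obtain ⟨α, hα⟩ := FiniteField.exists_nonsquare
      (Cfsg.Agent.Helper13.ringChar_ne_two_of_two_ne_zero h2)
    have hα0 : α ≠ 0 := fun h => hα (h ▸ IsSquare.zero)
    let f : Quot (congRel (F := F) (ι := κ) i) → Bool :=
      Quot.lift (fun β => decide (IsSquare β.1.det)) (by
        intro β β' h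
        rw [decide_eq_decide]
        exact sq_congr h)
    have hinj : Function.Injective f := by
      intro a b hab
      induction a using Quot.ind with | _ β => ?_
      induction b using Quot.ind with | _ β' => ?_
      have hab' : IsSquare β.1.det ↔ IsSquare β'.1.det := by
        have : decide (IsSquare β.1.det) = decide (IsSquare β'.1.det) := hab
        rwa [decide_eq_decide] at this
      apply Quot.sound
      obtain ⟨S, ε, hS, hε, hE⟩ := normal_form h2 e α hα β.1 (hsym β).1 (hsym β).2
      obtain ⟨S', ε', hS', hε', hE'⟩ := normal_form h2 e α hα β'.1 (hsym β').1 (hsym β').2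
      have d1 : IsSquare ε ↔ IsSquare β.1.det := by
        rw [← det_nf e ε, ← hE, Matrix.det_mul, Matrix.det_mul, Matrix.det_transpose, sq_iff hS]
      have d2 : IsSquare ε' ↔ IsSquare β'.1.det := by
        rw [← det_nf e ε', ← hE', Matrix.det_mul, Matrix.det_mul, Matrix.det_transpose,
          sq_iff hS']
      have hεε : ε = ε' := by
        rcases hε with rfl | rfl <;> rcases hε' with rfl | rfl
        · rfl
        · exact absurd ((d2.trans hab'.symm).trans d1.symm |>.mpr ⟨1, (one_mul 1).symm⟩) hα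
        · exact absurd ((d1.trans hab').trans d2.symm |>.mpr ⟨1, (one_mul 1).symm⟩) hα
        · rfl
      have hSu : IsUnit S'.det := isUnit_iff_ne_zero.mpr hS'
      refine ⟨S * S'⁻¹, ?_, ?_⟩
      · rw [Matrix.det_mul]
        exact (isUnit_iff_ne_zero.mpr hS).mul (Matrix.isUnit_nonsing_inv_det _ hSu)
      · have k1 : β'.1 = (S'⁻¹)ᵀ * (S'ᵀ * β'.1 * S') * S'⁻¹ := by
          rw [Matrix.transpose_nonsing_inv, Matrix.mul_assoc, Matrix.mul_assoc,
            Matrix.mul_nonsing_inv _ hSu, Matrix.mul_one, ← Matrix.mul_assoc,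
            Matrix.nonsing_inv_mul _ (by rwa [Matrix.det_transpose]), Matrix.one_mul]
        rw [k1, hE', ← hεε, ← hE, Matrix.transpose_mul]
        simp only [Matrix.mul_assoc]
    have hsurj : Function.Surjective f := by
      intro b
      cases b
      · refine ⟨Quot.mk _ ⟨nf e α, hmk _ (by rw [nf, Matrix.diagonal_transpose])
          (by rw [det_nf]; exact hα0)⟩, ?_⟩
        show decide (IsSquare (nf e α).det) = false
        rw [det_nf]
        exact decide_eq_false hα
      · refine ⟨Quot.mk _ ⟨1, hmk 1 Matrix.transpose_one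
          (by rw [Matrix.det_one]; exact one_ne_zero)⟩, ?_⟩
        show decide (IsSquare (1 : Matrix κ κ F).det) = true
        rw [Matrix.det_one]
        exact decide_eq_true ⟨1, (one_mul 1).symm⟩
    rw [Nat.card_congr (Equiv.ofBijective f ⟨hinj, hsurj⟩), Nat.card_eq_fintype_card,
      Fintype.card_bool]

end Cfsg.Agent.Helper7.SPCSYMCLS
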