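import Mathlib
import Cfsg.Prelude.Def_GeometricClasses
import Cfsg.Prelude.Def_Classical
import Cfsg.Agent.Helper58.TSDefs
import Cfsg.Agent.Helper43.PrimeOrdO3
import Cfsg.Agent.Helper33.OType
import Cfsg.Agent.Helper5.TBBLK
import Cfsg.Agent.Helper43.TBPAR
import Cfsg.Agent.Helper93.TBCYCB

set_option autoImplicit false

/-!
# Sub-CALL TB (helper43) of CALL TS (helper58), piece BLKE (helper7): the homogeneous block for
`i` even.
-/

namespace Cfsg.Agent.Helper7.TB

open Module Polynomial Cfsg Cfsg.Geo Cfsg.Agent.Helper58.TS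
open Cfsg.Agent.Helper43 Cfsg.Agent.Helper43.OrthEven Cfsg.Agent.Helper43.CycFactors
  Cfsg.Agent.Helper43.PrimeOrdMat
open scoped MatrixGroups
open Cfsg.Agent.Helper5.TB Cfsg.Agent.Helper43.TB Cfsg.Agent.Helper93.TB

universe u

section lvl2

variable {F : Type u} [Field F] [Fintype F]

/-- BLKE [M] (uses BLK, PAR, CYCB): the homogeneous block for `i` even. -/
theorem tb_blk_even (p : ℕ) [Fact p.Prime] [CharP F p] (r : ℕ) [Fact r.Prime] (hr2 : 2 < r)
    (hrp : r ≠ p) (heven : Even (orderOf ((Fintype.card F : ℕ) : ZMod r))) (P : F[X])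
    (hP : P ∈ cycJ F r) (n : ℕ) :
    ∃ (V : Type u) (_ : AddCommGroup V) (_ : Module F V) (_ : FiniteDimensional F V)
      (Q : QuadraticForm F V) (T : Module.End F V),
      PolarNondeg Q ∧ (∀ v, Q (T v) = Q v) ∧ aeval T (cyclotomic r F) = 0 ∧
      T.charpoly = P ^ n ∧
      finrank F V = 2 * (orderOf ((Fintype.card F : ℕ) : ZMod r) / 2 * n) ∧
      (HasTS Q (orderOf ((Fintype.card F : ℕ) : ZMod r) / 2 * n) ↔ Even n) ∧
      ∀ U : Submodule F V, U.map T ≤ U → (∀ u ∈ U, Q u = 0) →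
        ∃ s, finrank F U = orderOf ((Fintype.card F : ℕ) : ZMod r) * s ∧ 2 * s + n % 2 ≤ n := by
  classical
  have hr : r.Prime := Fact.out
  have hpp : p.Prime := Fact.out
  have hrF : (r : F) ≠ 0 := by
    intro h0
    have h1 : p ∣ r := (CharP.cast_eq_zero_iff F p r).mp h0
    exact hrp ((Nat.prime_dvd_prime_iff_eq hpp hr).mp h1).symm
  have hipos : 0 < orderOf ((Fintype.card F : ℕ) : ZMod r) :=
    CycFactors.orderOf_pos_of_card (p := p) rfl hr hrp
  obtain ⟨c, hc⟩ : ∃ c : F[X] → ℕ, c = fun P' => if P' = P then n else 0 := ⟨_, rfl⟩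
  have hsym : ∀ P' ∈ cycJ F r, c (SpReal.star P') = c P' := by
    intro P' hP'
    rw [StarPoly.star_eq_self_of_even (p := p) rfl hr hrp heven hP']
  obtain ⟨V, iV1, iV2, iV3, Q, T, l, hnd, hT, hcyc, hch, hfr, hfl, -⟩ :=
    tb_blk p r hr2 hrp c hsym
  have hsum : ∑ P' ∈ cycJ F r, c P' = n := by
    rw [hc, Finset.sum_ite_eq' (cycJ F r) P (fun _ => n), if_pos hP]
  have hprod : ∏ P' ∈ cycJ F r, P' ^ c P' = P ^ n := by
    rw [Finset.prod_eq_single P]
    · rw [hc]
      simp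
    · intro b _ hb
      rw [hc]
      simp [hb]
    · intro h
      exact absurd hP h
  have hpar := tb_par p r hr2 hrp heven Q T hnd hT hcyc c hch l hfl
  have hcb := fun (U : Submodule F V) (hUT : U.map T ≤ U) (hU : ∀ u ∈ U, Q u = 0) =>
    tb_cyc_bound r hrF Q T hnd hT hcyc U hUT hU
  rw [hsum] at hfr hpar
  rw [hprod] at hch
  generalize orderOf ((Fintype.card F : ℕ) : ZMod r) = i at *
  obtain ⟨h, hh⟩ := heven
  have hi2 : i / 2 = h := by omega
  have hin : i * n = 2 * (h * n) := by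
    rw [hh]
    ring
  have hl : l = i / 2 * n := by
    rw [hi2]
    omega
  refine ⟨V, iV1, iV2, iV3, Q, T, hnd, hT, hcyc, hch, ?_, ?_, ?_⟩
  · rw [hfl, hl]
  · rw [← hl]
    exact hpar
  · intro U hUT hU
    obtain ⟨s, hs, hle⟩ := hcb U hUT hU
    refine ⟨s, hs, ?_⟩
    have h1 : i * (2 * s) ≤ i * n := by
      have e1 : i * (2 * s) = 2 * (i * s) := by ring
      rw [e1, ← hs, ← hfr]
      exact hle
    have h2 : 2 * s ≤ n := Nat.le_of_mul_le_mul_left h1 hipos
    omega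

end lvl2

end Cfsg.Agent.Helper7.TB
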