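import Mathlib

set_option autoImplicit false

/-!
# CALL TS (helper58), pieces AE0 / AE1 (helper7): common core of the two even-`i` arithmetic
statements, with the type bit `b` (`b = 0` plus type, `b = 1` minus type).
-/

namespace Cfsg.Agent.Helper7.TS5973

/-- Core of AE0 / AE1.  `hH` provides a failing profile when `m < i`. -/
theorem ae_core7 (b : ℕ) (hb : b ≤ 1) (i t d m : ℕ) (hi : Even i) (hi0 : 0 < i) (ht : 1 ≤ t)
    (hm : 1 ≤ m) (hmd : m < d)
    (hH : m < i → ∃ A o, 1 ≤ A ∧ o ≤ t ∧ o ≤ A ∧ Even (A - o) ∧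
      i * A + 2 * ((b + A) % 2) ≤ 2 * d ∧ 2 * d < 2 * m + i * A + 2 * ((b + A) % 2)) :
    (∀ A o, 1 ≤ A → o ≤ t → o ≤ A → Even (A - o) → i * A + 2 * ((b + A) % 2) ≤ 2 * d →
      ∃ s w, 2 * s + o ≤ A ∧ 2 * w + i * A + 2 * ((b + A) % 2) ≤ 2 * d ∧ m = i * s + w) ↔
    (i ≤ m ∧ t + 2 * (m / i) ≤ (2 * d) / i ∧
      ((2 * (m % i) ≤ i ∧ (2 * d) % i = 0 ∧ (b + (2 * d) / i) % 2 = 1 ∧
          t + 2 * (m / i) < (2 * d) / i) ∨
        (2 * (m % i) ≤ (2 * d) % i ∧ (b + (2 * d) / i) % 2 = 0) ∨
        (2 * (m % i) < (2 * d) % i ∧ (b + (2 * d) / i) % 2 = 1))) := by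
  obtain ⟨h, hh⟩ := hi
  have hi2 : 2 ≤ i := by omega
  have hm_eq : i * (m / i) + m % i = m := Nat.div_add_mod m i
  have hℓ_lt : m % i < i := Nat.mod_lt _ hi0
  have hd_eq : i * ((2 * d) / i) + (2 * d) % i = 2 * d := Nat.div_add_mod (2 * d) i
  have hk_lt : (2 * d) % i < i := Nat.mod_lt _ hi0
  generalize m / i = μ at hm_eq ⊢
  generalize m % i = ℓ at hm_eq hℓ_lt ⊢
  generalize (2 * d) / i = n' at hd_eq ⊢
  generalize (2 * d) % i = k at hd_eq hk_lt ⊢
  obtain ⟨k2, hk2⟩ : ∃ c, k = 2 * c := by
    have h1 : i * n' = 2 * (h * n') := by rw [hh]; ring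
    exact ⟨d - h * n', by omega⟩
  have huniq : ∀ s w, m = i * s + w → w < i → s = μ ∧ w = ℓ := by
    intro s w hsw hw
    rcases Nat.lt_trichotomy s μ with hlt | heq | hgt
    · exfalso
      have h1 := Nat.mul_le_mul_left i (show s + 1 ≤ μ from hlt)
      have e3 : i * (s + 1) = i * s + i := by ring
      rw [e3] at h1
      omega
    · subst heq
      exact ⟨rfl, by omega⟩
    · exfalso
      have h1 := Nat.mul_le_mul_left i (show μ + 1 ≤ s from hgt)
      have e3 : i * (μ + 1) = i * μ + i := by ring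
      rw [e3] at h1
      omega
  constructor
  · -- ⟹
    intro hL
    have h1 : i ≤ m := by
      by_contra hlt
      push Not at hlt
      obtain ⟨A, o, hA1, hot, hoA, hev, hadm, hbad⟩ := hH hlt
      obtain ⟨s, w, hs, hw, hmsw⟩ := hL A o hA1 hot hoA hev hadm
      have hs0 : s = 0 := by
        by_contra hs0
        have h2 := Nat.mul_le_mul_left i (Nat.one_le_iff_ne_zero.mpr hs0)
        omega
      subst hs0
      simp at hmsw
      omega
    have hμ1 : 1 ≤ μ := by
      by_contra hμ0
      have h0 : μ = 0 := by omega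
      subst h0
      simp at hm_eq
      omega
    have hn2μ : 2 * μ ≤ n' := by
      by_contra hc
      have h2 := Nat.mul_le_mul_left i (show n' + 1 ≤ 2 * μ by omega)
      have e3 : i * (n' + 1) = i * n' + i := by ring
      have e4 : i * (2 * μ) = 2 * (i * μ) := by ring
      rw [e3, e4] at h2
      omega
    have h2 : t + 2 * μ ≤ n' := by
      by_contra hc
      push Not at hc
      obtain ⟨A, hA⟩ : ∃ A, n' = A + 1 := ⟨n' - 1, by omega⟩
      obtain ⟨o, ho⟩ : ∃ o, n' + 1 = 2 * μ + o := ⟨n' + 1 - 2 * μ, by omega⟩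
      have h4 : i * n' = i * A + i := by rw [hA]; ring
      obtain ⟨ε, hε⟩ : ∃ ε, (b + A) % 2 = ε := ⟨_, rfl⟩
      have hεle : ε ≤ 1 := by omega
      have hadm : i * A + 2 * ((b + A) % 2) ≤ 2 * d := by
        rw [hε]
        omega
      obtain ⟨s, w, hs, hw, hmsw⟩ :=
        hL A o (by omega) (by omega) (by omega) ⟨μ - 1, by omega⟩ hadm
      rw [hε] at hw
      have hs1 : s + 1 ≤ μ := by omega
      have h3 := Nat.mul_le_mul_left i hs1
      have e3 : i * (s + 1) = i * s + i := by ring
      rw [e3] at h3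
      omega
    refine ⟨h1, h2, ?_⟩
    have hn'1 : 1 ≤ n' := by omega
    rcases Nat.mod_two_eq_zero_or_one (b + n') with hpar | hpar
    · right; left
      refine ⟨?_, hpar⟩
      obtain ⟨s, w, hs, hw, hmsw⟩ := hL n' (n' % 2) hn'1 (by omega) (by omega)
        ⟨(n' - n' % 2) / 2, by omega⟩ (by rw [hpar]; omega)
      rw [hpar] at hw
      have hwi : w < i := by omega
      obtain ⟨-, rfl⟩ := huniq s w hmsw hwi
      omega
    · rcases Nat.eq_zero_or_pos k2 with hk0 | hkpos
      · left
        have hk0' : k = 0 := by omega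
        obtain ⟨A, hA⟩ : ∃ A, n' = A + 1 := ⟨n' - 1, by omega⟩
        have h4 : i * n' = i * A + i := by rw [hA]; ring
        have hparA : (b + A) % 2 = 0 := by omega
        have h2ℓ : 2 * ℓ ≤ i := by
          obtain ⟨s, w, hs, hw, hmsw⟩ := hL A (A % 2) (by omega) (by omega) (by omega)
            ⟨(A - A % 2) / 2, by omega⟩ (by rw [hparA]; omega)
          rw [hparA] at hw
          have hwi : w < i := by omega
          obtain ⟨-, rfl⟩ := huniq s w hmsw hwi
          omega
        refine ⟨h2ℓ, hk0', hpar, ?_⟩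
        by_contra hc
        have heq : t + 2 * μ = n' := by omega
        obtain ⟨A2, hA2⟩ : ∃ A2, n' = A2 + 2 := ⟨n' - 2, by omega⟩
        have h5 : i * n' = i * A2 + 2 * i := by rw [hA2]; ring
        have hparA2 : (b + A2) % 2 = 1 := by omega
        obtain ⟨s, w, hs, hw, hmsw⟩ := hL A2 t (by omega) le_rfl (by omega)
          ⟨μ - 1, by omega⟩ (by rw [hparA2]; omega)
        rw [hparA2] at hw
        have hs1 : s + 1 ≤ μ := by omega
        have h3 := Nat.mul_le_mul_left i hs1
        have e3 : i * (s + 1) = i * s + i := by ring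
        rw [e3] at h3
        omega
      · right; right
        refine ⟨?_, hpar⟩
        obtain ⟨s, w, hs, hw, hmsw⟩ := hL n' (n' % 2) hn'1 (by omega) (by omega)
          ⟨(n' - n' % 2) / 2, by omega⟩ (by rw [hpar]; omega)
        rw [hpar] at hw
        have hwi : w < i := by omega
        obtain ⟨-, rfl⟩ := huniq s w hmsw hwi
        omega
  · -- ⟸
    rintro ⟨h1, h2, h3⟩ A o hA1 hot hoA hev hadm
    obtain ⟨c, hc⟩ := hev
    have hAoc : A = o + 2 * c := by omega
    obtain ⟨ε, hε⟩ : ∃ ε, (b + A) % 2 = ε := ⟨_, rfl⟩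
    rw [hε] at hadm ⊢
    have hεle : ε ≤ 1 := by omega
    have hAn : A ≤ n' := by
      by_contra hcon
      have h4 := Nat.mul_le_mul_left i (show n' + 1 ≤ A by omega)
      have e3 : i * (n' + 1) = i * n' + i := by ring
      rw [e3] at h4
      omega
    by_cases hcase : μ ≤ c
    · refine ⟨μ, ℓ, by omega, ?_, by omega⟩
      rcases Nat.lt_or_ge A n' with hlt | hge
      · have h4 := Nat.mul_le_mul_left i (show A + 1 ≤ n' from hlt)
        have e3 : i * (A + 1) = i * A + i := by ring
        rw [e3] at h4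
        rcases h3 with ⟨h3a, h3b, h3c, h3d⟩ | ⟨h3a, h3b⟩ | ⟨h3a, h3b⟩
        · rcases Nat.lt_or_ge (A + 1) n' with hlt2 | hge2
          · have h5 := Nat.mul_le_mul_left i (show A + 2 ≤ n' from hlt2)
            have e5 : i * (A + 2) = i * A + 2 * i := by ring
            rw [e5] at h5
            omega
          · have hAe : n' = A + 1 := by omega
            have h6 : ε = 0 := by omega
            omega
        · omega
        · omega
      · have hAe : A = n' := by omega
        subst hAe
        rcases h3 with ⟨h3a, h3b, h3c, h3d⟩ | ⟨h3a, h3b⟩ | ⟨h3a, h3b⟩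
        · exfalso
          omega
        · omega
        · omega
    · push Not at hcase
      obtain ⟨e, he⟩ : ∃ e, μ = c + e + 1 := ⟨μ - c - 1, by omega⟩
      refine ⟨c, i * (e + 1) + ℓ, by omega, ?_, ?_⟩
      · have hσ : 2 * μ + o ≤ n' := by omega
        -- the quantity to bound is `i * (2 μ + o) + 2 ℓ + 2 ε`
        have e1 : 2 * (i * (e + 1) + ℓ) + i * A = i * (2 * μ + o) + 2 * ℓ := by
          rw [hAoc, he]
          ring
        have e2 : 2 * (i * (e + 1) + ℓ) + i * A + 2 * ε = i * (2 * μ + o) + 2 * ℓ + 2 * ε := by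
          rw [e1]
        rw [e2]
        generalize hP : i * (2 * μ + o) = P at *
        rcases Nat.lt_or_ge (2 * μ + o + 1) n' with hb2 | hb2
        · have h5 := Nat.mul_le_mul_left i (show 2 * μ + o + 2 ≤ n' from hb2)
          have e5 : i * (2 * μ + o + 2) = i * (2 * μ + o) + 2 * i := by ring
          rw [e5, hP] at h5
          omega
        · rcases Nat.lt_or_ge (2 * μ + o) n' with hb1 | hb1
          · have hσ1 : n' = 2 * μ + o + 1 := by omega
            have h5 : i * n' = P + i := by
              rw [hσ1, ← hP]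
              ring
            rcases h3 with ⟨h3a, h3b, h3c, h3d⟩ | ⟨h3a, h3b⟩ | ⟨h3a, h3b⟩
            · have h6 : ε = 0 := by omega
              omega
            · omega
            · omega
          · have hσ0 : n' = 2 * μ + o := by omega
            have h5 : i * n' = P := by
              rw [hσ0, ← hP]
            rcases h3 with ⟨h3a, h3b, h3c, h3d⟩ | ⟨h3a, h3b⟩ | ⟨h3a, h3b⟩
            · exfalso
              omega
            · have h6 : ε = 0 := by omega
              omega
            · have h6 : ε = 1 := by omega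
              omega
      · have h8 : i * μ = i * c + i * (e + 1) := by
          rw [he]
          ring
        omega

end Cfsg.Agent.Helper7.TS5973
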