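import Mathlib
import Cfsg.Agent.Helper7.TSAECore

set_option autoImplicit false

/-!
# CALL TS (helper58), piece AE1 (helper7): the pure arithmetic of the minus type, `i` even.
-/

namespace Cfsg.Agent.Helper7.TS5973

/-- AE1 [L, pure Nat]: minus type, `i` even. -/
theorem ts_arith_even_minus (i t d m : ℕ) (hi : Even i) (hi0 : 0 < i) (ht : 1 ≤ t) (hm : 1 ≤ m)
    (hmd : m < d) (hH : ∃ j, j < m ∧ ((d - j) % i = i / 2 ∨ i ∣ d - j - 1)) :
    (∀ A o, 1 ≤ A → o ≤ t → o ≤ A → Even (A - o) → i * A + 2 * ((1 + A) % 2) ≤ 2 * d →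
      ∃ s w, 2 * s + o ≤ A ∧ 2 * w + i * A + 2 * ((1 + A) % 2) ≤ 2 * d ∧ m = i * s + w) ↔
    (i ≤ m ∧ t + 2 * (m / i) ≤ (2 * d) / i ∧
      ((2 * (m % i) ≤ i ∧ (2 * d) % i = 0 ∧ Even ((2 * d) / i) ∧ t + 2 * (m / i) < (2 * d) / i) ∨
        (2 * (m % i) ≤ (2 * d) % i ∧ Odd ((2 * d) / i)) ∨
        (2 * (m % i) < (2 * d) % i ∧ Even ((2 * d) / i)))) := by
  have hcore := ae_core7 1 le_rfl i t d m hi hi0 ht hm hmd ?_
  · refine hcore.trans ?_
    have e1 : ∀ n : ℕ, (1 + n) % 2 = 1 ↔ Even n := by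
      intro n
      rw [Nat.even_iff]
      omega
    have e0 : ∀ n : ℕ, (1 + n) % 2 = 0 ↔ Odd n := by
      intro n
      rw [Nat.odd_iff]
      omega
    simp only [e1, e0]
  · intro hlt
    obtain ⟨j, hjm, hj⟩ := hH
    obtain ⟨h, hh⟩ := hi
    rcases hj with hmod | hdvd
    · have hdm := Nat.div_add_mod (d - j) i
      generalize (d - j) / i = c at hdm
      have e1 : i * (2 * c + 1) = 2 * (i * c) + i := by ring
      have e2 : (1 + (2 * c + 1)) % 2 = 0 := by omega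
      refine ⟨2 * c + 1, 1, by omega, ht, by omega, ⟨c, by omega⟩, ?_, ?_⟩
      · rw [e2]
        omega
      · rw [e2]
        omega
    · obtain ⟨c, hc⟩ := hdvd
      have hc1 : 1 ≤ c := by
        rcases Nat.eq_zero_or_pos c with rfl | hc0
        · simp at hc
          omega
        · exact hc0
      have e1 : i * (2 * c) = 2 * (i * c) := by ring
      have e2 : (1 + 2 * c) % 2 = 1 := by omega
      refine ⟨2 * c, 0, by omega, by omega, by omega, ⟨c, by omega⟩, ?_, ?_⟩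
      · rw [e2]
        omega
      · rw [e2]
        omega

end Cfsg.Agent.Helper7.TS5973
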