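import Cfsg.Statements.S1383

set_option autoImplicit false

/-! CALL BG83 (helper25, row S1383), piece DER (pure): in a nilpotent `H` whose `q`-subgroups are
cyclic for `q ≠ p`, the derived subgroup of `H` lies in the derived subgroup of its Sylow
`p`-subgroup. -/

namespace Cfsg.Agent.Helper7

open Cfsg Subgroup

open scoped commutatorElement

universe u

variable {G : Type u} [Group G] [Finite G]

/-- DER (pure). (`H = P × C`, `C` = the `p'`-elements of `H`, a nilpotent group with all Sylow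
subgroups cyclic, hence abelian.) -/
theorem bg83_derived_le (H P : Subgroup G) (hnil : Group.IsNilpotent ↥H) (p : ℕ)
    [Fact p.Prime] (hPH : P ≤ H) (hP : IsPGroup p P)
    (hmax : ∀ Q : Subgroup G, Q ≤ H → IsPGroup p Q → Q ≤ P)
    (hcyc : ∀ q : ℕ, q.Prime → q ≠ p → ∀ Q : Subgroup G, Q ≤ H → IsPGroup q Q → IsCyclic ↥Q) :
    ⁅H, H⁆ ≤ ⁅P, P⁆ := by
  classical
  have hp : p.Prime := Fact.out
  obtain ⟨e⟩ := ((Group.isNilpotent_of_finite_tfae (G := ↥H)).out 0 4).mp hnil
  let tr : (∀ q : (Nat.card ↥H).primeFactors, ∀ S : Sylow q ↥H, (↑S : Subgroup ↥H)) →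
      (∀ q : (Nat.card ↥H).primeFactors, ∀ S : Sylow q ↥H, (↑S : Subgroup ↥H)) :=
    fun f q S => if (q : ℕ) = p then f q S else 1
  have htr_eq : ∀ (f : ∀ q : (Nat.card ↥H).primeFactors, ∀ S : Sylow q ↥H, (↑S : Subgroup ↥H))
      (q : (Nat.card ↥H).primeFactors) (S : Sylow q ↥H), (q : ℕ) = p → tr f q S = f q S :=
    fun f q S h => if_pos h
  have htr_ne : ∀ (f : ∀ q : (Nat.card ↥H).primeFactors, ∀ S : Sylow q ↥H, (↑S : Subgroup ↥H))
      (q : (Nat.card ↥H).primeFactors) (S : Sylow q ↥H), (q : ℕ) ≠ p → tr f q S = 1 :=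
    fun f q S h => if_neg h
  -- the `p`-part of an element lies in `P`
  have hP_mem : ∀ f : (∀ q : (Nat.card ↥H).primeFactors, ∀ S : Sylow q ↥H, (↑S : Subgroup ↥H)),
      ((e (tr f) : ↥H) : G) ∈ P := by
    intro f
    have hpow : (tr f) ^ (p ^ Nat.card ↥H) = 1 := by
      funext q S
      rw [Pi.pow_apply, Pi.pow_apply, Pi.one_apply, Pi.one_apply]
      by_cases hq : (q : ℕ) = p
      · rw [htr_eq f q S hq]
        have hS : IsPGroup p ↥(S : Subgroup ↥H) := by rw [← hq]; exact S.isPGroup'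
        obtain ⟨k, hk⟩ := (IsPGroup.iff_orderOf.mp hS) (f q S)
        have h1 : p ^ k ∣ Nat.card ↥H := by
          rw [← hk]
          exact (orderOf_dvd_natCard (f q S)).trans (Subgroup.card_subgroup_dvd_card _)
        have h2 : k ≤ Nat.card ↥H :=
          (Nat.lt_pow_self hp.one_lt).le.trans (Nat.le_of_dvd Nat.card_pos h1)
        apply orderOf_dvd_iff_pow_eq_one.mp
        rw [hk]
        exact Nat.pow_dvd_pow p h2
      · rw [htr_ne f q S hq, one_pow]
    have hx : (e (tr f)) ^ (p ^ Nat.card ↥H) = 1 := by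
      rw [← map_pow, hpow, map_one]
    have hord : orderOf ((e (tr f) : ↥H) : G) ∣ p ^ Nat.card ↥H := by
      apply orderOf_dvd_of_pow_eq_one
      have := congrArg Subtype.val hx
      simpa using this
    obtain ⟨j, -, hj⟩ := (Nat.dvd_prime_pow hp).mp hord
    have hpg : IsPGroup p (zpowers ((e (tr f) : ↥H) : G)) :=
      IsPGroup.of_card (n := j) (by rw [Nat.card_zpowers, hj])
    exact hmax _ (zpowers_le.mpr (e (tr f)).2) hpg (mem_zpowers _)
  -- commutators only see the `p`-parts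
  have hcomm : ∀ f g : (∀ q : (Nat.card ↥H).primeFactors, ∀ S : Sylow q ↥H,
      (↑S : Subgroup ↥H)), ⁅f, g⁆ = ⁅tr f, tr g⁆ := by
    intro f g
    funext q S
    show ⁅f q S, g q S⁆ = ⁅tr f q S, tr g q S⁆
    by_cases hq : (q : ℕ) = p
    · rw [htr_eq f q S hq, htr_eq g q S hq]
    · rw [htr_ne f q S hq, htr_ne g q S hq, commutatorElement_one_right,
        commutatorElement_eq_one_iff_commute]
      have hqp : (q : ℕ).Prime := Nat.prime_of_mem_primeFactors q.2
      have hQ : IsCyclic ↥((S : Subgroup ↥H).map H.subtype) :=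
        hcyc q hqp hq _ (Subgroup.map_subtype_le _) (S.isPGroup'.map H.subtype)
      obtain ⟨g0, hg0⟩ := hQ.exists_generator
      obtain ⟨m, hm⟩ := Subgroup.mem_zpowers_iff.mp
        (hg0 ⟨((f q S : ↥H) : G), Subgroup.mem_map_of_mem H.subtype (f q S).2⟩)
      obtain ⟨n, hn⟩ := Subgroup.mem_zpowers_iff.mp
        (hg0 ⟨((g q S : ↥H) : G), Subgroup.mem_map_of_mem H.subtype (g q S).2⟩)
      have h3 := zpow_mul_comm g0 m n
      rw [hm, hn] at h3
      have h4 : ((f q S : ↥H) : G) * ((g q S : ↥H) : G) =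
          ((g q S : ↥H) : G) * ((f q S : ↥H) : G) := congrArg Subtype.val h3
      exact Subtype.ext (Subtype.ext h4)
  rw [Subgroup.commutator_le]
  intro x hx y hy
  have hx' : (⟨x, hx⟩ : ↥H) = e (e.symm ⟨x, hx⟩) := (e.apply_symm_apply _).symm
  have hy' : (⟨y, hy⟩ : ↥H) = e (e.symm ⟨y, hy⟩) := (e.apply_symm_apply _).symm
  have h1 : ⁅(⟨x, hx⟩ : ↥H), ⟨y, hy⟩⁆ =
      ⁅e (tr (e.symm ⟨x, hx⟩)), e (tr (e.symm ⟨y, hy⟩))⁆ := by
    rw [← map_commutatorElement, ← hcomm, map_commutatorElement, ← hx', ← hy']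
  have h2 : ⁅x, y⁆ = ⁅((e (tr (e.symm ⟨x, hx⟩)) : ↥H) : G),
      ((e (tr (e.symm ⟨y, hy⟩)) : ↥H) : G)⁆ := by
    have h5 := congrArg H.subtype h1
    rw [map_commutatorElement, map_commutatorElement] at h5
    exact h5
  rw [h2]
  exact Subgroup.commutator_mem_commutator (hP_mem _) (hP_mem _)

end Cfsg.Agent.Helper7
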