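import Mathlib
import Cfsg.Prelude.Def_OddOrder

/-!
# CALL S1390 (helper24), piece CJ (helper7, double): if `C_G(z) ≤ M` and `M` is the only maximal
subgroup over `C_G(g z g⁻¹)`, then `g ∈ M`.  Self-contained (Mathlib + Prelude only).
-/

set_option autoImplicit false

namespace Cfsg.Agent.Helper7

open Cfsg Subgroup

universe u

variable {G : Type u} [Group G] [Finite G]

/-- A maximal subgroup of a minimal simple group of odd order is not trivial. -/
theorem bg90cj_coatom_ne_bot (hG : IsMinSimpleOddOrder G) {M : Subgroup G} (hM : IsCoatom M) :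
    M ≠ ⊥ := by
  rintro rfl
  apply hG.2.2.1
  have hsimple := hG.2.1
  obtain ⟨g, hg⟩ := exists_ne (1 : G)
  have h1 : zpowers g = ⊤ :=
    hM.2 (zpowers g) (bot_lt_iff_ne_bot.mpr (by simpa using hg))
  have hcyc : IsCyclic G := ⟨⟨g, fun x => by
    have h2 : x ∈ zpowers g := h1 ▸ mem_top x
    exact h2⟩⟩
  exact IsCyclic.isMulCommutative

/-- The conjugate of a maximal subgroup is a maximal subgroup. -/
theorem bg90cj_isCoatom_map_conj {M : Subgroup G} (hM : IsCoatom M) (g : G) :
    IsCoatom (M.map (MulAut.conj g).toMonoidHom) := by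
  have h := ((MulAut.conj g).mapSubgroup.isCoatom_iff M).mpr hM
  exact h

/-- An element normalizing a maximal subgroup lies in it. -/
theorem bg90cj_mem_of_map_conj_eq (hG : IsMinSimpleOddOrder G) {L : Subgroup G} (hL : IsCoatom L)
    {n : G} (h : L.map (MulAut.conj n).toMonoidHom = L) : n ∈ L := by
  have := hG.2.1
  by_contra hn
  have hnN : n ∈ normalizer (L : Set G) := by
    rw [mem_normalizer_iff]
    intro x
    constructor
    · intro hx
      have h1 : n * x * n⁻¹ ∈ L.map (MulAut.conj n).toMonoidHom := ⟨x, hx, rfl⟩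
      rwa [h] at h1
    · intro hx
      have h1 : n * x * n⁻¹ ∈ L.map (MulAut.conj n).toMonoidHom := by rw [h]; exact hx
      obtain ⟨y, hy, hyx⟩ := h1
      have h2 : n * y * n⁻¹ = n * x * n⁻¹ := hyx
      have h3 : y = x := mul_left_cancel (mul_right_cancel h2)
      rw [← h3]
      exact hy
  have hlt : L < normalizer (L : Set G) :=
    lt_of_le_of_ne le_normalizer (fun e => hn (by rw [e]; exact hnN))
  have htop : normalizer (L : Set G) = ⊤ := hL.2 _ hlt
  exact (normalizer_eq_top_iff.mp htop).eq_bot_or_eq_top.elim (bg90cj_coatom_ne_bot hG hL) hL.1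

/-- CJ. If `C_G(z) ≤ M` and `M` is the only maximal subgroup over `C_G(g z g⁻¹)`, then `g ∈ M`:
`M.map (MulAut.conj g)` is a maximal subgroup containing `C_G(g z g⁻¹)`, so it equals `M`. -/
theorem bg90_mem_of_uniq_conj (hG : IsMinSimpleOddOrder G) {M : Subgroup G} (hM : IsCoatom M)
    {z g : G} (h1 : centralizer ({z} : Set G) ≤ M)
    (h2 : ∀ L : Subgroup G, IsCoatom L → centralizer ({g * z * g⁻¹} : Set G) ≤ L → L = M) :
    g ∈ M := by
  apply bg90cj_mem_of_map_conj_eq hG hM
  apply h2 _ (bg90cj_isCoatom_map_conj hM g)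
  intro c hc
  have h3 : g⁻¹ * c * g ∈ centralizer ({z} : Set G) := by
    rw [mem_centralizer_iff]
    intro h hh
    rw [Set.mem_singleton_iff] at hh
    subst hh
    have h4 : g * h * g⁻¹ * c = c * (g * h * g⁻¹) := mem_centralizer_iff.mp hc _ rfl
    have e1 : h * (g⁻¹ * c * g) = g⁻¹ * (g * h * g⁻¹ * c) * g := by group
    have e2 : g⁻¹ * c * g * h = g⁻¹ * (c * (g * h * g⁻¹)) * g := by group
    rw [e1, e2, h4]
  refine ⟨g⁻¹ * c * g, h1 h3, ?_⟩
  show g * (g⁻¹ * c * g) * g⁻¹ = c
  group

end Cfsg.Agent.Helper7
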