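/-
Helper7 library: piece M11D of CALL S3413 (helper52). In `M11` there are `1440` elements of
order `11`, `1584` of order `5`, and none of order `55` or `10`.
-/
import Cfsg.Agent.Helper7.NseM11

set_option autoImplicit false

namespace Cfsg.Agent.Helper7

open Cfsg.Agent.Helper7.Nse in
/-- M11D -/
theorem cgm_m11_data :
    Nat.card {g : ↥Cfsg.Spor.M11 // orderOf g = 11} = 1440 ∧
    Nat.card {g : ↥Cfsg.Spor.M11 // orderOf g = 5} = 1584 ∧
    (∀ g : ↥Cfsg.Spor.M11, orderOf g ≠ 55) ∧ (∀ g : ↥Cfsg.Spor.M11, orderOf g ≠ 10) := by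
  have key : ∀ n, 12 ≤ n → ∀ g : ↥Cfsg.Spor.M11, orderOf g ≠ n := by
    intro n hn g hg
    have h0 : Nat.card {g : ↥Cfsg.Spor.M11 // orderOf g = n} = 0 := by
      rw [card_order_eq]
      exact List.count_eq_zero.mpr fun h => absurd (ordsAll_ok n h).1 (by omega)
    have : Nonempty {g : ↥Cfsg.Spor.M11 // orderOf g = n} := ⟨⟨g, hg⟩⟩
    exact absurd h0 Nat.card_pos.ne'
  refine ⟨by rw [card_order_eq, ordsAll_count11], by rw [card_order_eq, ordsAll_count5],
    key 55 (by norm_num), ?_⟩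
  intro g hg
  have h0 : Nat.card {g : ↥Cfsg.Spor.M11 // orderOf g = 10} = 0 := by
    rw [card_order_eq]
    decide +kernel
  have : Nonempty {g : ↥Cfsg.Spor.M11 // orderOf g = 10} := ⟨⟨g, hg⟩⟩
  exact absurd h0 Nat.card_pos.ne'

end Cfsg.Agent.Helper7
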