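/-
Helper7 library: kernel-checked certificates for the 2-part of the Schur multiplier of `J₃`
(three word identities in the triple cover).
-/
import Cfsg.Agent.Helper7.J3Data6

set_option autoImplicit false

namespace Cfsg.Agent.Helper7.J3

open Cfsg

/-- The code of `c = p 32 * y`. -/
def m2C : ℕ := mulF (ivPC 32) ivHyC

/-- The code of `c ^ 4`. -/
def m2C4 : ℕ := mulF (mulF (mulF m2C m2C) m2C) m2C

/-- The code of `c * y * c ^ 2`. -/
def m2S2 : ℕ := mulF (mulF m2C ivHyC) (mulF m2C m2C)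

/-- The code of `c ^ 4 * y * c ^ 4`. -/
def m2S4 : ℕ := mulF (mulF m2C4 ivHyC) m2C4

theorem m2_s2_chk : mulF (mulF m2S2 m2S2) m2S2 = idC := by decide +kernel

theorem m2_s4_chk : mulF (mulF m2S4 m2S4) m2S4 = idC := by decide +kernel

theorem m2_v_chk : mulF (mulF (mulF (mulF (mulF (mulF ivHyC m2C) ivHyC) m2C) m2C) ivHyC) m2C =
    ivPC 64 := by decide +kernel

end Cfsg.Agent.Helper7.J3
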