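/-
Helper7 library: the triple cover `3·J₃` is transitive on the isotropic lines of its 9-space over
the field with four elements, and the line through the first basis vector has 23256 images.
-/
import Cfsg.Agent.Helper7.J3Checks3
import Cfsg.Agent.Helper7.J3Simple

set_option autoImplicit false

namespace Cfsg.Agent.Helper7.J3

open Cfsg
open scoped Matrix

section
variable {F : Type*} [Field F] {ω : F}

/-- The vector with code `c`. -/
def vecOf (ω : F) (c : ℕ) : Spor.F9 → F := fun z => el ω (bitN c (ix z)) (bitN c (9 + ix z))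

theorem isRow_vecOf (c : ℕ) : IsRow ω (vecOf ω c) c := fun _ => rfl

theorem isCodeM_tr {M : Matrix Spor.F9 Spor.F9 F} {c d : ℕ} (hM : IsCodeM ω M c)
    (h : isTr c d = true) : IsCodeM ω Mᵀ d := by
  intro w z
  obtain ⟨e1, e2⟩ := isTr_spec h (ix_lt w) (ix_lt z)
  rw [Matrix.transpose_apply, hM z w, e1, e2]

theorem isCodeM_gt (H : Ctx ω) {g : ℕ} (hg : g < 2) :
    IsCodeM ω ((gG H g : GL Spor.F9 F) : Matrix Spor.F9 Spor.F9 F)ᵀ (gtC g) := by
  have hg' : g = 0 ∨ g = 1 := by omega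
  rcases hg' with rfl | rfl
  · exact isCodeM_tr (isCode_gG H 0) tr_x
  · exact isCodeM_tr (isCode_gG H 1) tr_y

theorem isCodeM_sc (_H : Ctx ω) {s : ℕ} (hs : 0 < s) (hs4 : s < 4) :
    IsCodeM ω (sym ω s • (1 : Matrix Spor.F9 Spor.F9 F)) (scC s) := by
  have hs' : s = 1 ∨ s = 2 ∨ s = 3 := by omega
  rcases hs' with rfl | rfl | rfl
  · rw [sym_one, one_smul]; exact isCodeM_idC
  · show IsCodeM ω _ w1C
    rw [w1C_eq]; exact isCodeM_scal 2
  · show IsCodeM ω _ w2C
    rw [w2C_eq]; exact isCodeM_scal 3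

theorem sym_ne_zero (H : Ctx ω) {s : ℕ} (hs : 0 < s) (hs4 : s < 4) : sym ω s ≠ 0 := by
  have hs' : s = 1 ∨ s = 2 ∨ s = 3 := by omega
  rcases hs' with rfl | rfl | rfl
  · rw [sym_one]; exact one_ne_zero
  · rw [sym_two]; exact omega_ne_zero H.om
  · rw [sym_three H.two H.om]; exact pow_ne_zero 2 (omega_ne_zero H.om)

/-- A step of the tree of the isotropic vectors. -/
theorem step_vec (H : Ctx ω) {p k g s : ℕ} (hg : g < 2) (hs : 0 < s) (hs4 : s < 4)
    (e : crow (vC p) (gtC g) = crow (vC k) (scC s)) :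
    ((gG H g : GL Spor.F9 F) : Matrix Spor.F9 Spor.F9 F) *ᵥ vecOf ω (vC p) =
      sym ω s • vecOf ω (vC k) := by
  have r1 := IsRow.vecMul H.two H.om (isRow_vecOf (ω := ω) (vC p)) (isCodeM_gt H hg)
  have r2 := IsRow.vecMul H.two H.om (isRow_vecOf (ω := ω) (vC k)) (isCodeM_sc H hs hs4)
  rw [e] at r1
  have e2 := IsRow.eq r1 r2
  rw [Matrix.vecMul_transpose] at e2
  rw [e2]
  funext z
  simp only [Matrix.vecMul, dotProduct, Matrix.smul_apply, Matrix.one_apply, smul_eq_mul,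
    Pi.smul_apply]
  rw [Finset.sum_eq_single z]
  · rw [if_pos rfl, mul_one, mul_comm]
  · intro w _ hw; rw [if_neg hw, mul_zero, mul_zero]
  · intro h; exact absurd (Finset.mem_univ z) h

/-- Every vector of the list is, up to a scalar, an image of the root. -/
theorem reach (H : Ctx ω) : ∀ d k, k < 43605 → e16 j3VDep k = d →
    ∃ g ∈ Spor.threeJ3 F ω, ∃ a : F, a ≠ 0 ∧
      (g : Matrix Spor.F9 Spor.F9 F) *ᵥ vecOf ω (vC vRoot) = a • vecOf ω (vC k) := by
  intro d
  induction d using Nat.strong_induction_on with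
  | _ d ih =>
    intro k hk hd
    by_cases hr : k = vRoot
    · subst hr
      exact ⟨1, one_mem _, 1, one_ne_zero, by rw [Units.val_one, Matrix.one_mulVec, one_smul]⟩
    · obtain ⟨h1, h2, h3, h4, h5, h6⟩ := (chkV_spec hk).2.2 hr
      obtain ⟨g, hg, a, ha, e⟩ := ih _ (hd ▸ h1) _ h2 rfl
      have st := step_vec (ω := ω) H h3 h4 h5 h6
      refine ⟨gG H (e16 j3VGen k) * g, mul_mem (H3_le H (gG_mem H _)) hg,
        a * sym ω (e16 j3VSc k), mul_ne_zero ha (sym_ne_zero H h4 h5), ?_⟩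
      rw [Units.val_mul, ← Matrix.mulVec_mulVec, e, Matrix.mulVec_smul, st, smul_smul]

/-- The elements of a field with four elements. -/
theorem el_surj [Fintype F] (hF : Fintype.card F = 4) (H : Ctx ω) (x : F) :
    ∃ s, s < 4 ∧ x = sym ω s := by
  let f : Fin 4 → F := fun s => sym ω s
  have hinj : Function.Injective f := by
    intro a b h
    have h' : el ω (a % 2) (a / 2 % 2) = el ω (b % 2) (b / 2 % 2) := h
    have := el_inj H.two H.om (Nat.mod_lt _ (by norm_num)) (Nat.mod_lt _ (by norm_num))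
      (Nat.mod_lt _ (by norm_num)) (Nat.mod_lt _ (by norm_num)) h'
    apply Fin.ext
    have ha := a.2
    have hb := b.2
    omega
  have hbij : Function.Bijective f :=
    (Fintype.bijective_iff_injective_and_card f).mpr ⟨hinj, by rw [Fintype.card_fin, hF]⟩
  obtain ⟨s, hs⟩ := hbij.2 x
  exact ⟨s, s.2, hs.symm⟩

/-- Every vector has a code. -/
theorem exists_code [Fintype F] (hF : Fintype.card F = 4) (H : Ctx ω) (v : Spor.F9 → F) :
    ∃ c, c < 2 ^ 18 ∧ IsRow ω v c := by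
  choose s _ hs using fun z => el_surj hF H (v z)
  have hM := (isCodeM_packSym ω (fun _ z => s z)).row 0
  refine ⟨rowN (packSym fun _ z => s z) (ix 0), rowN_lt _ _, ?_⟩
  have e : v = (fun z => sym ω (s z)) := funext hs
  rw [e]; exact hM

/-- A nonzero vector has a normalised multiple. -/
theorem exists_norm {v : Spor.F9 → F} (hv : v ≠ 0) : ∃ a : F, a ≠ 0 ∧ NormVec (a • v) := by
  classical
  obtain ⟨z, hz⟩ := Function.ne_iff.mp hv
  have hex : ∃ t, t < 9 ∧ v (un t) ≠ 0 := ⟨ix z, ix_lt z, by rw [un_ix]; exact hz⟩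
  refine ⟨(v (un (Nat.find hex)))⁻¹, inv_ne_zero (Nat.find_spec hex).2, Nat.find hex,
    (Nat.find_spec hex).1, ?_, fun m hm => ?_⟩
  · show (v (un (Nat.find hex)))⁻¹ * v (un (Nat.find hex)) = 1
    exact inv_mul_cancel₀ (Nat.find_spec hex).2
  · have h := Nat.find_min hex hm
    have h0 : v (un m) = 0 := by
      by_contra hne
      exact h ⟨lt_trans hm (Nat.find_spec hex).1, hne⟩
    show (v (un (Nat.find hex)))⁻¹ * v (un m) = 0
    rw [h0, mul_zero]

theorem testBit_of_bitN_one {c j : ℕ} (h : bitN c j = 1) : c.testBit j = true := by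
  rw [bitN_toNat] at h
  cases hb : c.testBit j
  · rw [hb] at h; exact absurd h (by decide)
  · rfl

theorem testBit_of_bitN_zero {c j : ℕ} (h : bitN c j = 0) : c.testBit j = false := by
  rw [bitN_toNat] at h
  cases hb : c.testBit j
  · rfl
  · rw [hb] at h; exact absurd h (by decide)

theorem ntm_true {c M h : ℕ} (h1 : c % M = h) (h2 : c / 512 % M = 0) : ntm c M h = true := by
  have e : ntm c M h = (Nat.beq (c % M) h && Nat.beq (c / 512 % M) 0) := rfl
  rw [e, h1, h2, Nat.beq_refl, Nat.beq_refl]; rfl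

/-- The code of a normalised vector. -/
theorem vnormF_of (H : Ctx ω) {v : Spor.F9 → F} {c : ℕ} (hr : IsRow ω v c) (hn : NormVec v) :
    vnormF c = true := by
  obtain ⟨t, ht, h1, h0⟩ := hn
  have b1 : bitN c t = 1 ∧ bitN c (9 + t) = 0 := by
    have e := hr (un t)
    rw [h1, ix_un ht, ← el_10 (ω := ω)] at e
    obtain ⟨e0, e1⟩ := el_inj H.two H.om (by norm_num) (by norm_num) (bitN_lt _ _)
      (bitN_lt _ _) e
    exact ⟨e0.symm, e1.symm⟩
  have b0 : ∀ m, m < t → bitN c m = 0 ∧ bitN c (9 + m) = 0 := by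
    intro m hm
    have e := hr (un m)
    rw [h0 m hm, ix_un (by omega)] at e
    exact el_eq_zero H.two H.om (bitN_lt _ _) (bitN_lt _ _) e.symm
  have k1 : c % 2 ^ (t + 1) = 2 ^ t := by
    apply Nat.eq_of_testBit_eq
    intro i
    rw [Nat.testBit_mod_two_pow, Nat.testBit_two_pow]
    rcases lt_trichotomy i t with hi | hi | hi
    · rw [testBit_of_bitN_zero (b0 i hi).1, Bool.and_false]
      exact (decide_eq_false (by omega)).symm
    · subst hi
      rw [testBit_of_bitN_one b1.1]; simp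
    · rw [decide_eq_false (by omega : ¬ i < t + 1), Bool.false_and]
      exact (decide_eq_false (by omega)).symm
  have k2 : c / 512 % 2 ^ (t + 1) = 0 := by
    apply Nat.eq_of_testBit_eq
    intro i
    rw [Nat.testBit_mod_two_pow, Nat.zero_testBit, show (512 : ℕ) = 2 ^ 9 by norm_num,
      Nat.testBit_div_two_pow]
    by_cases hi : i < t + 1
    · have hb : c.testBit (i + 9) = false := by
        rw [add_comm]
        rcases Nat.lt_succ_iff_lt_or_eq.mp hi with h | h
        · exact testBit_of_bitN_zero (b0 i h).2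
        · subst h; exact testBit_of_bitN_zero b1.2
      rw [hb, Bool.and_false]
    · rw [decide_eq_false hi, Bool.false_and]
  interval_cases t <;> norm_num at k1 k2 <;> simp [vnormF, ntm_true k1 k2]

/-- The code of a vector with `Σ v_z³ = 0` has even weight. -/
theorem vparF_of (H : Ctx ω) {v : Spor.F9 → F} {c : ℕ} (hr : IsRow ω v c)
    (hiso : ∑ z, (v z) ^ 3 = 0) : vparF c = 0 := by
  have hm512 : (c ||| c >>> 9) % 2 ^ 9 < 512 := Nat.mod_lt _ (by norm_num)
  have hA : ∀ k, k < 9 → bitN ((c ||| c >>> 9) % 2 ^ 9) k =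
      if (bitN c k = 0 ∧ bitN c (9 + k) = 0) then 0 else 1 := by
    intro k hk
    rw [bitN_toNat, bitN_toNat c k, bitN_toNat c (9 + k), Nat.testBit_mod_two_pow,
      Nat.testBit_lor, Nat.testBit_shiftRight, decide_eq_true hk, Bool.true_and]
    cases c.testBit k <;> cases c.testBit (9 + k) <;> simp
  have hB : ∀ z, (v z) ^ 3 = ((bitN ((c ||| c >>> 9) % 2 ^ 9) (ix z) : ℕ) : F) := by
    intro z
    rw [hr z, hA _ (ix_lt z)]
    have h0 := bitN_lt c (ix z)
    have h1 := bitN_lt c (9 + ix z)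
    generalize bitN c (ix z) = a0 at *
    generalize bitN c (9 + ix z) = a1 at *
    interval_cases a0 <;> interval_cases a1
    · simp [el]
    · simp only [el]; norm_num; exact omega_cube H.om
    · simp [el]
    · simp only [el]; norm_num; linear_combination (ω + 2) * H.om - H.two
  have hS : ((∑ k ∈ Finset.range 9, bitN ((c ||| c >>> 9) % 2 ^ 9) k : ℕ) : F) = 0 := by
    rw [Nat.cast_sum, ← sum_ix (fun k => ((bitN ((c ||| c >>> 9) % 2 ^ 9) k : ℕ) : F)), ← hiso]
    exact Finset.sum_congr rfl (fun z _ => (hB z).symm)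
  have hpar : (∑ k ∈ Finset.range 9, bitN ((c ||| c >>> 9) % 2 ^ 9) k) % 2 = 0 := by
    have h1 := cast_mod_two H.two (∑ k ∈ Finset.range 9, bitN ((c ||| c >>> 9) % 2 ^ 9) k)
    rw [hS] at h1
    have h2 := Nat.mod_lt (∑ k ∈ Finset.range 9, bitN ((c ||| c >>> 9) % 2 ^ 9) k)
      (show 0 < 2 by norm_num)
    by_contra hne
    have h3 : (∑ k ∈ Finset.range 9, bitN ((c ||| c >>> 9) % 2 ^ 9) k) % 2 = 1 := by omega
    rw [h3, Nat.cast_one] at h1
    exact one_ne_zero h1
  have e : vparF c = bitN parTab ((c ||| c >>> 9) % 2 ^ 9) := rfl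
  rw [e, parChk_spec hm512, hpar]

theorem isNE_of (H : Ctx ω) {v : Spor.F9 → F} {c : ℕ} (hr : IsRow ω v c) (hn : NormVec v)
    (hiso : ∑ z, (v z) ^ 3 = 0) : isNE c = true := by
  rw [isNE, vnormF_of H hr hn, vparF_of H hr hiso]; rfl

/-- A nonzero isotropic vector is a multiple of a vector of the list. -/
theorem exists_idx [Fintype F] (hF : Fintype.card F = 4) (H : Ctx ω) {v : Spor.F9 → F}
    (hv : v ≠ 0) (hiso : ∑ z, (v z) ^ 3 = 0) :
    ∃ a : F, a ≠ 0 ∧ ∃ k, k < 43605 ∧ a • v = vecOf ω (vC k) := by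
  obtain ⟨a, ha, hn⟩ := exists_norm hv
  obtain ⟨c, hc, hr⟩ := exists_code hF H (a • v)
  have hiso' : ∑ z, ((a • v) z) ^ 3 = 0 := by
    have h3 : ∀ z, ((a • v) z) ^ 3 = a ^ 3 * (v z) ^ 3 := fun z => by
      rw [Pi.smul_apply, smul_eq_mul, mul_pow]
    rw [Finset.sum_congr rfl (fun z _ => h3 z), ← Finset.mul_sum, hiso, mul_zero]
  obtain ⟨k, hk, e⟩ := cover_NE hc (isNE_of H hr hn hiso')
  rw [← e] at hr
  exact ⟨a, ha, k, hk, IsRow.eq hr (isRow_vecOf _)⟩

/-- The triple cover is transitive on the isotropic lines. -/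
theorem iso_trans [Fintype F] (hF : Fintype.card F = 4) (H : Ctx ω) {v w : Spor.F9 → F}
    (hv : v ≠ 0) (hw : w ≠ 0) (hiv : ∑ z, (v z) ^ 3 = 0) (hiw : ∑ z, (w z) ^ 3 = 0) :
    ∃ g ∈ Spor.threeJ3 F ω, ∃ c : F, c ≠ 0 ∧
      (g : Matrix Spor.F9 Spor.F9 F) *ᵥ v = c • w := by
  obtain ⟨a, ha, k, hk, ek⟩ := exists_idx hF H hv hiv
  obtain ⟨b, hb, l, hl, el'⟩ := exists_idx hF H hw hiw
  obtain ⟨g1, hg1, a1, ha1, e1⟩ := reach H _ k hk rfl
  obtain ⟨g2, hg2, b1, hb1, e2⟩ := reach H _ l hl rfl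
  rw [← ek, smul_smul] at e1
  rw [← el', smul_smul] at e2
  have hβ : a1 * a ≠ 0 := mul_ne_zero ha1 ha
  have e3 : ((g1⁻¹ : GL Spor.F9 F) : Matrix Spor.F9 Spor.F9 F) *ᵥ v =
      (a1 * a)⁻¹ • vecOf ω (vC vRoot) := by
    have h1 : (a1 * a)⁻¹ • ((g1 : Matrix Spor.F9 Spor.F9 F) *ᵥ vecOf ω (vC vRoot)) = v := by
      rw [e1, smul_smul, inv_mul_cancel₀ hβ, one_smul]
    calc ((g1⁻¹ : GL Spor.F9 F) : Matrix Spor.F9 Spor.F9 F) *ᵥ v
        = ((g1⁻¹ : GL Spor.F9 F) : Matrix Spor.F9 Spor.F9 F) *ᵥ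
            ((a1 * a)⁻¹ • ((g1 : Matrix Spor.F9 Spor.F9 F) *ᵥ vecOf ω (vC vRoot))) := by
          rw [h1]
      _ = (a1 * a)⁻¹ • vecOf ω (vC vRoot) := by
          rw [Matrix.mulVec_smul, Matrix.mulVec_mulVec, ← Units.val_mul, inv_mul_cancel,
            Units.val_one, Matrix.one_mulVec]
  refine ⟨g2 * g1⁻¹, mul_mem hg2 (inv_mem hg1), (a1 * a)⁻¹ * (b1 * b),
    mul_ne_zero (inv_ne_zero hβ) (mul_ne_zero hb1 hb), ?_⟩
  rw [Units.val_mul, ← Matrix.mulVec_mulVec, e3, Matrix.mulVec_smul, e2, smul_smul]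

/-- Transversal elements with proportional first columns are equal. -/
theorem Ug_col_inj (H : Ctx ω) {i i' : ℕ} (hi : i < 23256) (hi' : i' < 23256) {a : F}
    (ha : a ≠ 0) (e1 : ∀ w, (Ug H i : Matrix Spor.F9 Spor.F9 F) w 0 =
      a * (Ug H i' : Matrix Spor.F9 Spor.F9 F) w 0) : i = i' := by
  have n1 := normVec_of_normOK (Ug_code H hi) (chk4_spec hi).1
  have n2 := normVec_of_normOK (Ug_code H hi') (chk4_spec hi').1
  have e2 := NormVec.eq_one n1 n2 ha e1
  have e3 : skC (uC i) = skC (uC i') :=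
    skC_eq_of_col H.two H.om (Ug_code H hi) (Ug_code H hi') (fun w => by rw [e1 w, e2, one_mul])
  rcases lt_trichotomy i i' with h1 | h1 | h1
  · exact absurd e3 (ne_of_lt (skC_strict i' i h1 hi'))
  · exact h1
  · exact absurd e3.symm (ne_of_lt (skC_strict i i' h1 hi))

/-- The line through the first basis vector has 23256 images. -/
theorem lines_ncard (H : Ctx ω) :
    {L : Submodule F (Spor.F9 → F) | ∃ g ∈ Spor.threeJ3 F ω,
      L = F ∙ ((g : Matrix Spor.F9 Spor.F9 F) *ᵥ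
        (Pi.single (0 : Spor.F9) (1 : F) : Spor.F9 → F))}.ncard = 23256 := by
  let f : Fin 23256 → Submodule F (Spor.F9 → F) := fun i =>
    F ∙ (fun w => (Ug H i : Matrix Spor.F9 Spor.F9 F) w 0)
  have hcol : ∀ g : GL Spor.F9 F, (g : Matrix Spor.F9 Spor.F9 F) *ᵥ
      (Pi.single (0 : Spor.F9) (1 : F) : Spor.F9 → F) =
      fun w => (g : Matrix Spor.F9 Spor.F9 F) w 0 := by
    intro g; rw [Matrix.mulVec_single_one]; rfl
  have hset : {L : Submodule F (Spor.F9 → F) | ∃ g ∈ Spor.threeJ3 F ω,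
      L = F ∙ ((g : Matrix Spor.F9 Spor.F9 F) *ᵥ
        (Pi.single (0 : Spor.F9) (1 : F) : Spor.F9 → F))} = Set.range f := by
    ext L
    constructor
    · rintro ⟨g, hg, rfl⟩
      obtain ⟨i, j, hi, hj, rfl⟩ := coords H hg
      refine ⟨⟨i, hi⟩, ?_⟩
      rw [hcol]
      have e : (fun w => ((Ug H i * Sg H j : GL Spor.F9 F) : Matrix Spor.F9 Spor.F9 F) w 0) =
          (Sg H j : Matrix Spor.F9 Spor.F9 F) 0 0 •
            (fun w => (Ug H i : Matrix Spor.F9 Spor.F9 F) w 0) := by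
        funext w
        rw [Units.val_mul, col_mul_Sg H _ hj, Pi.smul_apply, smul_eq_mul, mul_comm]
      rw [e, Submodule.span_singleton_smul_eq (IsUnit.mk0 _ (Sg_col H hj).1)]
    · rintro ⟨i, rfl⟩
      exact ⟨Ug H i, Ug_mem3 H i, by rw [hcol]⟩
  have hinj : Function.Injective f := by
    intro i i' h
    have hmem : (fun w => (Ug H i : Matrix Spor.F9 Spor.F9 F) w 0) ∈
        F ∙ (fun w => (Ug H i' : Matrix Spor.F9 Spor.F9 F) w 0) := by
      have h1 : (fun w => (Ug H i : Matrix Spor.F9 Spor.F9 F) w 0) ∈ f i :=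
        Submodule.mem_span_singleton_self _
      rw [h] at h1; exact h1
    obtain ⟨a, ha⟩ := Submodule.mem_span_singleton.mp hmem
    have n1 := normVec_of_normOK (Ug_code H i.2) (chk4_spec i.2).1
    have ha0 : a ≠ 0 := by
      rintro rfl
      obtain ⟨t, _, h1, _⟩ := n1
      have h2 := congrFun ha (un t)
      rw [zero_smul, Pi.zero_apply] at h2
      exact zero_ne_one (h2.trans h1)
    exact Fin.ext (Ug_col_inj H i.2 i'.2 ha0 (fun w => (congrFun ha w).symm))
  rw [hset, ← Set.image_univ, Set.ncard_image_of_injective _ hinj, Set.ncard_univ, Nat.card_fin]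

end

end Cfsg.Agent.Helper7.J3
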