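import Mathlib
import Cfsg.Agent.Helper89.Stem

/-!
# Central extensions with kernel of exponent 2: generic lemmas (helper7)

Tools for showing that a central extension `τ : X →* G` with kernel of exponent 2 inside the
commutator subgroup is trivial, by splitting it over a Sylow 2-subgroup:

* `Mult2.lift_comm_of_odd`: lifts of elements of odd order commute with lifts of the elements
  they commute with;
* `Mult2.lift_sq_eq_one`: if all involutions of `G` are conjugate and `G` contains an elementary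
  abelian subgroup of order 8, every lift of an involution is an involution;
* `Mult2.card_closure_tower`: order bound for a group generated over a subgroup by a list of
  elements normalising it and each other modulo it;
* `Mult2.ker_trivial_of_sylow_split`: the extension is trivial as soon as it splits over a
  2-subgroup of odd index.
-/

set_option autoImplicit false

namespace Cfsg.Agent.Helper7.Mult2

open Subgroup

section
variable {X G : Type*} [Group X] [Group G] (τ : X →* G)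

/-- A central element of square one drops out of squares. -/
theorem central_mul_sq {a : X} (hc : ∀ g, a * g = g * a) (ha : a ^ 2 = 1) (z : X) :
    (a * z) ^ 2 = z ^ 2 := by
  calc (a * z) ^ 2 = a * (z * a) * z := by rw [pow_two]; group
    _ = a * (a * z) * z := by rw [hc z]
    _ = a ^ 2 * z ^ 2 := by rw [pow_two, pow_two]; group
    _ = z ^ 2 := by rw [ha, one_mul]

/-- Lifts of elements of odd order commute with lifts of the elements they commute with. -/
theorem lift_comm_of_odd (hker : ∀ x, τ x = 1 → x ∈ center X ∧ x ^ 2 = 1) (x d : X) (m : ℕ)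
    (hx : τ x ^ (2 * m + 1) = 1) (hcomm : τ x * τ d = τ d * τ x) : x * d = d * x := by
  obtain ⟨a, ha⟩ : ∃ a, a = x * d * x⁻¹ * d⁻¹ := ⟨_, rfl⟩
  have hta : τ a = 1 := by
    rw [ha]; simp only [map_mul, map_inv]; rw [hcomm]; group
  obtain ⟨hac, ha2⟩ := hker _ hta
  have hcen : ∀ g, g * a = a * g := fun g => mem_center_iff.mp hac g
  have hxd : x * d = a * d * x := by rw [ha]; group
  have h2 : x ^ 2 * d = d * x ^ 2 := by
    calc x ^ 2 * d = x * (x * d) := by rw [pow_two]; group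
      _ = x * (a * d * x) := by rw [hxd]
      _ = (x * a) * d * x := by group
      _ = (a * x) * d * x := by rw [hcen x]
      _ = a * (x * d) * x := by group
      _ = a * (a * d * x) * x := by rw [hxd]
      _ = (a ^ 2) * d * x ^ 2 := by rw [pow_two, pow_two]; group
      _ = d * x ^ 2 := by rw [ha2, one_mul]
  have hxn : τ (x ^ (2 * m + 1)) = 1 := by rw [map_pow, hx]
  obtain ⟨hnc, _⟩ := hker _ hxn
  have h3 : d * x ^ (2 * m + 1) = x ^ (2 * m + 1) * d := mem_center_iff.mp hnc d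
  have h4 : (x ^ 2) ^ m * d = d * (x ^ 2) ^ m :=
    (Commute.pow_left (show Commute (x ^ 2) d from h2) m).eq
  have h5 : x ^ (2 * m + 1) = (x ^ 2) ^ m * x := by rw [pow_succ, pow_mul]
  rw [h5] at h3
  have h6 : (x ^ 2) ^ m * (x * d) = (x ^ 2) ^ m * (d * x) := by
    calc (x ^ 2) ^ m * (x * d) = (x ^ 2) ^ m * x * d := by group
      _ = d * ((x ^ 2) ^ m * x) := h3.symm
      _ = (d * (x ^ 2) ^ m) * x := by group
      _ = ((x ^ 2) ^ m * d) * x := by rw [h4]
      _ = (x ^ 2) ^ m * (d * x) := by group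
  exact mul_left_cancel h6

/-- If all involutions of `G` are conjugate and `G` contains three independent commuting
involutions, then every lift of an involution is an involution. -/
theorem lift_sq_eq_one (hτ : Function.Surjective τ)
    (hker : ∀ x, τ x = 1 → x ∈ center X ∧ x ^ 2 = 1) (t : G)
    (hconj : ∀ g : G, g ≠ 1 → g ^ 2 = 1 → ∃ h, g = h * t * h⁻¹)
    (e1 e2 e3 : G) (h1 : e1 ^ 2 = 1) (h2 : e2 ^ 2 = 1) (h3 : e3 ^ 2 = 1)
    (h12 : e1 * e2 = e2 * e1) (h13 : e1 * e3 = e3 * e1) (h23 : e2 * e3 = e3 * e2)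
    (n1 : e1 ≠ 1) (n2 : e2 ≠ 1) (n3 : e3 ≠ 1) (n12 : e1 * e2 ≠ 1) (n13 : e1 * e3 ≠ 1)
    (n23 : e2 * e3 ≠ 1) (n123 : e1 * e2 * e3 ≠ 1) :
    ∀ x : X, τ x ^ 2 = 1 → x ^ 2 = 1 := by
  obtain ⟨xt, hxt⟩ := hτ t
  have ht2 : t ^ 2 = 1 := by
    obtain ⟨h, hh⟩ := hconj e1 n1 h1
    have e : t ^ 2 = h⁻¹ * e1 ^ 2 * h := by rw [hh, pow_two, pow_two]; group
    rw [e, h1]; group
  obtain ⟨s, hs⟩ : ∃ s, s = xt ^ 2 := ⟨_, rfl⟩
  have hts : τ s = 1 := by rw [hs, map_pow, hxt, ht2]
  obtain ⟨hsc, hs2⟩ := hker s hts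
  have scen : ∀ g, g * s = s * g := fun g => mem_center_iff.mp hsc g
  -- every lift of an involution has square `s`
  have hA : ∀ x : X, τ x ≠ 1 → τ x ^ 2 = 1 → x ^ 2 = s := by
    intro x hx1 hx2
    obtain ⟨h, hh⟩ := hconj (τ x) hx1 hx2
    obtain ⟨h', rfl⟩ := hτ h
    obtain ⟨a, ha⟩ : ∃ a, a = x * (h' * xt * h'⁻¹)⁻¹ := ⟨_, rfl⟩
    have hk : τ a = 1 := by
      rw [ha, map_mul, map_inv, map_mul, map_mul, map_inv, hxt, ← hh, mul_inv_cancel]
    have hxe : x = a * (h' * xt * h'⁻¹) := by rw [ha]; group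
    obtain ⟨hac, ha2⟩ := hker a hk
    have acen : ∀ g, a * g = g * a := fun g => (mem_center_iff.mp hac g).symm
    calc x ^ 2 = (a * (h' * xt * h'⁻¹)) ^ 2 := by rw [← hxe]
      _ = (h' * xt * h'⁻¹) ^ 2 := central_mul_sq acen ha2 _
      _ = h' * xt ^ 2 * h'⁻¹ := by rw [pow_two, pow_two]; group
      _ = h' * s * h'⁻¹ := by rw [hs]
      _ = s * h' * h'⁻¹ := by rw [scen h']
      _ = s := by group
  -- lifts of commuting involutions with non-trivial product
  have hB : ∀ x1 x2 : X, τ x1 ≠ 1 → τ x1 ^ 2 = 1 → τ x2 ≠ 1 → τ x2 ^ 2 = 1 →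
      τ x1 * τ x2 = τ x2 * τ x1 → τ x1 * τ x2 ≠ 1 → x1 * x2 = s * (x2 * x1) := by
    intro x1 x2 a1 b1 a2 b2 hc hn
    have q1 := hA x1 a1 b1
    have q2 := hA x2 a2 b2
    have q12 : (x1 * x2) ^ 2 = s := by
      apply hA
      · rw [map_mul]; exact hn
      · rw [map_mul, pow_two]
        calc τ x1 * τ x2 * (τ x1 * τ x2) = τ x1 * (τ x2 * τ x1) * τ x2 := by group
          _ = τ x1 * (τ x1 * τ x2) * τ x2 := by rw [hc]
          _ = τ x1 ^ 2 * τ x2 ^ 2 := by rw [pow_two, pow_two]; group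
          _ = 1 := by rw [b1, b2, one_mul]
    apply mul_right_cancel (b := x1 * x2)
    calc x1 * x2 * (x1 * x2) = s := by rw [← pow_two, q12]
      _ = s ^ 2 * s := by rw [hs2, one_mul]
      _ = s * (s * x2 ^ 2) := by rw [q2, pow_two]; group
      _ = s * (x2 * s * x2) := by rw [scen x2, pow_two]; group
      _ = s * (x2 * x1 ^ 2 * x2) := by rw [q1]
      _ = s * (x2 * x1) * (x1 * x2) := by rw [pow_two]; group
  obtain ⟨x1, hx1⟩ := hτ e1
  obtain ⟨x2, hx2⟩ := hτ e2
  obtain ⟨x3, hx3⟩ := hτ e3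
  have w13 := hB x1 x3 (by rw [hx1]; exact n1) (by rw [hx1]; exact h1) (by rw [hx3]; exact n3)
    (by rw [hx3]; exact h3) (by rw [hx1, hx3]; exact h13) (by rw [hx1, hx3]; exact n13)
  have w23 := hB x2 x3 (by rw [hx2]; exact n2) (by rw [hx2]; exact h2) (by rw [hx3]; exact n3)
    (by rw [hx3]; exact h3) (by rw [hx2, hx3]; exact h23) (by rw [hx2, hx3]; exact n23)
  have w123 := hB (x1 * x2) x3 (by rw [map_mul, hx1, hx2]; exact n12)
    (by
      rw [map_mul, hx1, hx2, pow_two]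
      calc e1 * e2 * (e1 * e2) = e1 * (e2 * e1) * e2 := by group
        _ = e1 * (e1 * e2) * e2 := by rw [h12]
        _ = e1 ^ 2 * e2 ^ 2 := by rw [pow_two, pow_two]; group
        _ = 1 := by rw [h1, h2, one_mul])
    (by rw [hx3]; exact n3) (by rw [hx3]; exact h3)
    (by
      rw [map_mul, hx1, hx2, hx3]
      calc e1 * e2 * e3 = e1 * (e2 * e3) := by group
        _ = e1 * (e3 * e2) := by rw [h23]
        _ = (e1 * e3) * e2 := by group
        _ = (e3 * e1) * e2 := by rw [h13]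
        _ = e3 * (e1 * e2) := by group)
    (by rw [map_mul, hx1, hx2, hx3]; exact n123)
  have hs1 : s = 1 := by
    have e : x1 * x2 * x3 = x3 * (x1 * x2) := by
      calc x1 * x2 * x3 = x1 * (x2 * x3) := by group
        _ = x1 * (s * (x3 * x2)) := by rw [w23]
        _ = (x1 * s) * x3 * x2 := by group
        _ = (s * x1) * x3 * x2 := by rw [scen x1]
        _ = s * (x1 * x3) * x2 := by group
        _ = s * (s * (x3 * x1)) * x2 := by rw [w13]
        _ = s ^ 2 * (x3 * (x1 * x2)) := by rw [pow_two]; group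
        _ = x3 * (x1 * x2) := by rw [hs2, one_mul]
    rw [e] at w123
    exact (mul_eq_right (b := x3 * (x1 * x2))).mp w123.symm
  intro x hx
  by_cases hx1 : τ x = 1
  · exact (hker x hx1).2
  · rw [hA x hx1 hx, hs1]

/-- Conjugating the square of a product, up to central factors of the conjugates. -/
theorem conj_sq_of_lift (hker : ∀ x, τ x = 1 → x ∈ center X ∧ x ^ 2 = 1) (g z1 z2 w1 w2 : X)
    (h1 : τ (g * z1 * g⁻¹) = τ w1) (h2 : τ (g * z2 * g⁻¹) = τ w2) :
    g * (z1 * z2) ^ 2 * g⁻¹ = (w1 * w2) ^ 2 := by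
  obtain ⟨a, ha⟩ : ∃ a, a = g * z1 * g⁻¹ * w1⁻¹ := ⟨_, rfl⟩
  obtain ⟨b, hb⟩ : ∃ b, b = g * z2 * g⁻¹ * w2⁻¹ := ⟨_, rfl⟩
  have hta : τ a = 1 := by rw [ha, map_mul, h1, map_inv, mul_inv_cancel]
  have htb : τ b = 1 := by rw [hb, map_mul, h2, map_inv, mul_inv_cancel]
  have e1 : g * z1 * g⁻¹ = a * w1 := by rw [ha]; group
  have e2 : g * z2 * g⁻¹ = b * w2 := by rw [hb]; group
  have cb : ∀ x, x * b = b * x := fun x => mem_center_iff.mp (hker b htb).1 x
  have hab : τ (a * b) = 1 := by rw [map_mul, hta, htb, one_mul]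
  obtain ⟨habc, hab2⟩ := hker _ hab
  calc g * (z1 * z2) ^ 2 * g⁻¹ = ((g * z1 * g⁻¹) * (g * z2 * g⁻¹)) ^ 2 := by
        rw [pow_two, pow_two]; group
    _ = (a * w1 * (b * w2)) ^ 2 := by rw [e1, e2]
    _ = (a * b * (w1 * w2)) ^ 2 := by
        have e : a * w1 * (b * w2) = a * b * (w1 * w2) := by
          calc a * w1 * (b * w2) = a * (w1 * b) * w2 := by group
            _ = a * (b * w1) * w2 := by rw [cb w1]
            _ = a * b * (w1 * w2) := by group
        rw [e]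
    _ = (w1 * w2) ^ 2 := central_mul_sq (fun x => (mem_center_iff.mp habc x).symm) hab2 _

/-- Swapping two involutions in a product whose square is an involution. -/
theorem sq_swap {a b T : X} (ha : a ^ 2 = 1) (hb : b ^ 2 = 1) (hab : (a * b) ^ 2 = T)
    (hT : T ^ 2 = 1) : (b * a) ^ 2 = T := by
  have e : b * a = (a * b)⁻¹ := by
    rw [eq_inv_iff_mul_eq_one]
    calc b * a * (a * b) = b * a ^ 2 * b := by rw [pow_two]; group
      _ = 1 := by rw [ha, mul_one, ← pow_two, hb]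
  rw [e, inv_pow, hab]
  exact inv_eq_of_mul_eq_one_left (by rw [← pow_two, hT])

/-- Integer powers of an involution. -/
theorem zpow_of_sq {a : X} (ha : a ^ 2 = 1) (n : ℤ) : a ^ n = 1 ∨ a ^ n = a := by
  have h2 : a ^ (2 : ℤ) = 1 := by
    have : a ^ (2 : ℤ) = a ^ (2 : ℕ) := by norm_cast
    rw [this, ha]
  obtain ⟨k, rfl | rfl⟩ := Int.even_or_odd' n
  · left; rw [zpow_mul, h2, one_zpow]
  · right; rw [zpow_add, zpow_mul, h2, one_zpow, one_mul, zpow_one]

/-- Lifts of commuting involutions commute (given that lifts of involutions are involutions). -/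
theorem lift_comm_of_invol (hsq : ∀ x : X, τ x ^ 2 = 1 → x ^ 2 = 1) (x1 x2 : X)
    (h1 : τ x1 ^ 2 = 1) (h2 : τ x2 ^ 2 = 1) (hc : τ x1 * τ x2 = τ x2 * τ x1) :
    x1 * x2 = x2 * x1 := by
  have q1 := hsq x1 h1
  have q2 := hsq x2 h2
  have q12 : (x1 * x2) ^ 2 = 1 := by
    apply hsq
    rw [map_mul, pow_two]
    calc τ x1 * τ x2 * (τ x1 * τ x2) = τ x1 * (τ x2 * τ x1) * τ x2 := by group
      _ = τ x1 * (τ x1 * τ x2) * τ x2 := by rw [hc]
      _ = τ x1 ^ 2 * τ x2 ^ 2 := by rw [pow_two, pow_two]; group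
      _ = 1 := by rw [h1, h2, one_mul]
  apply mul_right_cancel (b := x1 * x2)
  calc x1 * x2 * (x1 * x2) = 1 := by rw [← pow_two, q12]
    _ = x2 * x1 ^ 2 * x2 := by rw [q1, mul_one, ← pow_two, q2]
    _ = x2 * x1 * (x1 * x2) := by rw [pow_two]; group

end

section tower
variable {X : Type*} [Group X]

/-- Adjoining an element which normalises a subgroup and whose square lies in it. -/
theorem closure_insert_mem (H : Subgroup X) (v : X) (hv2 : v * v ∈ H)
    (hvn : ∀ h ∈ H, v * h * v⁻¹ ∈ H) :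
    ∀ g ∈ closure (insert v (H : Set X)), ∃ h ∈ H, g = h ∨ g = h * v := by
  have hvi : v⁻¹ * v⁻¹ ∈ H := by
    have : v⁻¹ * v⁻¹ = (v * v)⁻¹ := by group
    rw [this]; exact H.inv_mem hv2
  have key : ∀ y ∈ insert v (H : Set X), ∀ x : X, (∃ h ∈ H, x = h ∨ x = h * v) →
      (∃ h ∈ H, x * y = h ∨ x * y = h * v) ∧ (∃ h ∈ H, x * y⁻¹ = h ∨ x * y⁻¹ = h * v) := by
    intro y hy x hx
    obtain ⟨h, hh, e | e⟩ := hx
    · rw [e]
      rcases hy with hy | hy
      · rw [hy]
        exact ⟨⟨h, hh, Or.inr rfl⟩, ⟨h * (v⁻¹ * v⁻¹), H.mul_mem hh hvi, Or.inr (by group)⟩⟩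
      · exact ⟨⟨h * y, H.mul_mem hh hy, Or.inl rfl⟩,
          ⟨h * y⁻¹, H.mul_mem hh (H.inv_mem hy), Or.inl rfl⟩⟩
    · rw [e]
      rcases hy with hy | hy
      · rw [hy]
        exact ⟨⟨h * (v * v), H.mul_mem hh hv2, Or.inl (by group)⟩, ⟨h, hh, Or.inl (by group)⟩⟩
      · exact ⟨⟨h * (v * y * v⁻¹), H.mul_mem hh (hvn y hy), Or.inr (by group)⟩,
          ⟨h * (v * y⁻¹ * v⁻¹), H.mul_mem hh (hvn _ (H.inv_mem hy)), Or.inr (by group)⟩⟩
  intro g hg
  induction hg using Subgroup.closure_induction_right with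
  | one => exact ⟨1, H.one_mem, Or.inl rfl⟩
  | mul_right x _ y hy ih => exact (key y hy x ih).1
  | mul_inv_cancel x _ y hy ih => exact (key y hy x ih).2

theorem card_closure_insert_le [Finite X] (H : Subgroup X) (v : X) (hv2 : v * v ∈ H)
    (hvn : ∀ h ∈ H, v * h * v⁻¹ ∈ H) :
    Nat.card ↥(closure (insert v (H : Set X))) ≤ 2 * Nat.card ↥H := by
  classical
  let f : ↥H × Bool → X := fun p => if p.2 = true then (p.1 : X) * v else (p.1 : X)
  have hsub : ((closure (insert v (H : Set X)) : Subgroup X) : Set X) ⊆ f '' Set.univ := by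
    intro g hg
    obtain ⟨h, hh, e | e⟩ := closure_insert_mem H v hv2 hvn g hg
    · exact ⟨(⟨h, hh⟩, false), Set.mem_univ _, by simp [f, e]⟩
    · exact ⟨(⟨h, hh⟩, true), Set.mem_univ _, by simp [f, e]⟩
  have h1 : Nat.card ↥(closure (insert v (H : Set X))) ≤ (f '' Set.univ).ncard := by
    have := Set.ncard_le_ncard hsub (Set.toFinite _)
    rwa [← Nat.card_coe_set_eq] at this
  have h2 : (f '' Set.univ).ncard ≤ Nat.card (↥H × Bool) := by
    have := Set.ncard_image_le (f := f) (s := Set.univ) (Set.toFinite _)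
    rwa [Set.ncard_univ] at this
  have h3 : Nat.card (↥H × Bool) = 2 * Nat.card ↥H := by
    rw [Nat.card_prod, Nat.card_eq_fintype_card (α := Bool), Fintype.card_bool]
    ring
  exact (h1.trans h2).trans h3.le

/-- Conjugation by `g` preserves the group obtained by adjoining `v`, if it preserves `H` and
maps `v` into the new group. -/
theorem conj_closure_insert (g : X) (H : Subgroup X) (v : X)
    (hH : ∀ h ∈ H, g * h * g⁻¹ ∈ H) (hv : g * v * g⁻¹ ∈ closure (insert v (H : Set X))) :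
    ∀ h ∈ closure (insert v (H : Set X)), g * h * g⁻¹ ∈ closure (insert v (H : Set X)) := by
  intro h hh
  induction hh using Subgroup.closure_induction with
  | mem x hx =>
    rcases hx with rfl | hx
    · exact hv
    · exact subset_closure (Or.inr (hH x hx))
  | one => simp
  | mul a b _ _ iha ihb =>
    have : g * (a * b) * g⁻¹ = (g * a * g⁻¹) * (g * b * g⁻¹) := by group
    rw [this]; exact mul_mem iha ihb
  | inv a _ iha =>
    have : g * a⁻¹ * g⁻¹ = (g * a * g⁻¹)⁻¹ := by group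
    rw [this]; exact inv_mem iha

/-- Order bound for a tower of extensions of degree at most 2. -/
theorem card_closure_tower [Finite X] (L : List X) : ∀ (H : Subgroup X),
    (∀ v ∈ L, v * v ∈ H) → (∀ v ∈ L, ∀ h ∈ H, v * h * v⁻¹ ∈ H) →
    (∀ v ∈ L, ∀ w ∈ L, ∃ h ∈ H, v * w * v⁻¹ = h * w) →
    Nat.card ↥(closure ((H : Set X) ∪ {x | x ∈ L})) ≤ 2 ^ L.length * Nat.card ↥H := by
  induction L with
  | nil =>
    intro H _ _ _
    have : (H : Set X) ∪ {x | x ∈ ([] : List X)} = H := by ext x; simp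
    rw [this, closure_eq]; simp
  | cons v L ih =>
    intro H h1 h2 h3
    have hHle : H ≤ closure (insert v (H : Set X)) := fun x hx => subset_closure (Or.inr hx)
    have hvmem : v ∈ closure (insert v (H : Set X)) := subset_closure (Or.inl rfl)
    have hc := card_closure_insert_le H v (h1 v List.mem_cons_self)
      (h2 v List.mem_cons_self)
    have ih' := ih (closure (insert v (H : Set X)))
      (fun w hw => hHle (h1 w (List.mem_cons_of_mem _ hw)))
      (fun w hw => conj_closure_insert w H v (h2 w (List.mem_cons_of_mem _ hw))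
        (by
          obtain ⟨h, hh, e⟩ := h3 w (List.mem_cons_of_mem _ hw) v List.mem_cons_self
          rw [e]; exact mul_mem (hHle hh) hvmem))
      (fun w hw w' hw' => by
        obtain ⟨h, hh, e⟩ := h3 w (List.mem_cons_of_mem _ hw) w' (List.mem_cons_of_mem _ hw')
        exact ⟨h, hHle hh, e⟩)
    have hle : closure ((H : Set X) ∪ {x | x ∈ v :: L}) ≤
        closure (((closure (insert v (H : Set X)) : Subgroup X) : Set X) ∪ {x | x ∈ L}) := by
      rw [closure_le]
      rintro x (hx | hx)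
      · exact subset_closure (Or.inl (hHle hx))
      · rcases List.mem_cons.mp hx with rfl | hx
        · exact subset_closure (Or.inl hvmem)
        · exact subset_closure (Or.inr hx)
    calc Nat.card ↥(closure ((H : Set X) ∪ {x | x ∈ v :: L}))
        ≤ Nat.card ↥(closure (((closure (insert v (H : Set X)) : Subgroup X) : Set X) ∪
            {x | x ∈ L})) := Subgroup.card_le_of_le hle
      _ ≤ 2 ^ L.length * Nat.card ↥(closure (insert v (H : Set X))) := ih'
      _ ≤ 2 ^ L.length * (2 * Nat.card ↥H) := Nat.mul_le_mul_left _ hc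
      _ = 2 ^ (v :: L).length * Nat.card ↥H := by rw [List.length_cons, pow_succ]; ring

end tower

section sylow
open scoped commutatorElement
variable {X G : Type*} [Group X] [Group G] (τ : X →* G)

/-- Central factors drop out of commutators. -/
theorem comm_central_drop {k₁ k₂ s₁ s₂ : X} (c1 : ∀ g, k₁ * g = g * k₁)
    (c2 : ∀ g, k₂ * g = g * k₂) :
    (k₁ * s₁) * (k₂ * s₂) * (k₁ * s₁)⁻¹ * (k₂ * s₂)⁻¹ = s₁ * s₂ * s₁⁻¹ * s₂⁻¹ := by
  have h1 : k₁ * (s₂ * k₂) * k₁⁻¹ = s₂ * k₂ := by rw [c1 (s₂ * k₂)]; group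
  have h2 : k₂ * s₁⁻¹ * k₂⁻¹ = s₁⁻¹ := by rw [c2 s₁⁻¹]; group
  calc (k₁ * s₁) * (k₂ * s₂) * (k₁ * s₁)⁻¹ * (k₂ * s₂)⁻¹
      = (s₁ * k₁) * (s₂ * k₂) * (s₁ * k₁)⁻¹ * (s₂ * k₂)⁻¹ := by rw [c1 s₁, c2 s₂]
    _ = s₁ * (k₁ * (s₂ * k₂) * k₁⁻¹) * s₁⁻¹ * k₂⁻¹ * s₂⁻¹ := by group
    _ = s₁ * (s₂ * k₂) * s₁⁻¹ * k₂⁻¹ * s₂⁻¹ := by rw [h1]
    _ = s₁ * s₂ * (k₂ * s₁⁻¹ * k₂⁻¹) * s₂⁻¹ := by group
    _ = s₁ * s₂ * s₁⁻¹ * s₂⁻¹ := by rw [h2]

/-- A central extension with kernel of exponent 2 inside the commutator subgroup is trivial as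
soon as it splits over a 2-subgroup of odd index. -/
theorem ker_trivial_of_sylow_split [Finite X] (hτ : Function.Surjective τ)
    (hker : ∀ x, τ x = 1 → x ∈ center X ∧ x ^ 2 = 1) (hd : τ.ker ≤ commutator X)
    (S₀ : Subgroup X) (hinj : ∀ z ∈ S₀, τ z = 1 → z = 1)
    (SG : Subgroup G) (hSG : SG ≤ S₀.map τ) (hp : IsPGroup 2 SG) (hidx : ¬ 2 ∣ SG.index) :
    ∀ x, τ x = 1 → x = 1 := by
  have : Fact (Nat.Prime 2) := ⟨Nat.prime_two⟩
  have cen : ∀ {k : X}, τ k = 1 → ∀ g, k * g = g * k := fun hk g =>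
    (mem_center_iff.mp (hker _ hk).1 g).symm
  -- the preimage of `SG` is a Sylow 2-subgroup
  have hM : IsPGroup 2 (SG.comap τ) := by
    intro m
    obtain ⟨k, hk⟩ := hp ⟨τ m, m.2⟩
    have h1 : τ ((m : X) ^ 2 ^ k) = 1 := by
      rw [map_pow]
      have := congrArg Subtype.val hk
      simpa using this
    refine ⟨k + 1, Subtype.ext ?_⟩
    rw [Subgroup.coe_pow, pow_succ, pow_mul]
    exact (hker _ h1).2
  have hMidx : ¬ 2 ∣ (SG.comap τ).index := by
    rw [Subgroup.index_comap_of_surjective SG hτ]; exact hidx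
  have hc : τ.ker ≤ center X := fun x hx => (hker x (MonoidHom.mem_ker.mp hx)).1
  have hnd : ¬ 2 ∣ Nat.card τ.ker := by
    apply Cfsg.Agent.Helper89.Stem.not_dvd_card_ker τ hc hd 2
    intro P z hz hz1
    obtain ⟨g, hg⟩ := MulAction.exists_smul_eq X P (hM.toSylow hMidx)
    -- conjugation by `g` maps `P` into the preimage of `SG`
    have hP : ∀ x ∈ (P : Subgroup X), g * x * g⁻¹ ∈ SG.comap τ := by
      intro x hx
      have h2 : g * x * g⁻¹ ∈ ((g • P : Sylow 2 X) : Subgroup X) := by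
        rw [Sylow.coe_subgroup_smul, Subgroup.mem_pointwise_smul_iff_inv_smul_mem,
          MulAut.smul_def, MulAut.conj_inv_apply]
        have : g⁻¹ * (g * x * g⁻¹) * g = x := by group
        rw [this]; exact hx
      rw [hg] at h2
      exact h2
    -- every element of the preimage is a central element times an element of `S₀`
    have hdec : ∀ x ∈ (P : Subgroup X), ∃ k s, τ k = 1 ∧ s ∈ S₀ ∧ g * x * g⁻¹ = k * s := by
      intro x hx
      obtain ⟨s, hs, hs'⟩ := hSG (hP x hx)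
      refine ⟨g * x * g⁻¹ * s⁻¹, s, ?_, hs, by group⟩
      rw [map_mul, map_inv, hs', mul_inv_cancel]
    have hcomm : commutator ↥(P : Subgroup X) ≤
        (S₀.comap (MulAut.conj g).toMonoidHom).comap (P : Subgroup X).subtype := by
      rw [commutator_def, Subgroup.commutator_le]
      intro a _ b _
      obtain ⟨k₁, s₁, hk₁, hs₁, e₁⟩ := hdec a a.2
      obtain ⟨k₂, s₂, hk₂, hs₂, e₂⟩ := hdec b b.2
      show g * ((⁅a, b⁆ : ↥(P : Subgroup X)) : X) * g⁻¹ ∈ S₀
      have e : g * ((⁅a, b⁆ : ↥(P : Subgroup X)) : X) * g⁻¹ = s₁ * s₂ * s₁⁻¹ * s₂⁻¹ := by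
        have e0 : ((⁅a, b⁆ : ↥(P : Subgroup X)) : X) = (a : X) * b * (a : X)⁻¹ * (b : X)⁻¹ := by
          rw [commutatorElement_def]; simp
        rw [e0]
        calc g * ((a : X) * b * (a : X)⁻¹ * (b : X)⁻¹) * g⁻¹
            = (g * a * g⁻¹) * (g * b * g⁻¹) * (g * a * g⁻¹)⁻¹ * (g * b * g⁻¹)⁻¹ := by group
          _ = (k₁ * s₁) * (k₂ * s₂) * (k₁ * s₁)⁻¹ * (k₂ * s₂)⁻¹ := by rw [e₁, e₂]
          _ = s₁ * s₂ * s₁⁻¹ * s₂⁻¹ := comm_central_drop (cen hk₁) (cen hk₂)
      rw [e]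
      exact S₀.mul_mem (S₀.mul_mem (S₀.mul_mem hs₁ hs₂) (S₀.inv_mem hs₁)) (S₀.inv_mem hs₂)
    have h3 : g * (z : X) * g⁻¹ ∈ S₀ := hcomm hz
    have h4 : g * (z : X) * g⁻¹ = (z : X) := by
      rw [← cen hz1 g]; group
    rw [h4] at h3
    exact Subtype.ext (hinj _ h3 hz1)
  intro x hx
  by_contra hx1
  have ho : orderOf x = 2 := orderOf_eq_prime (hker x hx).2 hx1
  have ho' : orderOf (⟨x, MonoidHom.mem_ker.mpr hx⟩ : τ.ker) = 2 := by
    rw [← ho]; exact Subgroup.orderOf_mk x _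
  exact hnd (ho' ▸ orderOf_dvd_natCard _)

end sylow

end Cfsg.Agent.Helper7.Mult2
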