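import Cfsg.Agent.Helper7.J3Data6
import Cfsg.Agent.Helper7.Mult2Gen

/-!
# The 2-part of the Schur multiplier of `J₃`: abstract form (helper7)

`two_split_abs`: a central extension `τ : X →* G` with kernel of exponent 2 inside the commutator
subgroup is trivial, for any finite group `G` of order `128 * 392445` containing elements `p k`
(`k < 128`) multiplying by the table `ivM` of the Sylow 2-subgroup of `J₃`, an element `y` of
order 3 normalising `{p k | k < 32}` by the table `ivNy` with `(p 32 * y)^5 = 1`, in which all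
involutions are conjugate.  The extension is split over the Sylow 2-subgroup
`Q₀ V₀`: `Q₀` is generated by lifts of five involutions permuted by the lift of `p 32 * y`.
-/

set_option autoImplicit false

namespace Cfsg.Agent.Helper7.J3

open Subgroup

/-! ### Table facts -/

/-- The action of `c = p 32 * y` on the first 32 elements. -/
def m2Cq (k : ℕ) : ℕ := ivM (ivM 32 (ivNy k)) 32

/-- The orbit of `7` under `c`. -/
def m2Q : ℕ → ℕ
  | 0 => 7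
  | (i + 1) => m2Cq (m2Q i)

/-- The index of a word (right-nested product). -/
def m2Idx : List ℕ → ℕ
  | [] => 0
  | g :: l => ivM g (m2Idx l)

/-- Words in the generators for the first 32 elements. -/
def m2GenW (k : ℕ) : List ℕ :=
  [[], [1], [1, 7, 6], [7, 6], [1, 7], [1, 6], [6], [7], [14, 6, 19], [1, 14, 6, 19],
    [7, 14, 6, 19], [1, 7, 14, 6, 19], [1, 7, 14], [7, 19], [14], [1, 19], [7, 14], [1, 7, 19],
    [1, 14], [19], [1, 7, 14, 19], [1, 14, 19], [7, 14, 19], [14, 19], [14, 6], [6, 19],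
    [1, 7, 14, 6], [1, 7, 6, 19], [7, 14, 6], [7, 6, 19], [1, 14, 6], [1, 6, 19]].getD k []

theorem m2_lt : ∀ a, a < 128 → ∀ b, b < 128 → ivM a b < 128 := by decide +kernel

theorem m2_q_closed : ∀ a, a < 32 → ∀ b, b < 32 → ivM a b < 32 := by decide +kernel

theorem m2_inv : ∀ a, a < 128 → ∃ b, b < 128 ∧ ivM b a = 0 := by decide +kernel

theorem m2_q_inv : ∀ a, a < 32 → ∃ b, b < 32 ∧ ivM b a = 0 := by decide +kernel

theorem m2_ny_lt : ∀ k, k < 32 → ivNy k < 32 := by decide +kernel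

theorem m2_cq_lt : ∀ k, k < 32 → m2Cq k < 32 := by decide +kernel

theorem m2_orb : m2Q 1 = 14 ∧ m2Q 2 = 6 ∧ m2Q 3 = 19 ∧ m2Q 4 = 10 ∧ m2Q 5 = 7 := by
  decide +kernel

theorem m2_fix : m2Cq 1 = 1 ∧ ivNy 1 = 1 ∧ ivNy 7 = 7 ∧ ivNy 14 = 6 ∧ ivNy 6 = 10 ∧
    ivNy 10 = 14 ∧ ivNy 19 = 19 := by decide +kernel

theorem m2_sq : ivM 1 1 = 0 ∧ ivM 7 7 = 0 ∧ ivM 5 5 = 0 ∧ ivM 32 32 = 0 ∧ ivM 64 64 = 0 ∧
    ivM (ivM 7 14) (ivM 7 14) = 1 ∧ ivM (ivM (ivM (ivM 7 14) 6) 19) 10 = 0 := by decide +kernel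

theorem m2_e8 : ivM 1 5 = 6 ∧ ivM 5 1 = 6 ∧ ivM 1 32 = 33 ∧ ivM 32 1 = 33 ∧ ivM 5 32 = 37 ∧
    ivM 32 5 = 37 ∧ ivM 6 32 = 38 ∧ ivM 32 64 = 96 ∧ ivM 64 32 = 96 := by decide +kernel

theorem m2_gen : ∀ k, k < 32 → m2Idx (m2GenW k) = k ∧
    ∀ g ∈ m2GenW k, g = 1 ∨ g = 7 ∨ g = 14 ∨ g = 6 ∨ g = 19 := by decide +kernel

theorem m2_dec : ∀ k, k < 128 → ivM (k % 32) (32 * (k / 32)) = k := by decide +kernel

theorem m2_dec' : ∀ r, r < 32 → ∀ l, l < 4 → ivM r (32 * l) = 32 * l + r := by decide +kernel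

theorem m2_cen : ∀ k, k < 32 → ivM 1 k = ivM k 1 := by decide +kernel

theorem m2_cq_it : m2Cq^[2] 7 = 6 ∧ m2Cq^[4] 7 = 10 ∧ m2Cq^[4] 14 = 7 ∧ m2Cq 10 = 7 := by
  decide +kernel

theorem m2_cq_it_lt (n : ℕ) (k : ℕ) (hk : k < 32) : m2Cq^[n] k < 32 := by
  induction n with
  | zero => simpa using hk
  | succ n ih => rw [Function.iterate_succ_apply']; exact m2_cq_lt _ ih

/-! ### The setting -/

/-- The hypotheses on `G`, with chosen lifts `ct` of `p 32 * y`, `yt` of `y`, `u` of `p 7`. -/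
structure M2Ctx {X G : Type*} [Group X] [Group G] (τ : X →* G) (p : ℕ → G) (y : G)
    (ct yt u : X) : Prop where
  hτ : Function.Surjective τ
  hker : ∀ x, τ x = 1 → x ∈ center X ∧ x ^ 2 = 1
  hmul : ∀ a b, a < 128 → b < 128 → p a * p b = p (ivM a b)
  hinj : ∀ a b, a < 128 → b < 128 → p a = p b → a = b
  h0 : p 0 = 1
  hy3 : y ^ 3 = 1
  hc5 : (p 32 * y) ^ 5 = 1
  hyn : ∀ k, k < 32 → y * p k = p (ivNy k) * y
  hconj : ∀ g : G, g ≠ 1 → g ^ 2 = 1 → ∃ h, g = h * p 1 * h⁻¹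
  hs2 : (p 32 * y * y * (p 32 * y) ^ 2) ^ 3 = 1
  hs4 : ((p 32 * y) ^ 4 * y * (p 32 * y) ^ 4) ^ 3 = 1
  hv : p 64 = y * (p 32 * y) * y * (p 32 * y) * (p 32 * y) * y * (p 32 * y)
  hct : τ ct = p 32 * y
  hyt : τ yt = y
  hu : τ u = p 7

/-- The conjugates of `u` under the powers of `ct`. -/
def m2Uf {X : Type*} [Group X] (ct u : X) (i : ℕ) : X := ct ^ i * u * (ct ^ i)⁻¹

/-- The lift of the central involution. -/
def m2T {X : Type*} [Group X] (ct u : X) : X := (m2Uf ct u 0 * m2Uf ct u 1) ^ 2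

/-- The product of the five conjugates (a central element). -/
def m2A {X : Type*} [Group X] (ct u : X) : X :=
  m2Uf ct u 0 * m2Uf ct u 1 * m2Uf ct u 2 * m2Uf ct u 3 * m2Uf ct u 4

/-- The corrected conjugates, with product one. -/
def m2Wf {X : Type*} [Group X] (ct u : X) (i : ℕ) : X := m2A ct u * m2Uf ct u i

/-- The lift of the extraspecial group. -/
def m2Q0 {X : Type*} [Group X] (ct u : X) : Subgroup X :=
  closure ((zpowers (m2T ct u) : Set X) ∪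
    {x | x ∈ [m2Wf ct u 0, m2Wf ct u 1, m2Wf ct u 2, m2Wf ct u 3]})

section basic
variable {X : Type*} [Group X] (ct u : X)

theorem m2Uf_succ (i : ℕ) : m2Uf ct u (i + 1) = ct * m2Uf ct u i * ct⁻¹ := by
  unfold m2Uf; rw [pow_succ']; group

theorem m2Uf_zero : m2Uf ct u 0 = u := by simp [m2Uf]

theorem m2_mem_L {v : X} (hv : v ∈ [m2Wf ct u 0, m2Wf ct u 1, m2Wf ct u 2, m2Wf ct u 3]) :
    ∃ i, i < 4 ∧ v = m2Wf ct u i := by
  simp only [List.mem_cons, List.not_mem_nil, or_false] at hv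
  rcases hv with rfl | rfl | rfl | rfl
  · exact ⟨0, by norm_num, rfl⟩
  · exact ⟨1, by norm_num, rfl⟩
  · exact ⟨2, by norm_num, rfl⟩
  · exact ⟨3, by norm_num, rfl⟩

theorem m2T_mem : m2T ct u ∈ m2Q0 ct u :=
  Subgroup.subset_closure (Or.inl (mem_zpowers _))

theorem m2Wf_mem (i : ℕ) (hi : i < 4) : m2Wf ct u i ∈ m2Q0 ct u := by
  apply Subgroup.subset_closure
  right
  show m2Wf ct u i ∈ [m2Wf ct u 0, m2Wf ct u 1, m2Wf ct u 2, m2Wf ct u 3]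
  interval_cases i <;> simp

/-- Conjugation preserves `m2Q0` if it maps the generators into it. -/
theorem m2_conj_Q0 (g : X) (hT : g * m2T ct u * g⁻¹ ∈ m2Q0 ct u)
    (hw : ∀ i, i < 4 → g * m2Wf ct u i * g⁻¹ ∈ m2Q0 ct u) :
    ∀ q ∈ m2Q0 ct u, g * q * g⁻¹ ∈ m2Q0 ct u := by
  intro q hq
  unfold m2Q0 at hq
  induction hq using Subgroup.closure_induction with
  | mem x hx =>
    rcases hx with hx | hx
    · obtain ⟨n, rfl⟩ := mem_zpowers_iff.mp hx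
      have e : g * m2T ct u ^ n * g⁻¹ = (g * m2T ct u * g⁻¹) ^ n := by rw [conj_zpow]
      rw [e]; exact zpow_mem hT n
    · obtain ⟨i, hi, rfl⟩ := m2_mem_L ct u hx
      exact hw i hi
  | one => simp
  | mul a b _ _ iha ihb =>
    have e : g * (a * b) * g⁻¹ = (g * a * g⁻¹) * (g * b * g⁻¹) := by group
    rw [e]; exact mul_mem iha ihb
  | inv a _ iha =>
    have e : g * a⁻¹ * g⁻¹ = (g * a * g⁻¹)⁻¹ := by group
    rw [e]; exact inv_mem iha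

theorem m2_conj_mul (S : Subgroup X) (g h : X) (hg : ∀ q ∈ S, g * q * g⁻¹ ∈ S)
    (hh : ∀ q ∈ S, h * q * h⁻¹ ∈ S) : ∀ q ∈ S, (g * h) * q * (g * h)⁻¹ ∈ S := by
  intro q hq
  have e : (g * h) * q * (g * h)⁻¹ = g * (h * q * h⁻¹) * g⁻¹ := by group
  rw [e]; exact hg _ (hh _ hq)

end basic

namespace M2Ctx

variable {X G : Type*} [Group X] [Group G] {τ : X →* G} {p : ℕ → G} {y : G} {ct yt u : X}

theorem cen (C : M2Ctx τ p y ct yt u) {k : X} (hk : τ k = 1) (g : X) : k * g = g * k :=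
  (mem_center_iff.mp (C.hker k hk).1 g).symm

theorem psq (C : M2Ctx τ p y ct yt u) {a : ℕ} (ha : a < 128) (h : ivM a a = 0) :
    p a ^ 2 = 1 := by
  rw [pow_two, C.hmul a a ha ha, h, C.h0]

theorem pne (C : M2Ctx τ p y ct yt u) {a : ℕ} (ha : a < 128) (h : a ≠ 0) : p a ≠ 1 := by
  intro e
  rw [← C.h0] at e
  exact h (C.hinj a 0 ha (by norm_num) e)

theorem hsq (C : M2Ctx τ p y ct yt u) : ∀ x : X, τ x ^ 2 = 1 → x ^ 2 = 1 := by
  obtain ⟨s11, s77, s55, s32, s64, s714, sprod⟩ := m2_sq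
  obtain ⟨e15, e51, e132, e321, e532, e325, e632, e3264, e6432⟩ := m2_e8
  refine Mult2.lift_sq_eq_one τ C.hτ C.hker (p 1) C.hconj (p 1) (p 5) (p 32)
    (C.psq (by norm_num) s11) (C.psq (by norm_num) s55) (C.psq (by norm_num) s32) ?_ ?_ ?_
    (C.pne (by norm_num) (by norm_num)) (C.pne (by norm_num) (by norm_num))
    (C.pne (by norm_num) (by norm_num)) ?_ ?_ ?_ ?_
  · rw [C.hmul 1 5 (by norm_num) (by norm_num), C.hmul 5 1 (by norm_num) (by norm_num), e15, e51]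
  · rw [C.hmul 1 32 (by norm_num) (by norm_num), C.hmul 32 1 (by norm_num) (by norm_num), e132,
      e321]
  · rw [C.hmul 5 32 (by norm_num) (by norm_num), C.hmul 32 5 (by norm_num) (by norm_num), e532,
      e325]
  · rw [C.hmul 1 5 (by norm_num) (by norm_num), e15]
    exact C.pne (by norm_num) (by norm_num)
  · rw [C.hmul 1 32 (by norm_num) (by norm_num), e132]
    exact C.pne (by norm_num) (by norm_num)
  · rw [C.hmul 5 32 (by norm_num) (by norm_num), e532]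
    exact C.pne (by norm_num) (by norm_num)
  · rw [C.hmul 1 5 (by norm_num) (by norm_num), e15, C.hmul 6 32 (by norm_num) (by norm_num),
      e632]
    exact C.pne (by norm_num) (by norm_num)

/-- The action of `c = p 32 * y` on the first 32 elements. -/
theorem hcq (C : M2Ctx τ p y ct yt u) (k : ℕ) (hk : k < 32) :
    (p 32 * y) * p k = p (m2Cq k) * (p 32 * y) := by
  have h1 := m2_ny_lt k hk
  have h2 : ivM 32 (ivNy k) < 128 := m2_lt 32 (by norm_num) _ (by omega)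
  have s32 := m2_sq.2.2.2.1
  calc p 32 * y * p k = p 32 * (y * p k) := by group
    _ = p 32 * (p (ivNy k) * y) := by rw [C.hyn k hk]
    _ = p 32 * p (ivNy k) * y := by group
    _ = p (ivM 32 (ivNy k)) * y := by rw [C.hmul 32 _ (by norm_num) (by omega)]
    _ = p (ivM 32 (ivNy k)) * (p 32 * p 32) * y := by
        rw [C.hmul 32 32 (by norm_num) (by norm_num), s32, C.h0, mul_one]
    _ = p (ivM 32 (ivNy k)) * p 32 * (p 32 * y) := by group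
    _ = p (m2Cq k) * (p 32 * y) := by rw [C.hmul _ 32 h2 (by norm_num)]; rfl

theorem hcq_pow (C : M2Ctx τ p y ct yt u) (n : ℕ) (k : ℕ) (hk : k < 32) :
    (p 32 * y) ^ n * p k = p (m2Cq^[n] k) * (p 32 * y) ^ n := by
  induction n with
  | zero => simp
  | succ n ih =>
    rw [Function.iterate_succ_apply']
    calc (p 32 * y) ^ (n + 1) * p k = (p 32 * y) * ((p 32 * y) ^ n * p k) := by
          rw [pow_succ', mul_assoc]
      _ = (p 32 * y) * (p (m2Cq^[n] k) * (p 32 * y) ^ n) := by rw [ih]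
      _ = ((p 32 * y) * p (m2Cq^[n] k)) * (p 32 * y) ^ n := (mul_assoc _ _ _).symm
      _ = (p (m2Cq (m2Cq^[n] k)) * (p 32 * y)) * (p 32 * y) ^ n := by
          rw [C.hcq _ (m2_cq_it_lt n k hk)]
      _ = p (m2Cq (m2Cq^[n] k)) * (p 32 * y) ^ (n + 1) := by rw [pow_succ', mul_assoc]

theorem tuf (C : M2Ctx τ p y ct yt u) (i : ℕ) :
    τ (m2Uf ct u i) = p (m2Q i) ∧ m2Q i < 32 := by
  induction i with
  | zero => exact ⟨by rw [m2Uf_zero, C.hu]; rfl, by decide⟩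
  | succ i ih =>
    refine ⟨?_, m2_cq_lt _ ih.2⟩
    rw [m2Uf_succ, map_mul, map_mul, map_inv, ih.1, C.hct, C.hcq _ ih.2]
    show p (m2Cq (m2Q i)) * (p 32 * y) * (p 32 * y)⁻¹ = p (m2Cq (m2Q i))
    group

theorem ct5 (C : M2Ctx τ p y ct yt u) (g : X) : ct ^ 5 * g = g * ct ^ 5 :=
  C.cen (by rw [map_pow, C.hct, C.hc5]) g

theorem yt3 (C : M2Ctx τ p y ct yt u) (g : X) : yt * yt * yt * g = g * (yt * yt * yt) := by
  have e : yt * yt * yt = yt ^ 3 := by rw [pow_succ, pow_two]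
  rw [e]
  exact C.cen (by rw [map_pow, C.hyt, C.hy3]) g

theorem uf_add5 (C : M2Ctx τ p y ct yt u) (i : ℕ) : m2Uf ct u (i + 5) = m2Uf ct u i := by
  unfold m2Uf
  have h := C.ct5 u
  rw [pow_add]
  generalize ct ^ i = A at *
  generalize ct ^ 5 = B at *
  calc A * B * u * (A * B)⁻¹ = A * (B * u) * B⁻¹ * A⁻¹ := by group
    _ = A * (u * B) * B⁻¹ * A⁻¹ := by rw [h]
    _ = A * u * A⁻¹ := by group

theorem u_sq (C : M2Ctx τ p y ct yt u) : u ^ 2 = 1 :=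
  C.hsq u (by rw [C.hu]; exact C.psq (by norm_num) m2_sq.2.1)

theorem uf_sq (C : M2Ctx τ p y ct yt u) (i : ℕ) : m2Uf ct u i ^ 2 = 1 := by
  unfold m2Uf
  generalize ct ^ i = A
  calc (A * u * A⁻¹) ^ 2 = A * u ^ 2 * A⁻¹ := by rw [pow_two, pow_two]; group
    _ = 1 := by rw [C.u_sq]; group

theorem tT (C : M2Ctx τ p y ct yt u) : τ (m2T ct u) = p 1 := by
  unfold m2T
  have h1 : m2Q 1 = 14 := m2_orb.1
  have h0 : m2Q 0 = 7 := rfl
  have b : ivM 7 14 < 128 := m2_lt 7 (by norm_num) 14 (by norm_num)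
  rw [map_pow, map_mul, (C.tuf 0).1, (C.tuf 1).1, h0, h1, C.hmul 7 14 (by norm_num) (by norm_num),
    pow_two, C.hmul _ _ b b, m2_sq.2.2.2.2.2.1]

theorem T_sq (C : M2Ctx τ p y ct yt u) : m2T ct u ^ 2 = 1 :=
  C.hsq _ (by rw [C.tT]; exact C.psq (by norm_num) m2_sq.1)

theorem ct_comm (C : M2Ctx τ p y ct yt u) (d : X) (hd : τ d = p 1) : ct * d = d * ct := by
  apply Mult2.lift_comm_of_odd τ C.hker ct d 2
  · rw [C.hct]; exact C.hc5
  · rw [C.hct, hd, C.hcq 1 (by norm_num), m2_fix.1]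

theorem yt_comm (C : M2Ctx τ p y ct yt u) (d : X) (hd : τ d = p 1) : yt * d = d * yt := by
  apply Mult2.lift_comm_of_odd τ C.hker yt d 1
  · rw [C.hyt]; exact C.hy3
  · rw [C.hyt, hd, C.hyn 1 (by norm_num), m2_fix.2.1]

theorem pair_shift (C : M2Ctx τ p y ct yt u) (i j : ℕ)
    (h : (m2Uf ct u i * m2Uf ct u j) ^ 2 = m2T ct u) :
    (m2Uf ct u (i + 1) * m2Uf ct u (j + 1)) ^ 2 = m2T ct u := by
  rw [m2Uf_succ, m2Uf_succ]
  have hc := C.ct_comm _ C.tT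
  calc (ct * m2Uf ct u i * ct⁻¹ * (ct * m2Uf ct u j * ct⁻¹)) ^ 2
      = ct * (m2Uf ct u i * m2Uf ct u j) ^ 2 * ct⁻¹ := by rw [pow_two, pow_two]; group
    _ = ct * m2T ct u * ct⁻¹ := by rw [h]
    _ = m2T ct u := by rw [hc]; group

theorem pair1 (C : M2Ctx τ p y ct yt u) (i : ℕ) :
    (m2Uf ct u i * m2Uf ct u (i + 1)) ^ 2 = m2T ct u := by
  induction i with
  | zero => rfl
  | succ i ih => exact C.pair_shift _ _ ih

theorem ty (C : M2Ctx τ p y ct yt u) (k : ℕ) (hk : k < 32) : y * p k * y⁻¹ = p (ivNy k) := by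
  rw [C.hyn k hk]; group

theorem pair2_zero (C : M2Ctx τ p y ct yt u) :
    (m2Uf ct u 0 * m2Uf ct u 2) ^ 2 = m2T ct u := by
  obtain ⟨o1, o2, o3, o4, o5⟩ := m2_orb
  obtain ⟨f1, f2, f3, f4, f5, f6, f7⟩ := m2_fix
  have e1 : τ (yt * m2Uf ct u 0 * yt⁻¹) = τ (m2Uf ct u 0) := by
    rw [map_mul, map_mul, map_inv, (C.tuf 0).1, C.hyt]
    show y * p 7 * y⁻¹ = p 7
    rw [C.ty 7 (by norm_num), f3]
  have e2 : τ (yt * m2Uf ct u 1 * yt⁻¹) = τ (m2Uf ct u 2) := by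
    rw [map_mul, map_mul, map_inv, (C.tuf 1).1, (C.tuf 2).1, C.hyt, o1, o2,
      C.ty 14 (by norm_num), f4]
  have h := Mult2.conj_sq_of_lift τ C.hker yt (m2Uf ct u 0) (m2Uf ct u 1) (m2Uf ct u 0)
    (m2Uf ct u 2) e1 e2
  rw [← h]
  show yt * m2T ct u * yt⁻¹ = m2T ct u
  rw [C.yt_comm _ C.tT]; group

theorem pair2 (C : M2Ctx τ p y ct yt u) (i : ℕ) :
    (m2Uf ct u i * m2Uf ct u (i + 2)) ^ 2 = m2T ct u := by
  induction i with
  | zero => exact C.pair2_zero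
  | succ i ih => exact C.pair_shift _ _ ih

theorem pair (C : M2Ctx τ p y ct yt u) : ∀ i j, i < 5 → j < 5 → i ≠ j →
    (m2Uf ct u i * m2Uf ct u j) ^ 2 = m2T ct u := by
  have h5 : m2Uf ct u 5 = m2Uf ct u 0 := C.uf_add5 0
  have h6 : m2Uf ct u 6 = m2Uf ct u 1 := C.uf_add5 1
  have T2 := C.T_sq
  have sw : ∀ i j, (m2Uf ct u i * m2Uf ct u j) ^ 2 = m2T ct u →
      (m2Uf ct u j * m2Uf ct u i) ^ 2 = m2T ct u :=
    fun i j h => Mult2.sq_swap (C.uf_sq i) (C.uf_sq j) h T2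
  have a01 : (m2Uf ct u 0 * m2Uf ct u 1) ^ 2 = m2T ct u := C.pair1 0
  have a12 : (m2Uf ct u 1 * m2Uf ct u 2) ^ 2 = m2T ct u := C.pair1 1
  have a23 : (m2Uf ct u 2 * m2Uf ct u 3) ^ 2 = m2T ct u := C.pair1 2
  have a34 : (m2Uf ct u 3 * m2Uf ct u 4) ^ 2 = m2T ct u := C.pair1 3
  have a40 : (m2Uf ct u 4 * m2Uf ct u 0) ^ 2 = m2T ct u := by
    have h : (m2Uf ct u 4 * m2Uf ct u 5) ^ 2 = m2T ct u := C.pair1 4
    rwa [h5] at h
  have a02 : (m2Uf ct u 0 * m2Uf ct u 2) ^ 2 = m2T ct u := C.pair2 0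
  have a13 : (m2Uf ct u 1 * m2Uf ct u 3) ^ 2 = m2T ct u := C.pair2 1
  have a24 : (m2Uf ct u 2 * m2Uf ct u 4) ^ 2 = m2T ct u := C.pair2 2
  have a30 : (m2Uf ct u 3 * m2Uf ct u 0) ^ 2 = m2T ct u := by
    have h : (m2Uf ct u 3 * m2Uf ct u 5) ^ 2 = m2T ct u := C.pair2 3
    rwa [h5] at h
  have a41 : (m2Uf ct u 4 * m2Uf ct u 1) ^ 2 = m2T ct u := by
    have h : (m2Uf ct u 4 * m2Uf ct u 6) ^ 2 = m2T ct u := C.pair2 4
    rwa [h6] at h
  have b01 := sw _ _ a01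
  have b12 := sw _ _ a12
  have b23 := sw _ _ a23
  have b34 := sw _ _ a34
  have b40 := sw _ _ a40
  have b02 := sw _ _ a02
  have b13 := sw _ _ a13
  have b24 := sw _ _ a24
  have b30 := sw _ _ a30
  have b41 := sw _ _ a41
  intro i j hi hj hij
  interval_cases i <;> interval_cases j <;> first | exact absurd rfl hij | assumption

theorem T_comm_uf (C : M2Ctx τ p y ct yt u) (i : ℕ) :
    m2T ct u * m2Uf ct u i = m2Uf ct u i * m2T ct u := by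
  have hi := (C.tuf i).2
  apply Mult2.lift_comm_of_invol τ C.hsq
  · rw [C.tT]; exact C.psq (by norm_num) m2_sq.1
  · rw [← map_pow, C.uf_sq, map_one]
  · rw [C.tT, (C.tuf i).1, C.hmul 1 _ (by norm_num) (by omega),
      C.hmul _ 1 (by omega) (by norm_num), m2_cen _ hi]

theorem tA (C : M2Ctx τ p y ct yt u) : τ (m2A ct u) = 1 := by
  unfold m2A
  obtain ⟨o1, o2, o3, o4, o5⟩ := m2_orb
  have b1 : ivM 7 14 < 128 := m2_lt 7 (by norm_num) 14 (by norm_num)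
  have b2 : ivM (ivM 7 14) 6 < 128 := m2_lt _ b1 6 (by norm_num)
  have b3 : ivM (ivM (ivM 7 14) 6) 19 < 128 := m2_lt _ b2 19 (by norm_num)
  rw [map_mul, map_mul, map_mul, map_mul, (C.tuf 0).1, (C.tuf 1).1, (C.tuf 2).1, (C.tuf 3).1,
    (C.tuf 4).1, o1, o2, o3, o4]
  show p 7 * p 14 * p 6 * p 19 * p 10 = 1
  rw [C.hmul 7 14 (by norm_num) (by norm_num), C.hmul _ 6 b1 (by norm_num),
    C.hmul _ 19 b2 (by norm_num), C.hmul _ 10 b3 (by norm_num), m2_sq.2.2.2.2.2.2, C.h0]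

theorem A_cen (C : M2Ctx τ p y ct yt u) (g : X) : m2A ct u * g = g * m2A ct u := C.cen C.tA g

theorem A_sq (C : M2Ctx τ p y ct yt u) : m2A ct u ^ 2 = 1 := (C.hker _ C.tA).2

theorem twf (C : M2Ctx τ p y ct yt u) (i : ℕ) : τ (m2Wf ct u i) = p (m2Q i) := by
  unfold m2Wf; rw [map_mul, C.tA, one_mul, (C.tuf i).1]

theorem wf_sq (C : M2Ctx τ p y ct yt u) (i : ℕ) : m2Wf ct u i ^ 2 = 1 := by
  unfold m2Wf; rw [Mult2.central_mul_sq C.A_cen C.A_sq, C.uf_sq]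

theorem wf_mul (C : M2Ctx τ p y ct yt u) (i j : ℕ) :
    m2Wf ct u i * m2Wf ct u j = m2Uf ct u i * m2Uf ct u j := by
  unfold m2Wf
  have h := C.A_cen (m2Uf ct u i)
  have h2 := C.A_sq
  generalize m2A ct u = a at *
  calc a * m2Uf ct u i * (a * m2Uf ct u j) = (a * m2Uf ct u i) * a * m2Uf ct u j := by group
    _ = (m2Uf ct u i * a) * a * m2Uf ct u j := by rw [h]
    _ = m2Uf ct u i * a ^ 2 * m2Uf ct u j := by rw [pow_two]; group
    _ = m2Uf ct u i * m2Uf ct u j := by rw [h2, mul_one]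

theorem wf_pair (C : M2Ctx τ p y ct yt u) (i j : ℕ) (hi : i < 5) (hj : j < 5) (hij : i ≠ j) :
    (m2Wf ct u i * m2Wf ct u j) ^ 2 = m2T ct u := by
  rw [C.wf_mul, C.pair i j hi hj hij]

theorem conj_wf (C : M2Ctx τ p y ct yt u) (g : X) (i j : ℕ)
    (h : g * m2Uf ct u i * g⁻¹ = m2Uf ct u j) : g * m2Wf ct u i * g⁻¹ = m2Wf ct u j := by
  unfold m2Wf
  rw [← h]
  have hc := C.A_cen g
  generalize m2A ct u = a at *
  calc g * (a * m2Uf ct u i) * g⁻¹ = (g * a) * m2Uf ct u i * g⁻¹ := by group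
    _ = (a * g) * m2Uf ct u i * g⁻¹ := by rw [hc]
    _ = a * (g * m2Uf ct u i * g⁻¹) := by group

theorem wf_succ (C : M2Ctx τ p y ct yt u) (i : ℕ) :
    ct * m2Wf ct u i * ct⁻¹ = m2Wf ct u (i + 1) :=
  C.conj_wf ct i (i + 1) (m2Uf_succ ct u i).symm

theorem wf_prod (C : M2Ctx τ p y ct yt u) :
    m2Wf ct u 0 * m2Wf ct u 1 * m2Wf ct u 2 * m2Wf ct u 3 * m2Wf ct u 4 = 1 := by
  have e : m2Wf ct u 0 * m2Wf ct u 1 * m2Wf ct u 2 * m2Wf ct u 3 * m2Wf ct u 4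
      = (m2Wf ct u 0 * m2Wf ct u 1) * (m2Wf ct u 2 * m2Wf ct u 3) * m2Wf ct u 4 := by group
  rw [e, C.wf_mul 0 1, C.wf_mul 2 3]
  have hc := C.A_cen (m2Uf ct u 0 * m2Uf ct u 1 * (m2Uf ct u 2 * m2Uf ct u 3))
  have h2 := C.A_sq
  have hA : m2A ct u = m2Uf ct u 0 * m2Uf ct u 1 * (m2Uf ct u 2 * m2Uf ct u 3) * m2Uf ct u 4 := by
    unfold m2A; group
  calc m2Uf ct u 0 * m2Uf ct u 1 * (m2Uf ct u 2 * m2Uf ct u 3) * m2Wf ct u 4
      = (m2Uf ct u 0 * m2Uf ct u 1 * (m2Uf ct u 2 * m2Uf ct u 3) * m2A ct u) * m2Uf ct u 4 := by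
        unfold m2Wf; group
    _ = (m2A ct u * (m2Uf ct u 0 * m2Uf ct u 1 * (m2Uf ct u 2 * m2Uf ct u 3))) * m2Uf ct u 4 := by
        rw [hc]
    _ = m2A ct u * (m2Uf ct u 0 * m2Uf ct u 1 * (m2Uf ct u 2 * m2Uf ct u 3) * m2Uf ct u 4) := by
        group
    _ = m2A ct u ^ 2 := by rw [← hA, pow_two]
    _ = 1 := h2

theorem wf_mem5 (C : M2Ctx τ p y ct yt u) (i : ℕ) (hi : i < 5) : m2Wf ct u i ∈ m2Q0 ct u := by
  rcases Nat.lt_or_ge i 4 with h | h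
  · exact m2Wf_mem ct u i h
  · have : i = 4 := by omega
    subst this
    have e : m2Wf ct u 4 = (m2Wf ct u 0 * m2Wf ct u 1 * m2Wf ct u 2 * m2Wf ct u 3)⁻¹ :=
      eq_inv_of_mul_eq_one_right C.wf_prod
    rw [e]
    exact inv_mem (mul_mem (mul_mem (mul_mem (m2Wf_mem ct u 0 (by norm_num))
      (m2Wf_mem ct u 1 (by norm_num))) (m2Wf_mem ct u 2 (by norm_num)))
      (m2Wf_mem ct u 3 (by norm_num)))

theorem wf_comm_T (C : M2Ctx τ p y ct yt u) (i : ℕ) :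
    m2Wf ct u i * m2T ct u = m2T ct u * m2Wf ct u i := by
  unfold m2Wf
  have h := C.T_comm_uf i
  have hc := C.A_cen (m2T ct u)
  generalize m2A ct u = a at *
  calc a * m2Uf ct u i * m2T ct u = a * (m2Uf ct u i * m2T ct u) := by group
    _ = a * (m2T ct u * m2Uf ct u i) := by rw [h]
    _ = (a * m2T ct u) * m2Uf ct u i := by group
    _ = (m2T ct u * a) * m2Uf ct u i := by rw [hc]
    _ = m2T ct u * (a * m2Uf ct u i) := by group

theorem card_Q0 (C : M2Ctx τ p y ct yt u) [Finite X] : Nat.card ↥(m2Q0 ct u) ≤ 32 := by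
  have hz : Nat.card ↥(zpowers (m2T ct u)) ≤ 2 := by
    rw [Nat.card_zpowers]
    exact Nat.le_of_dvd (by norm_num) (orderOf_dvd_of_pow_eq_one C.T_sq)
  have h := Mult2.card_closure_tower [m2Wf ct u 0, m2Wf ct u 1, m2Wf ct u 2, m2Wf ct u 3]
    (zpowers (m2T ct u)) ?_ ?_ ?_
  · calc Nat.card ↥(m2Q0 ct u) ≤ 2 ^ 4 * Nat.card ↥(zpowers (m2T ct u)) := h
      _ ≤ 2 ^ 4 * 2 := Nat.mul_le_mul_left _ hz
      _ = 32 := by norm_num
  · intro v hv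
    obtain ⟨i, hi, rfl⟩ := m2_mem_L ct u hv
    rw [← pow_two, C.wf_sq]; exact one_mem _
  · intro v hv h hh
    obtain ⟨i, hi, rfl⟩ := m2_mem_L ct u hv
    obtain ⟨n, rfl⟩ := mem_zpowers_iff.mp hh
    have hc : Commute (m2Wf ct u i) (m2T ct u ^ n) :=
      Commute.zpow_right (show Commute (m2Wf ct u i) (m2T ct u) from C.wf_comm_T i) n
    rw [hc.eq, mul_inv_cancel_right]
    exact zpow_mem (mem_zpowers _) n
  · intro v hv w hw
    obtain ⟨i, hi, rfl⟩ := m2_mem_L ct u hv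
    obtain ⟨j, hj, rfl⟩ := m2_mem_L ct u hw
    by_cases hij : i = j
    · subst hij
      exact ⟨1, one_mem _, by group⟩
    · refine ⟨m2T ct u, mem_zpowers _, ?_⟩
      have h1 := C.wf_sq i
      have h2 := C.wf_sq j
      have h3 := C.wf_pair i j (by omega) (by omega) hij
      generalize m2Wf ct u i = v at *
      generalize m2Wf ct u j = w at *
      have hv : v⁻¹ = v := inv_eq_of_mul_eq_one_left (by rw [← pow_two, h1])
      rw [← h3, hv]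
      calc v * w * v = v * w * v * w ^ 2 := by rw [h2, mul_one]
        _ = (v * w) ^ 2 * w := by rw [pow_two, pow_two]; group

theorem ct_Q0 (C : M2Ctx τ p y ct yt u) : ∀ q ∈ m2Q0 ct u, ct * q * ct⁻¹ ∈ m2Q0 ct u := by
  apply m2_conj_Q0
  · rw [C.ct_comm _ C.tT, mul_inv_cancel_right]; exact m2T_mem ct u
  · intro i hi
    rw [C.wf_succ]; exact C.wf_mem5 (i + 1) (by omega)

theorem yt_uf0 (C : M2Ctx τ p y ct yt u) : yt * m2Uf ct u 0 * yt⁻¹ = m2Uf ct u 0 := by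
  have h : yt * m2Uf ct u 0 = m2Uf ct u 0 * yt := by
    apply Mult2.lift_comm_of_odd τ C.hker yt _ 1
    · rw [C.hyt]; exact C.hy3
    · rw [C.hyt, (C.tuf 0).1]
      show y * p 7 = p 7 * y
      rw [C.hyn 7 (by norm_num), m2_fix.2.2.1]
  rw [h]; group

theorem yt_uf3 (C : M2Ctx τ p y ct yt u) : yt * m2Uf ct u 3 * yt⁻¹ = m2Uf ct u 3 := by
  have h : yt * m2Uf ct u 3 = m2Uf ct u 3 * yt := by
    apply Mult2.lift_comm_of_odd τ C.hker yt _ 1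
    · rw [C.hyt]; exact C.hy3
    · rw [C.hyt, (C.tuf 3).1, m2_orb.2.2.1, C.hyn 19 (by norm_num), m2_fix.2.2.2.2.2.2]
  rw [h]; group

theorem s2_comm (C : M2Ctx τ p y ct yt u) :
    (p 32 * y * y * (p 32 * y) ^ 2) * p 7 = p 7 * (p 32 * y * y * (p 32 * y) ^ 2) := by
  obtain ⟨i2, i4, i4', q10⟩ := m2_cq_it
  obtain ⟨f1, f2, f3, f4, f5, f6, f7⟩ := m2_fix
  have h1 := C.hcq_pow 2 7 (by norm_num)
  rw [i2] at h1
  have h2 := C.hyn 6 (by norm_num)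
  rw [f5] at h2
  have h3 := C.hcq 10 (by norm_num)
  rw [q10] at h3
  generalize p 32 * y = c at *
  calc c * y * c ^ 2 * p 7 = c * y * (c ^ 2 * p 7) := by group
    _ = c * y * (p 6 * c ^ 2) := by rw [h1]
    _ = c * (y * p 6) * c ^ 2 := by group
    _ = c * (p 10 * y) * c ^ 2 := by rw [h2]
    _ = (c * p 10) * y * c ^ 2 := by group
    _ = (p 7 * c) * y * c ^ 2 := by rw [h3]
    _ = p 7 * (c * y * c ^ 2) := by group

theorem s4_comm (C : M2Ctx τ p y ct yt u) :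
    ((p 32 * y) ^ 4 * y * (p 32 * y) ^ 4) * p 7 = p 7 * ((p 32 * y) ^ 4 * y * (p 32 * y) ^ 4) := by
  obtain ⟨i2, i4, i4', q10⟩ := m2_cq_it
  obtain ⟨f1, f2, f3, f4, f5, f6, f7⟩ := m2_fix
  have h1 := C.hcq_pow 4 7 (by norm_num)
  rw [i4] at h1
  have h2 := C.hyn 10 (by norm_num)
  rw [f6] at h2
  have h3 := C.hcq_pow 4 14 (by norm_num)
  rw [i4'] at h3
  generalize (p 32 * y) ^ 4 = c at *
  calc c * y * c * p 7 = c * y * (c * p 7) := by group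
    _ = c * y * (p 10 * c) := by rw [h1]
    _ = c * (y * p 10) * c := by group
    _ = c * (p 14 * y) * c := by rw [h2]
    _ = (c * p 14) * y * c := by group
    _ = (p 7 * c) * y * c := by rw [h3]
    _ = p 7 * (c * y * c) := by group

theorem yt_uf2 (C : M2Ctx τ p y ct yt u) : yt * m2Uf ct u 2 * yt⁻¹ = m2Uf ct u 4 := by
  have h : (ct * yt * ct ^ 2) * u = u * (ct * yt * ct ^ 2) := by
    apply Mult2.lift_comm_of_odd τ C.hker _ _ 1
    · rw [map_mul, map_mul, map_pow, C.hct, C.hyt]; exact C.hs2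
    · rw [map_mul, map_mul, map_pow, C.hct, C.hyt, C.hu]; exact C.s2_comm
  have h5 := C.ct5 u
  unfold m2Uf
  calc yt * (ct ^ 2 * u * (ct ^ 2)⁻¹) * yt⁻¹
      = ct⁻¹ * ((ct * yt * ct ^ 2) * u) * (ct ^ 2)⁻¹ * yt⁻¹ := by group
    _ = ct⁻¹ * (u * (ct * yt * ct ^ 2)) * (ct ^ 2)⁻¹ * yt⁻¹ := by rw [h]
    _ = ct⁻¹ * (u * ct ^ 5) * (ct ^ 5)⁻¹ * ct := by group
    _ = ct⁻¹ * (ct ^ 5 * u) * (ct ^ 5)⁻¹ * ct := by rw [h5]
    _ = ct ^ 4 * u * (ct ^ 4)⁻¹ := by group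

theorem yt_uf4 (C : M2Ctx τ p y ct yt u) : yt * m2Uf ct u 4 * yt⁻¹ = m2Uf ct u 1 := by
  have h : (ct ^ 4 * yt * ct ^ 4) * u = u * (ct ^ 4 * yt * ct ^ 4) := by
    apply Mult2.lift_comm_of_odd τ C.hker _ _ 1
    · rw [map_mul, map_mul, map_pow, C.hct, C.hyt]; exact C.hs4
    · rw [map_mul, map_mul, map_pow, C.hct, C.hyt, C.hu]; exact C.s4_comm
  have h5 := C.ct5 u
  unfold m2Uf
  calc yt * (ct ^ 4 * u * (ct ^ 4)⁻¹) * yt⁻¹
      = (ct ^ 4)⁻¹ * ((ct ^ 4 * yt * ct ^ 4) * u) * (ct ^ 4)⁻¹ * yt⁻¹ := by group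
    _ = (ct ^ 4)⁻¹ * (u * (ct ^ 4 * yt * ct ^ 4)) * (ct ^ 4)⁻¹ * yt⁻¹ := by rw [h]
    _ = ct * (ct ^ 5)⁻¹ * (u * ct ^ 5) * ct⁻¹ := by group
    _ = ct * (ct ^ 5)⁻¹ * (ct ^ 5 * u) * ct⁻¹ := by rw [h5]
    _ = ct ^ 1 * u * (ct ^ 1)⁻¹ := by group

theorem yt_uf1 (C : M2Ctx τ p y ct yt u) : yt * m2Uf ct u 1 * yt⁻¹ = m2Uf ct u 2 := by
  have h24 := C.yt_uf2
  have h41 := C.yt_uf4
  have hc := C.yt3 (m2Uf ct u 2)
  calc yt * m2Uf ct u 1 * yt⁻¹ = yt * (yt * m2Uf ct u 4 * yt⁻¹) * yt⁻¹ := by rw [h41]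
    _ = yt * (yt * (yt * m2Uf ct u 2 * yt⁻¹) * yt⁻¹) * yt⁻¹ := by rw [h24]
    _ = (yt * yt * yt * m2Uf ct u 2) * (yt * yt * yt)⁻¹ := by group
    _ = (m2Uf ct u 2 * (yt * yt * yt)) * (yt * yt * yt)⁻¹ := by rw [hc]
    _ = m2Uf ct u 2 := by group

theorem yt_Q0 (C : M2Ctx τ p y ct yt u) : ∀ q ∈ m2Q0 ct u, yt * q * yt⁻¹ ∈ m2Q0 ct u := by
  apply m2_conj_Q0
  · rw [C.yt_comm _ C.tT, mul_inv_cancel_right]; exact m2T_mem ct u
  · intro i hi
    interval_cases i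
    · rw [C.conj_wf yt 0 0 C.yt_uf0]; exact C.wf_mem5 0 (by norm_num)
    · rw [C.conj_wf yt 1 2 C.yt_uf1]; exact C.wf_mem5 2 (by norm_num)
    · rw [C.conj_wf yt 2 4 C.yt_uf2]; exact C.wf_mem5 4 (by norm_num)
    · rw [C.conj_wf yt 3 3 C.yt_uf3]; exact C.wf_mem5 3 (by norm_num)

theorem yti_Q0 (C : M2Ctx τ p y ct yt u) :
    ∀ q ∈ m2Q0 ct u, yt⁻¹ * q * yt⁻¹⁻¹ ∈ m2Q0 ct u := by
  intro q hq
  have hc := C.yt3 q
  have e : yt⁻¹ * q * yt⁻¹⁻¹ = yt * (yt * q * yt⁻¹) * yt⁻¹ := by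
    calc yt⁻¹ * q * yt⁻¹⁻¹
        = (yt * yt) * ((yt * yt * yt)⁻¹ * (q * (yt * yt * yt))) * (yt * yt)⁻¹ := by group
      _ = (yt * yt) * ((yt * yt * yt)⁻¹ * (yt * yt * yt * q)) * (yt * yt)⁻¹ := by rw [hc]
      _ = (yt * yt) * q * (yt * yt)⁻¹ := by rw [inv_mul_cancel_left]
      _ = yt * (yt * q * yt⁻¹) * yt⁻¹ := by group
  rw [e]
  exact C.yt_Q0 _ (C.yt_Q0 _ hq)

theorem xt_Q0 (C : M2Ctx τ p y ct yt u) :
    ∀ q ∈ m2Q0 ct u, (ct * yt⁻¹) * q * (ct * yt⁻¹)⁻¹ ∈ m2Q0 ct u :=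
  m2_conj_mul _ _ _ C.ct_Q0 C.yti_Q0

theorem vt_Q0 (C : M2Ctx τ p y ct yt u) : ∀ q ∈ m2Q0 ct u,
    (yt * ct * yt * ct * ct * yt * ct) * q * (yt * ct * yt * ct * ct * yt * ct)⁻¹ ∈ m2Q0 ct u :=
  m2_conj_mul _ _ _ (m2_conj_mul _ _ _ (m2_conj_mul _ _ _ (m2_conj_mul _ _ _
    (m2_conj_mul _ _ _ (m2_conj_mul _ _ _ C.yt_Q0 C.ct_Q0) C.yt_Q0) C.ct_Q0) C.ct_Q0) C.yt_Q0)
    C.ct_Q0

theorem tQ0 (C : M2Ctx τ p y ct yt u) : ∀ q ∈ m2Q0 ct u, ∃ r, r < 32 ∧ τ q = p r := by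
  intro q hq
  unfold m2Q0 at hq
  induction hq using Subgroup.closure_induction with
  | mem x hx =>
    rcases hx with hx | hx
    · obtain ⟨n, rfl⟩ := mem_zpowers_iff.mp hx
      rcases Mult2.zpow_of_sq C.T_sq n with e | e
      · exact ⟨0, by norm_num, by rw [e, map_one, C.h0]⟩
      · exact ⟨1, by norm_num, by rw [e, C.tT]⟩
    · obtain ⟨i, hi, rfl⟩ := m2_mem_L ct u hx
      exact ⟨m2Q i, (C.tuf i).2, C.twf i⟩
  | one => exact ⟨0, by norm_num, by rw [map_one, C.h0]⟩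
  | mul a b _ _ iha ihb =>
    obtain ⟨r, hr, e⟩ := iha
    obtain ⟨s, hs, e'⟩ := ihb
    exact ⟨ivM r s, m2_q_closed r hr s hs, by
      rw [map_mul, e, e', C.hmul r s (by omega) (by omega)]⟩
  | inv a _ iha =>
    obtain ⟨r, hr, e⟩ := iha
    obtain ⟨b, hb, hb'⟩ := m2_q_inv r hr
    refine ⟨b, hb, ?_⟩
    rw [map_inv, e]
    have h : p b * p r = 1 := by rw [C.hmul b r (by omega) (by omega), hb', C.h0]
    exact inv_eq_of_mul_eq_one_left h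

theorem Q0_lift_gen (C : M2Ctx τ p y ct yt u) : ∀ g,
    (g = 1 ∨ g = 7 ∨ g = 14 ∨ g = 6 ∨ g = 19) → g < 32 ∧ ∃ q ∈ m2Q0 ct u, τ q = p g := by
  obtain ⟨o1, o2, o3, o4, o5⟩ := m2_orb
  rintro g (rfl | rfl | rfl | rfl | rfl)
  · exact ⟨by norm_num, _, m2T_mem ct u, C.tT⟩
  · exact ⟨by norm_num, _, m2Wf_mem ct u 0 (by norm_num), C.twf 0⟩
  · exact ⟨by norm_num, _, m2Wf_mem ct u 1 (by norm_num), by rw [C.twf 1, o1]⟩
  · exact ⟨by norm_num, _, m2Wf_mem ct u 2 (by norm_num), by rw [C.twf 2, o2]⟩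
  · exact ⟨by norm_num, _, m2Wf_mem ct u 3 (by norm_num), by rw [C.twf 3, o3]⟩

theorem Q0_lift_word (C : M2Ctx τ p y ct yt u) : ∀ l : List ℕ,
    (∀ g ∈ l, g = 1 ∨ g = 7 ∨ g = 14 ∨ g = 6 ∨ g = 19) →
    m2Idx l < 32 ∧ ∃ q ∈ m2Q0 ct u, τ q = p (m2Idx l) := by
  intro l
  induction l with
  | nil =>
    intro _
    exact ⟨by decide, 1, one_mem _, by rw [map_one]; exact C.h0.symm⟩
  | cons g l ih =>
    intro h
    obtain ⟨hl, q, hq, e⟩ := ih (fun g' hg' => h g' (List.mem_cons_of_mem _ hg'))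
    obtain ⟨hg, q', hq', e'⟩ := C.Q0_lift_gen g (h g List.mem_cons_self)
    refine ⟨m2_q_closed g hg _ hl, q' * q, mul_mem hq' hq, ?_⟩
    rw [map_mul, e', e, C.hmul g _ (by omega) (by omega)]
    rfl

theorem Q0_surj (C : M2Ctx τ p y ct yt u) (r : ℕ) (hr : r < 32) :
    ∃ q ∈ m2Q0 ct u, τ q = p r := by
  obtain ⟨h1, h2⟩ := m2_gen r hr
  obtain ⟨_, q, hq, e⟩ := C.Q0_lift_word _ h2
  exact ⟨q, hq, by rw [e, h1]⟩

theorem Q0_inj (C : M2Ctx τ p y ct yt u) [Finite X] :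
    ∀ q ∈ m2Q0 ct u, τ q = 1 → q = 1 := by
  classical
  choose f hf hf' using fun r : Fin 32 => C.Q0_surj r.1 r.2
  let F : Fin 32 → ↥(m2Q0 ct u) := fun r => ⟨f r, hf r⟩
  have hFinj : Function.Injective F := by
    intro r s h
    have h1 : f r = f s := congrArg Subtype.val h
    have h2 : p r.1 = p s.1 := by rw [← hf' r, ← hf' s, h1]
    exact Fin.ext (C.hinj _ _ (by omega) (by omega) h2)
  have hcard : Nat.card ↥(m2Q0 ct u) ≤ Nat.card (Fin 32) := by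
    rw [Nat.card_fin]; exact C.card_Q0
  have hbij := hFinj.bijective_of_nat_card_le hcard
  intro q hq hq1
  obtain ⟨r, hr⟩ := hbij.2 ⟨q, hq⟩
  obtain ⟨s, hs⟩ := hbij.2 ⟨1, one_mem _⟩
  have e1 : f r = q := congrArg Subtype.val hr
  have e2 : f s = 1 := congrArg Subtype.val hs
  have h1 : p r.1 = p 0 := by rw [← hf' r, e1, hq1, C.h0]
  have h2 : p s.1 = p 0 := by rw [← hf' s, e2, map_one, C.h0]
  have r0 : r.1 = 0 := C.hinj _ _ (by omega) (by norm_num) h1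
  have s0 : s.1 = 0 := C.hinj _ _ (by omega) (by norm_num) h2
  have hrs : r = s := Fin.ext (by rw [r0, s0])
  rw [← e1, hrs, e2]

theorem txt (C : M2Ctx τ p y ct yt u) : τ (ct * yt⁻¹) = p 32 := by
  rw [map_mul, map_inv, C.hct, C.hyt]; group

theorem tvt (C : M2Ctx τ p y ct yt u) : τ (yt * ct * yt * ct * ct * yt * ct) = p 64 := by
  simp only [map_mul, C.hct, C.hyt]
  exact C.hv.symm

/-- The extension is trivial. -/
theorem main (C : M2Ctx τ p y ct yt u) [Finite X] (hd : τ.ker ≤ commutator X)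
    (hcard : Nat.card G = 128 * 392445) : ∀ x, τ x = 1 → x = 1 := by
  obtain ⟨s11, s77, s55, s32, s64, s714, sprod⟩ := m2_sq
  obtain ⟨e15, e51, e132, e321, e532, e325, e632, e3264, e6432⟩ := m2_e8
  obtain ⟨xt, hxt⟩ : ∃ xt, xt = ct * yt⁻¹ := ⟨_, rfl⟩
  obtain ⟨vt, hvt⟩ : ∃ vt, vt = yt * ct * yt * ct * ct * yt * ct := ⟨_, rfl⟩
  have txt : τ xt = p 32 := by rw [hxt]; exact C.txt
  have tvt : τ vt = p 64 := by rw [hvt]; exact C.tvt
  have p32sq : p 32 ^ 2 = 1 := C.psq (by norm_num) s32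
  have p64sq : p 64 ^ 2 = 1 := C.psq (by norm_num) s64
  have xt2 : xt * xt = 1 := by rw [← pow_two]; exact C.hsq _ (by rw [txt]; exact p32sq)
  have vt2 : vt * vt = 1 := by rw [← pow_two]; exact C.hsq _ (by rw [tvt]; exact p64sq)
  have hxv : vt * xt = xt * vt :=
    Mult2.lift_comm_of_invol τ C.hsq vt xt (by rw [tvt]; exact p64sq) (by rw [txt]; exact p32sq)
      (by rw [tvt, txt, C.hmul 64 32 (by norm_num) (by norm_num),
        C.hmul 32 64 (by norm_num) (by norm_num), e3264, e6432])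
  have hxQ : ∀ q ∈ m2Q0 ct u, xt * q * xt⁻¹ ∈ m2Q0 ct u := by rw [hxt]; exact C.xt_Q0
  have hvQ : ∀ q ∈ m2Q0 ct u, vt * q * vt⁻¹ ∈ m2Q0 ct u := by rw [hvt]; exact C.vt_Q0
  obtain ⟨S₁, hS₁⟩ : ∃ S₁ : Subgroup X, S₁ = closure (insert xt (m2Q0 ct u : Set X)) :=
    ⟨_, rfl⟩
  obtain ⟨S₀, hS₀⟩ : ∃ S₀ : Subgroup X, S₀ = closure (insert vt (S₁ : Set X)) := ⟨_, rfl⟩
  have hQ1 : m2Q0 ct u ≤ S₁ := by
    rw [hS₁]; exact fun q hq => Subgroup.subset_closure (Or.inr hq)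
  have hx1 : xt ∈ S₁ := by rw [hS₁]; exact Subgroup.subset_closure (Or.inl rfl)
  have h10 : S₁ ≤ S₀ := by rw [hS₀]; exact fun q hq => Subgroup.subset_closure (Or.inr hq)
  have hv0 : vt ∈ S₀ := by rw [hS₀]; exact Subgroup.subset_closure (Or.inl rfl)
  have n1 : ∀ g ∈ S₁, ∃ h ∈ m2Q0 ct u, g = h ∨ g = h * xt := by
    rw [hS₁]
    exact Mult2.closure_insert_mem (m2Q0 ct u) xt (by rw [xt2]; exact one_mem _) hxQ
  have hvS1 : ∀ h ∈ S₁, vt * h * vt⁻¹ ∈ S₁ := by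
    rw [hS₁]
    apply Mult2.conj_closure_insert vt (m2Q0 ct u) xt hvQ
    rw [hxv, mul_inv_cancel_right, ← hS₁]; exact hx1
  have n2 : ∀ g ∈ S₀, ∃ h ∈ S₁, g = h ∨ g = h * vt := by
    rw [hS₀]
    exact Mult2.closure_insert_mem S₁ vt (by rw [vt2]; exact one_mem _) hvS1
  -- injectivity on `S₀`
  have hinj : ∀ z ∈ S₀, τ z = 1 → z = 1 := by
    intro z hz hz1
    obtain ⟨h, hh, e⟩ := n2 z hz
    obtain ⟨q, hq, e'⟩ := n1 h hh
    obtain ⟨r, hr, tq⟩ := C.tQ0 q hq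
    have key : ∀ l, l < 4 → l ≠ 0 → p r * p (32 * l) ≠ 1 := by
      intro l hl hl0 hcon
      rw [C.hmul r _ (by omega) (by omega), m2_dec' r hr l hl, ← C.h0] at hcon
      have := C.hinj _ _ (by omega) (by norm_num) hcon
      omega
    have key1 : p r * p 32 ≠ 1 := key 1 (by norm_num) (by norm_num)
    have key2 : p r * p 64 ≠ 1 := key 2 (by norm_num) (by norm_num)
    have key3 : p r * p 96 ≠ 1 := key 3 (by norm_num) (by norm_num)
    rcases e with rfl | rfl <;> rcases e' with rfl | rfl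
    · exact C.Q0_inj _ hq hz1
    · exfalso
      apply key1
      rw [← tq, ← txt, ← map_mul]; exact hz1
    · exfalso
      apply key2
      rw [← tq, ← tvt, ← map_mul]; exact hz1
    · exfalso
      apply key3
      rw [map_mul, map_mul, tq, txt, tvt, mul_assoc, C.hmul 32 64 (by norm_num) (by norm_num),
        e3264] at hz1
      exact hz1
  -- the Sylow 2-subgroup of `G`
  let SG : Subgroup G :=
    { carrier := {g | ∃ k, k < 128 ∧ g = p k}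
      mul_mem' := by
        rintro _ _ ⟨a, ha, rfl⟩ ⟨b, hb, rfl⟩
        exact ⟨ivM a b, m2_lt a ha b hb, C.hmul a b ha hb⟩
      one_mem' := ⟨0, by norm_num, C.h0.symm⟩
      inv_mem' := by
        rintro _ ⟨a, ha, rfl⟩
        obtain ⟨b, hb, hb'⟩ := m2_inv a ha
        exact ⟨b, hb, inv_eq_of_mul_eq_one_left (by rw [C.hmul b a hb ha, hb', C.h0])⟩ }
  have cSG : Nat.card ↥SG = 128 := by
    have e : Nat.card ↥SG = Nat.card (Fin 128) := by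
      apply Nat.card_congr
      refine (Equiv.ofBijective (fun k : Fin 128 => (⟨p k.1, k.1, k.2, rfl⟩ : ↥SG)) ⟨?_, ?_⟩).symm
      · intro a b h
        exact Fin.ext (C.hinj _ _ a.2 b.2 (congrArg Subtype.val h))
      · rintro ⟨_, k, hk, rfl⟩
        exact ⟨⟨k, hk⟩, rfl⟩
    rw [e, Nat.card_fin]
  have hp : IsPGroup 2 ↥SG := IsPGroup.of_card (n := 7) (by rw [cSG]; norm_num)
  have hidx : ¬ 2 ∣ SG.index := by
    have h := SG.index_mul_card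
    rw [cSG, hcard] at h
    have e : SG.index = 392445 := by omega
    rw [e]; norm_num
  have hSG : SG ≤ S₀.map τ := by
    rintro _ ⟨k, hk, rfl⟩
    obtain ⟨q, hq, tq⟩ := C.Q0_surj (k % 32) (Nat.mod_lt _ (by norm_num))
    have hdec := m2_dec k hk
    have hpk : p k = p (k % 32) * p (32 * (k / 32)) := by
      rw [C.hmul _ _ (by omega) (by omega), hdec]
    have hz : ∃ z ∈ S₀, τ z = p (32 * (k / 32)) := by
      obtain ⟨l, hl⟩ : ∃ l, l = k / 32 := ⟨_, rfl⟩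
      have hl4 : l < 4 := by omega
      rw [← hl]
      interval_cases l
      · exact ⟨1, one_mem _, by rw [map_one]; exact C.h0.symm⟩
      · exact ⟨xt, h10 hx1, txt⟩
      · exact ⟨vt, hv0, tvt⟩
      · exact ⟨xt * vt, mul_mem (h10 hx1) hv0, by
          rw [map_mul, txt, tvt, C.hmul 32 64 (by norm_num) (by norm_num), e3264]⟩
    obtain ⟨z, hz, tz⟩ := hz
    exact ⟨q * z, mul_mem (h10 (hQ1 hq)) hz, by rw [map_mul, tq, tz, hpk]⟩
  exact Mult2.ker_trivial_of_sylow_split τ C.hτ C.hker hd S₀ hinj SG hSG hp hidx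

end M2Ctx

/-- **The 2-part, abstract form.** A central extension with kernel of exponent 2 inside the
commutator subgroup of a group with the 2-local structure of `J₃` is trivial. -/
theorem two_split_abs {X G : Type*} [Group X] [Finite X] [Group G] (τ : X →* G)
    (hτ : Function.Surjective τ) (hker : ∀ x, τ x = 1 → x ∈ center X ∧ x ^ 2 = 1)
    (hd : τ.ker ≤ commutator X) (p : ℕ → G) (y : G)
    (hmul : ∀ a b, a < 128 → b < 128 → p a * p b = p (ivM a b))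
    (hinj : ∀ a b, a < 128 → b < 128 → p a = p b → a = b) (h0 : p 0 = 1) (hy3 : y ^ 3 = 1)
    (hc5 : (p 32 * y) ^ 5 = 1) (hyn : ∀ k, k < 32 → y * p k = p (ivNy k) * y)
    (hconj : ∀ g : G, g ≠ 1 → g ^ 2 = 1 → ∃ h, g = h * p 1 * h⁻¹)
    (hs2 : (p 32 * y * y * (p 32 * y) ^ 2) ^ 3 = 1)
    (hs4 : ((p 32 * y) ^ 4 * y * (p 32 * y) ^ 4) ^ 3 = 1)
    (hv : p 64 = y * (p 32 * y) * y * (p 32 * y) * (p 32 * y) * y * (p 32 * y))
    (hcard : Nat.card G = 128 * 392445) : ∀ x, τ x = 1 → x = 1 := by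
  obtain ⟨ct, hct⟩ := hτ (p 32 * y)
  obtain ⟨yt, hyt⟩ := hτ y
  obtain ⟨u, hu⟩ := hτ (p 7)
  have C : M2Ctx τ p y ct yt u :=
    ⟨hτ, hker, hmul, hinj, h0, hy3, hc5, hyn, hconj, hs2, hs4, hv, hct, hyt, hu⟩
  exact C.main hd hcard

end Cfsg.Agent.Helper7.J3
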