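/-
Helper7 library: the 2-part of the Schur multiplier of the Janko group `J₃` is trivial.
`two_split_J3`: every central extension `τ : X →* J₃` of a finite group `X` with kernel of
exponent 2 inside the commutator subgroup is an isomorphism (the hypothesis shape of
`Helper89.Stem.p_cover` / `p_not_dvd_card_ker` for `p = 2`).  The proof splits the extension over a
Sylow 2-subgroup (`J3Mult2Abs`), using the involution centraliser tables of `J3Inv2`.
-/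
import Cfsg.Agent.Helper7.J3Inv2
import Cfsg.Agent.Helper7.J3Mult2Abs
import Cfsg.Agent.Helper7.J3Chk15

set_option autoImplicit false

namespace Cfsg.Agent.Helper7.J3

open Cfsg

section
variable {F : Type*} [Field F] {ω : F}

/-! ### Three word identities in the triple cover -/

theorem m2C_code (H : Ctx ω) : IsCode ω (ivPg H 32 * ivHy H) m2C := by
  have h := IsCode.mul H.two H.om (ivPg_code H (k := 32) (by norm_num)) (ivHy_code H)
  rw [← mulF_eq] at h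
  exact h

theorem ivHy_s2 (H : Ctx ω) :
    (ivPg H 32 * ivHy H * ivHy H * (ivPg H 32 * ivHy H) ^ 2) ^ 3 = 1 := by
  have cx := m2C_code H
  obtain ⟨g, hg⟩ : ∃ g, g = ivPg H 32 * ivHy H := ⟨_, rfl⟩
  rw [← hg] at cx ⊢
  have cs := IsCode.mul H.two H.om (IsCode.mul H.two H.om cx (ivHy_code H))
    (IsCode.mul H.two H.om cx cx)
  rw [← mulF_eq, ← mulF_eq, ← mulF_eq] at cs
  have cs' : IsCode ω (g * ivHy H * (g * g)) m2S2 := cs
  have c := IsCode.mul H.two H.om (IsCode.mul H.two H.om cs' cs') cs'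
  rw [← mulF_eq, ← mulF_eq, m2_s2_chk] at c
  have e2 : g ^ 2 = g * g := pow_two g
  rw [e2, pow_succ, pow_two]
  exact IsCode.eq c isCode_one

theorem ivHy_s4 (H : Ctx ω) :
    ((ivPg H 32 * ivHy H) ^ 4 * ivHy H * (ivPg H 32 * ivHy H) ^ 4) ^ 3 = 1 := by
  have cx := m2C_code H
  obtain ⟨g, hg⟩ : ∃ g, g = ivPg H 32 * ivHy H := ⟨_, rfl⟩
  rw [← hg] at cx ⊢
  have c4 := IsCode.mul H.two H.om (IsCode.mul H.two H.om (IsCode.mul H.two H.om cx cx) cx) cx
  rw [← mulF_eq, ← mulF_eq, ← mulF_eq] at c4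
  have c4' : IsCode ω (g * g * g * g) m2C4 := c4
  have cs := IsCode.mul H.two H.om (IsCode.mul H.two H.om c4' (ivHy_code H)) c4'
  rw [← mulF_eq, ← mulF_eq] at cs
  have cs' : IsCode ω (g * g * g * g * ivHy H * (g * g * g * g)) m2S4 := cs
  have c := IsCode.mul H.two H.om (IsCode.mul H.two H.om cs' cs') cs'
  rw [← mulF_eq, ← mulF_eq, m2_s4_chk] at c
  have e4 : g ^ 4 = g * g * g * g := by rw [pow_succ, pow_succ, pow_two]
  rw [e4, pow_succ, pow_two]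
  exact IsCode.eq c isCode_one

theorem ivHy_v (H : Ctx ω) :
    ivPg H 64 = ivHy H * (ivPg H 32 * ivHy H) * ivHy H * (ivPg H 32 * ivHy H) *
      (ivPg H 32 * ivHy H) * ivHy H * (ivPg H 32 * ivHy H) := by
  have cx := m2C_code H
  have cy := ivHy_code H
  have c := IsCode.mul H.two H.om (IsCode.mul H.two H.om (IsCode.mul H.two H.om
    (IsCode.mul H.two H.om (IsCode.mul H.two H.om (IsCode.mul H.two H.om cy cx) cy) cx) cx) cy) cx
  rw [← mulF_eq, ← mulF_eq, ← mulF_eq, ← mulF_eq, ← mulF_eq, ← mulF_eq, m2_v_chk] at c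
  exact IsCode.eq (ivPg_code H (k := 64) (by norm_num)) c

/-! ### The same identities in `J₃` -/

theorem ivYq_s2 (H : Ctx ω) :
    (ivPq H 32 * ivYq H * ivYq H * (ivPq H 32 * ivYq H) ^ 2) ^ 3 = 1 := by
  have e : ((⟨ivPg H 32, ivPg_mem H 32⟩ : ↥(Spor.threeJ3 F ω)) * ⟨ivHy H, ivHy_mem H⟩ *
      ⟨ivHy H, ivHy_mem H⟩ * ((⟨ivPg H 32, ivPg_mem H 32⟩ : ↥(Spor.threeJ3 F ω)) *
        ⟨ivHy H, ivHy_mem H⟩) ^ 2) ^ 3 = 1 :=
    Subtype.ext (by simp only [Subgroup.coe_pow, Subgroup.coe_mul]; exact ivHy_s2 H)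
  have h := congrArg (QuotientGroup.mk' (Subgroup.center ↥(Spor.threeJ3 F ω))) e
  simp only [map_mul, map_pow, map_one] at h
  exact h

theorem ivYq_s4 (H : Ctx ω) :
    ((ivPq H 32 * ivYq H) ^ 4 * ivYq H * (ivPq H 32 * ivYq H) ^ 4) ^ 3 = 1 := by
  have e : (((⟨ivPg H 32, ivPg_mem H 32⟩ : ↥(Spor.threeJ3 F ω)) * ⟨ivHy H, ivHy_mem H⟩) ^ 4 *
      ⟨ivHy H, ivHy_mem H⟩ * ((⟨ivPg H 32, ivPg_mem H 32⟩ : ↥(Spor.threeJ3 F ω)) *
        ⟨ivHy H, ivHy_mem H⟩) ^ 4) ^ 3 = 1 :=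
    Subtype.ext (by simp only [Subgroup.coe_pow, Subgroup.coe_mul]; exact ivHy_s4 H)
  have h := congrArg (QuotientGroup.mk' (Subgroup.center ↥(Spor.threeJ3 F ω))) e
  simp only [map_mul, map_pow, map_one] at h
  exact h

theorem ivYq_v (H : Ctx ω) :
    ivPq H 64 = ivYq H * (ivPq H 32 * ivYq H) * ivYq H * (ivPq H 32 * ivYq H) *
      (ivPq H 32 * ivYq H) * ivYq H * (ivPq H 32 * ivYq H) := by
  have e : (⟨ivPg H 64, ivPg_mem H 64⟩ : ↥(Spor.threeJ3 F ω)) =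
      ⟨ivHy H, ivHy_mem H⟩ * (⟨ivPg H 32, ivPg_mem H 32⟩ * ⟨ivHy H, ivHy_mem H⟩) *
      ⟨ivHy H, ivHy_mem H⟩ * (⟨ivPg H 32, ivPg_mem H 32⟩ * ⟨ivHy H, ivHy_mem H⟩) *
      (⟨ivPg H 32, ivPg_mem H 32⟩ * ⟨ivHy H, ivHy_mem H⟩) * ⟨ivHy H, ivHy_mem H⟩ *
      (⟨ivPg H 32, ivPg_mem H 32⟩ * ⟨ivHy H, ivHy_mem H⟩) :=
    Subtype.ext (by simp only [Subgroup.coe_mul]; exact ivHy_v H)
  have h := congrArg (QuotientGroup.mk' (Subgroup.center ↥(Spor.threeJ3 F ω))) e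
  simp only [map_mul] at h
  exact h

/-! ### The 2-part of the multiplier -/

/-- **The 2-part of the Schur multiplier of `J₃` is trivial**: a central extension of `J₃` by a
group of exponent 2, with kernel inside the commutator subgroup, is trivial. -/
theorem two_split_J3 (H : Ctx ω) (X : Type*) [Group X] [Finite X] (τ : X →* Spor.J3 F ω)
    (hτ : Function.Surjective τ) (hker : ∀ x, τ x = 1 → x ∈ Subgroup.center X ∧ x ^ 2 = 1)
    (hd : τ.ker ≤ commutator X) : ∀ x, τ x = 1 → x = 1 := by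
  have : Fact (Nat.Prime 2) := ⟨Nat.prime_two⟩
  refine two_split_abs τ hτ hker hd (ivPq H) (ivYq H) (fun a b ha hb => ivPq_mul H ha hb)
    (fun a b ha hb h => ivPq_inj H ha hb h) (ivPq_zero H) (ivYq_pow3 H) (ivYq_pow5 H)
    (fun k hk => ivYq_norm H hk) ?_ (ivYq_s2 H) (ivYq_s4 H) (ivYq_v H)
    ((card_J3 H).trans (by norm_num))
  intro g hg1 hg2
  have ho : orderOf g = 2 := orderOf_eq_prime hg2 hg1
  obtain ⟨h, hh⟩ := isConj_iff.mp (ivInv_conj H g ho).symm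
  exact ⟨h, by rw [ivPq_one]; exact hh.symm⟩

end

end Cfsg.Agent.Helper7.J3
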