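/-
Helper7 library: the Schur multiplier of the Janko group `J₃` is cyclic of order 3, given the
3-part (assembly for S2041).  `schur_J3_of_three`: if every central extension of the triple cover
`3·J₃` with kernel of exponent 3 inside the commutator subgroup is trivial, then
`HasCyclicSchurMultiplier J₃ 3`.  The cover is `3·J₃ → J₃` itself (perfect, centre generated by
the scalar `ω`); the prime 2 is `two_split_J3`, the primes 5, 17, 19 have cyclic Sylow subgroups.
-/
import Cfsg.Agent.Helper7.J3Mult2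
import Cfsg.Agent.Helper89.CoxP

set_option autoImplicit false

namespace Cfsg.Agent.Helper7.J3

open Cfsg Subgroup
open Cfsg.Agent.Helper89
open scoped commutatorElement

theorem m2_nc : ivM 7 14 ≠ ivM 14 7 := by decide +kernel

universe u

section
variable {F : Type u} [Field F] {ω : F}

theorem threeJ3_finite (H : Ctx ω) : Finite ↥(Spor.threeJ3 F ω) :=
  Nat.finite_of_card_ne_zero (by rw [card_threeJ3 H]; norm_num)

/-- `J₃` is not abelian. -/
theorem J3_noncomm (H : Ctx ω) : ivPq H 7 * ivPq H 14 ≠ ivPq H 14 * ivPq H 7 := by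
  rw [ivPq_mul H (by norm_num) (by norm_num), ivPq_mul H (by norm_num) (by norm_num)]
  intro h
  exact m2_nc (ivPq_inj H (m2_lt 7 (by norm_num) 14 (by norm_num))
    (m2_lt 14 (by norm_num) 7 (by norm_num)) h)

/-- The triple cover is perfect. -/
theorem threeJ3_perfect (H : Ctx ω) : commutator ↥(Spor.threeJ3 F ω) = ⊤ := by
  rcases normal_cases H (commutator ↥(Spor.threeJ3 F ω)) with h | h
  · exfalso
    apply J3_noncomm H
    obtain ⟨a, ha⟩ : ∃ a : ↥(Spor.threeJ3 F ω), a = ⟨ivPg H 7, ivPg_mem H 7⟩ := ⟨_, rfl⟩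
    obtain ⟨b, hb⟩ : ∃ b : ↥(Spor.threeJ3 F ω), b = ⟨ivPg H 14, ivPg_mem H 14⟩ := ⟨_, rfl⟩
    have e1 : ivPq H 7 = QuotientGroup.mk a := by rw [ha]; rfl
    have e2 : ivPq H 14 = QuotientGroup.mk b := by rw [hb]; rfl
    rw [e1, e2, ← QuotientGroup.mk_mul, ← QuotientGroup.mk_mul, QuotientGroup.eq]
    have hn : ⁅b⁻¹, a⁻¹⁆ ∈ commutator ↥(Spor.threeJ3 F ω) := by
      rw [_root_.commutator_def]
      exact Subgroup.commutator_mem_commutator (Subgroup.mem_top _) (Subgroup.mem_top _)
    have e : (a * b)⁻¹ * (b * a) = ⁅b⁻¹, a⁻¹⁆ := by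
      rw [commutatorElement_def]; group
    rw [e, center_eq H]
    exact scal_mem_zpowers H (h _ hn)
  · exact h

/-- The projection of the triple cover onto `J₃`. -/
noncomputable def m3π : ↥(Spor.threeJ3 F ω) →* Spor.J3 F ω :=
  QuotientGroup.mk' (center ↥(Spor.threeJ3 F ω))

theorem m3π_surj : Function.Surjective (m3π (F := F) (ω := ω)) :=
  QuotientGroup.mk'_surjective _

theorem m3π_zG (H : Ctx ω) : m3π (zG H) = 1 :=
  (QuotientGroup.eq_one_iff _).mpr (zG_mem_center H)

theorem zG_order (H : Ctx ω) : orderOf (zG H) = 3 := by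
  have h := card_center H
  rw [center_eq H, Nat.card_zpowers] at h
  exact h

theorem zG_central (H : Ctx ω) (x : ↥(Spor.threeJ3 F ω)) : zG H * x = x * zG H :=
  (Subgroup.mem_center_iff.mp (zG_mem_center H) x).symm

theorem m3_not_sq {p : ℕ} (hp : p.Prime) (h2 : p ≠ 2) (h3 : p ≠ 3) : ¬ p ^ 2 ∣ 150698880 := by
  intro h
  have hc2 : Nat.Coprime (p ^ 2) (2 ^ 7) :=
    Nat.Coprime.pow _ _ ((Nat.coprime_primes hp Nat.prime_two).2 h2)
  have hc3 : Nat.Coprime (p ^ 2) (3 ^ 6) :=
    Nat.Coprime.pow _ _ ((Nat.coprime_primes hp Nat.prime_three).2 h3)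
  have h1 : p ^ 2 ∣ 1177335 := hc2.dvd_of_dvd_mul_left (by norm_num; exact h)
  have h4 : p ^ 2 ∣ 1615 := hc3.dvd_of_dvd_mul_left (by norm_num; exact h1)
  have h5 : p ^ 2 ≤ 1615 := Nat.le_of_dvd (by norm_num) h4
  have h6 : p ≤ 40 := by nlinarith
  interval_cases p <;>
    first | exact absurd h4 (by decide) | exact absurd hp (by decide)

/-- The triple cover has trivial Schur multiplier, given its 3-part. -/
theorem m3_univ (H : Ctx ω)
    (H3 : ∀ (X : Type u) [Group X] [Finite X] (τ : X →* ↥(Spor.threeJ3 F ω)),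
      Function.Surjective τ → (∀ x, τ x = 1 → x ∈ center X ∧ x ^ 3 = 1) →
      τ.ker ≤ commutator X → ∀ x, τ x = 1 → x = 1)
    (X : Type u) [Group X] [Finite X] (τ : X →* ↥(Spor.threeJ3 F ω))
    (hτ : Function.Surjective τ) (hc : τ.ker ≤ center X) (hd : τ.ker ≤ commutator X) :
    τ.ker = ⊥ := by
  have := threeJ3_finite H
  have := ivFinite H
  apply Stem.ker_eq_bot_of_primes
  intro p hp
  by_cases h2 : p = 2
  · subst h2
    have hπk := Stem.ker_of_cyclic (m3π (F := F) (ω := ω)) m3π_surj 3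
      (by rw [card_threeJ3 H, card_J3 H]) (zG H) (m3π_zG H) (zG_order H) (zG_central H)
    exact Stem.p_not_dvd_card_ker 2 Nat.prime_two τ hτ hc hd
      (fun X' _ _ τ' hτ' hker' hd' =>
        Stem.p_cover 2 3 Nat.prime_two (by decide) (m3π (F := F) (ω := ω)) m3π_surj hπk
          (fun Y _ _ σ hσ hk' hd'' => two_split_J3 H Y σ hσ hk' hd'')
          X' τ' hτ' hker' hd')
  by_cases h3 : p = 3
  · subst h3
    exact Stem.p_not_dvd_card_ker 3 Nat.prime_three τ hτ hc hd H3
  · have : Fact p.Prime := ⟨hp⟩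
    exact Stem.not_dvd_card_ker_of_sq τ hc hd p
      (by rw [card_threeJ3 H]; exact m3_not_sq hp h2 h3)

/-- **The Schur multiplier of `J₃` is cyclic of order 3**, given the 3-part for the triple
cover. -/
theorem schur_J3_of_three (H : Ctx ω)
    (H3 : ∀ (X : Type u) [Group X] [Finite X] (τ : X →* ↥(Spor.threeJ3 F ω)),
      Function.Surjective τ → (∀ x, τ x = 1 → x ∈ center X ∧ x ^ 3 = 1) →
      τ.ker ≤ commutator X → ∀ x, τ x = 1 → x = 1) :
    HasCyclicSchurMultiplier (Spor.J3 F ω) 3 := by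
  have := threeJ3_finite H
  have := ivFinite H
  exact Stem.cover_cyclic (m3π (F := F) (ω := ω)) m3π_surj 3
    (by rw [card_threeJ3 H, card_J3 H]) (zG H) (m3π_zG H) (zG_order H) (zG_central H)
    (threeJ3_perfect H) (m3_univ H H3)

end

end Cfsg.Agent.Helper7.J3
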