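/-
Helper7 library: groups coordinatised by the multiplication table of `PSL(2,7)`.

`Coord168 G` is a bijection of `G` with `Fin 168` under which the multiplication of `G` becomes
the explicit table `mulT`. Every simple group of order 168 has one (`exists_coord168`, from the
uniqueness of the simple group of order 168, statement S0495, applied twice), and all questions
about elements of such a group reduce to checks on the table:
`Coord168.orderOf`, `Coord168.isConj_iff`, `Coord168.map_inv`, `Coord168.map_conj`.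
-/
import Cfsg.Agent.Helper7.L168Data
import Cfsg.Agent.S0495

set_option autoImplicit false
open scoped Pointwise

namespace Cfsg.Agent.Helper7

open Cfsg

theorem all168_spec {p : ℕ → Bool} (h : all168 p = true) {i : ℕ} (hi : i < 168) : p i = true := by
  have h1 := allRange_spec _ 8 0 h i (Nat.zero_le _) (by norm_num; omega)
  have h2 : Nat.blt i 168 = true := by rw [Nat.blt_eq]; exact hi
  rw [h2] at h1
  simpa using h1

theorem repT_lt (c : ℕ) : repT c < 168 := by
  unfold repT l168R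
  rcases c with _ | _ | _ | _ | _ | _ | c <;> simp

/-- A bijection with `Fin 168` turning the multiplication into the table `mulT`. -/
structure Coord168 (G : Type*) [Group G] where
  ψ : G ≃ Fin 168
  map_one : ((ψ 1 : Fin 168) : ℕ) = 0
  map_mul : ∀ a b : G, ((ψ (a * b) : Fin 168) : ℕ) = mulT (ψ a) (ψ b)

namespace Coord168

variable {G : Type*} [Group G] (C : Coord168 G)

theorem eq_of_idx {a b : G} (h : ((C.ψ a : Fin 168) : ℕ) = C.ψ b) : a = b :=
  C.ψ.injective (Fin.ext h)

theorem eq_one {a : G} (h : ((C.ψ a : Fin 168) : ℕ) = 0) : a = 1 :=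
  C.eq_of_idx (h.trans C.map_one.symm)

/-- The element with a given index. -/
def elt (i : ℕ) (hi : i < 168) : G := C.ψ.symm ⟨i, hi⟩

theorem ψ_elt (i : ℕ) (hi : i < 168) : ((C.ψ (C.elt i hi) : Fin 168) : ℕ) = i := by
  rw [elt, Equiv.apply_symm_apply]

theorem map_inv (a : G) : ((C.ψ a⁻¹ : Fin 168) : ℕ) = invT (C.ψ a) := by
  have h := C.map_mul a a⁻¹
  rw [mul_inv_cancel, C.map_one] at h
  have h1 := all168_spec (all168_spec l168I_ok (C.ψ a).2) (C.ψ a⁻¹).2
  rw [← h] at h1
  exact Nat.eq_of_beq_eq_true (by simpa using h1)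

theorem map_conj (u x : G) :
    ((C.ψ (u * x * u⁻¹) : Fin 168) : ℕ) = conjT (C.ψ u) (C.ψ x) := by
  rw [C.map_mul, C.map_mul, C.map_inv]
  rfl

theorem map_pow (a : G) (k : ℕ) : ((C.ψ (a ^ k) : Fin 168) : ℕ) = powT (C.ψ a) k := by
  induction k with
  | zero => rw [pow_zero, C.map_one]; rfl
  | succ k ih => rw [pow_succ', C.map_mul, ih]; rfl

theorem orderOf (a : G) : orderOf a = ordT (C.ψ a) := by
  have h := all168_spec l168O_ok (C.ψ a).2
  simp only [Bool.and_eq_true] at h
  obtain ⟨⟨h1, h2⟩, h3⟩ := h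
  rw [Nat.blt_eq] at h1
  rw [orderOf_eq_iff h1]
  constructor
  · apply C.eq_one
    rw [C.map_pow]
    exact Nat.eq_of_beq_eq_true h2
  · intro m hm hpos heq
    have h4 := List.all_eq_true.mp h3 m (List.mem_range.mpr hm)
    have e : powT (C.ψ a) m = 0 := by rw [← C.map_pow, heq, C.map_one]
    rw [e] at h4
    have h5 : Nat.beq m 0 = true := by simpa using h4
    have := Nat.eq_of_beq_eq_true h5
    omega

/-- Every element is conjugate to the representative of its class. -/
theorem conj_rep (a : G) :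
    ∃ u : G, u * a * u⁻¹ = C.elt (repT (clsT (C.ψ a))) (repT_lt _) := by
  have h := all168_spec l168J_ok (C.ψ a).2
  simp only [Bool.and_eq_true] at h
  obtain ⟨h1, h2⟩ := h
  rw [Nat.blt_eq] at h1
  refine ⟨C.elt (cjT (C.ψ a)) h1, ?_⟩
  rw [mul_inv_eq_iff_eq_mul]
  apply C.eq_of_idx
  rw [C.map_mul, C.map_mul, C.ψ_elt, C.ψ_elt]
  exact Nat.eq_of_beq_eq_true h2

theorem isConj_iff {a b : G} : IsConj a b ↔ clsT (C.ψ a) = clsT (C.ψ b) := by
  constructor
  · rw [_root_.isConj_iff]
    rintro ⟨c, rfl⟩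
    rw [C.map_conj]
    exact (Nat.eq_of_beq_eq_true
      (all168_spec (all168_spec l168C_ok (C.ψ a).2) (C.ψ c).2)).symm
  · intro h
    obtain ⟨u, hu⟩ := C.conj_rep a
    obtain ⟨v, hv⟩ := C.conj_rep b
    have h1 : IsConj a (C.elt (repT (clsT (C.ψ a))) (repT_lt _)) := _root_.isConj_iff.mpr ⟨u, hu⟩
    have h2 : IsConj b (C.elt (repT (clsT (C.ψ a))) (repT_lt _)) := by
      refine _root_.isConj_iff.mpr ⟨v, ?_⟩
      rw [hv]
      congr 2
      exact h.symm
    exact h1.trans h2.symm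

include C in
theorem card_eq : Nat.card G = 168 := by
  rw [Nat.card_congr C.ψ, Nat.card_fin]

include C in
/-- A group with the multiplication table of `PSL(2,7)` is simple. -/
theorem isSimpleGroup : IsSimpleGroup G := by
  haveI : Nontrivial G := by
    refine ⟨⟨C.elt 0 (by norm_num), C.elt 1 (by norm_num), ?_⟩⟩
    intro h
    have := congrArg (fun x => ((C.ψ x : Fin 168) : ℕ)) h
    simp only [C.ψ_elt] at this
    omega
  refine ⟨fun N hN => ?_⟩
  by_cases hbot : N = ⊥
  · exact Or.inl hbot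
  right
  obtain ⟨⟨n, hn⟩, hne⟩ := (Subgroup.ne_bot_iff_exists_ne_one).mp hbot
  have hn1 : n ≠ 1 := fun h => hne (Subtype.ext h)
  have hi0 : ((C.ψ n : Fin 168) : ℕ) ≠ 0 := fun h => hn1 (C.eq_one h)
  have hc := all168_spec l168C_zero (C.ψ n).2
  have hc' : 0 < clsT (C.ψ n) ∧ clsT (C.ψ n) < 6 := by
    rcases Bool.or_eq_true _ _ ▸ hc with h | h
    · exact absurd (Nat.eq_of_beq_eq_true h) hi0
    · rw [Bool.and_eq_true, Nat.blt_eq, Nat.blt_eq] at h
      exact h
  obtain ⟨u, hu⟩ := C.conj_rep n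
  have hr : C.elt (repT (clsT (C.ψ n))) (repT_lt _) ∈ N := by
    rw [← hu]
    exact hN.conj_mem n hn u
  rw [eq_top_iff]
  intro g _
  have hP := all168_spec l168P_ok (C.ψ g).2
  have hcmem : clsT (C.ψ n) ∈ [1, 2, 3, 4, 5] := by
    obtain ⟨h1, h2⟩ := hc'
    generalize clsT (C.ψ n) = c at h1 h2
    interval_cases c <;> simp
  have hP' := List.all_eq_true.mp hP _ hcmem
  simp only [Bool.and_eq_true, Nat.blt_eq] at hP'
  obtain ⟨⟨⟨h0, h1⟩, h2⟩, h3⟩ := hP'
  have key : ∀ k (hk : facU (clsT (C.ψ n)) (C.ψ g) k < 168),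
      ∃ y ∈ N, ((C.ψ y : Fin 168) : ℕ) = facT (clsT (C.ψ n)) (C.ψ g) k := by
    intro k hk
    refine ⟨C.elt _ hk * C.elt (repT (clsT (C.ψ n))) (repT_lt _) * (C.elt _ hk)⁻¹,
      hN.conj_mem _ hr _, ?_⟩
    rw [C.map_conj, C.ψ_elt, C.ψ_elt]
    rfl
  obtain ⟨y0, hy0, e0⟩ := key 0 h0
  obtain ⟨y1, hy1, e1⟩ := key 1 h1
  obtain ⟨y2, hy2, e2⟩ := key 2 h2
  have hg : g = y0 * y1 * y2 := by
    apply C.eq_of_idx
    rw [C.map_mul, C.map_mul, e0, e1, e2]
    exact (Nat.eq_of_beq_eq_true h3).symm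
  rw [hg]
  exact N.mul_mem (N.mul_mem hy0 hy1) hy2

/-- Transport along an isomorphism. -/
def ofMulEquiv {H : Type*} [Group H] (C : Coord168 H) (φ : G ≃* H) : Coord168 G where
  ψ := φ.toEquiv.trans C.ψ
  map_one := by
    show ((C.ψ (φ 1) : Fin 168) : ℕ) = 0
    rw [_root_.map_one, C.map_one]
  map_mul := fun a b => by
    show ((C.ψ (φ (a * b)) : Fin 168) : ℕ) = mulT (C.ψ (φ a)) (C.ψ (φ b))
    rw [_root_.map_mul, C.map_mul]

end Coord168

/-! ### The model -/

/-- The permutations whose table is in the list. -/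
def l168T : Set (Equiv.Perm GolayPt) := {g | ∃ i, i < 168 ∧ IsTbl g (l168E i)}

/-- The model of `PSL(2,7)`. -/
def l168H : Subgroup (Equiv.Perm GolayPt) := Subgroup.closure {g | ∃ c ∈ l168G, IsTbl g c}

theorem mulT_spec {i j : ℕ} (hi : i < 168) (hj : j < 168) :
    mulT i j < 168 ∧ compF (l168E i) (l168E j) = l168E (mulT i j) := by
  have h : (all168 (fun j => Nat.blt (mulT i j) 168 &&
      Nat.beq (compF (l168E i) (l168E j)) (l168E (mulT i j)))) = true := by
    have hb : Nat.blt i 168 = true := by rw [Nat.blt_eq]; exact hi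
    have aux : ∀ s, mulRows 5 s = true → s ≤ i → i < s + 2 ^ 5 →
        (all168 (fun j => Nat.blt (mulT i j) 168 &&
          Nat.beq (compF (l168E i) (l168E j)) (l168E (mulT i j)))) = true := by
      intro s hs h1 h2
      have h3 := allRange_spec _ 5 s hs i h1 h2
      rw [hb] at h3
      simpa using h3
    rcases (by omega : i < 32 ∨ (32 ≤ i ∧ i < 64) ∨ (64 ≤ i ∧ i < 96) ∨ (96 ≤ i ∧ i < 128) ∨
      (128 ≤ i ∧ i < 160) ∨ 160 ≤ i) with h | h | h | h | h | h
    · exact aux 0 l168M_ok0 (Nat.zero_le _) (by omega)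
    · exact aux 32 l168M_ok1 h.1 (by omega)
    · exact aux 64 l168M_ok2 h.1 (by omega)
    · exact aux 96 l168M_ok3 h.1 (by omega)
    · exact aux 128 l168M_ok4 h.1 (by omega)
    · exact aux 160 l168M_ok5 h (by omega)
  have h1 := all168_spec h hj
  rw [Bool.and_eq_true, Nat.blt_eq] at h1
  exact ⟨h1.1, Nat.eq_of_beq_eq_true h1.2⟩

theorem l168T_mul {g h : Equiv.Perm GolayPt} (hg : g ∈ l168T) (hh : h ∈ l168T) : g * h ∈ l168T := by
  obtain ⟨i, hi, hgi⟩ := hg
  obtain ⟨j, hj, hhj⟩ := hh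
  obtain ⟨h1, h2⟩ := mulT_spec hi hj
  exact ⟨mulT i j, h1, h2 ▸ hgi.mulF hhj⟩

theorem l168T_one : (1 : Equiv.Perm GolayPt) ∈ l168T :=
  ⟨0, by norm_num, by rw [Nat.eq_of_beq_eq_true l168E_zero]; exact IsTbl.one⟩

theorem l168G_mem {c : ℕ} (hc : c ∈ l168G) : c = l168E 1 ∨ c = l168E 2 := by
  have h := l168G_eq
  rw [Bool.and_eq_true] at h
  have h1 := Nat.eq_of_beq_eq_true h.1
  have h2 : l168E 2 = l168G.getD 1 0 := Nat.eq_of_beq_eq_true (by simpa using h.2)
  rw [h1, h2]
  unfold l168G at hc ⊢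
  simp only [List.mem_cons, List.not_mem_nil, or_false] at hc
  rcases hc with rfl | rfl
  · left; rfl
  · right; rfl

theorem l168H_sub {g : Equiv.Perm GolayPt} (hg : g ∈ l168H) : g ∈ l168T := by
  have hstab : l168H ≤ MulAction.stabilizer (Equiv.Perm GolayPt) l168T := by
    rw [l168H, Subgroup.closure_le]
    intro g hg
    rw [SetLike.mem_coe, MulAction.mem_stabilizer_set' (Set.toFinite _)]
    intro t ht
    obtain ⟨c, hc, hgc⟩ := hg
    refine l168T_mul ?_ ht
    rcases l168G_mem hc with rfl | rfl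
    · exact ⟨1, by norm_num, hgc⟩
    · exact ⟨2, by norm_num, hgc⟩
  have h := hstab hg
  rw [MulAction.mem_stabilizer_set' (Set.toFinite _)] at h
  have h1 := h l168T_one
  rwa [smul_eq_mul, mul_one] at h1

theorem l168E_mem (i : ℕ) (hi : i < 168) : ∃ g ∈ l168H, IsTbl g (l168E i) := by
  induction i using Nat.strong_induction_on with
  | _ i ih =>
    have h := all168_spec l168Par_ok hi
    rcases Bool.or_eq_true _ _ ▸ h with h | h
    · rw [Nat.eq_of_beq_eq_true h]
      exact ⟨1, one_mem _, by rw [Nat.eq_of_beq_eq_true l168E_zero]; exact IsTbl.one⟩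
    · simp only [Bool.and_eq_true, Nat.blt_eq] at h
      obtain ⟨⟨h1, h2⟩, h3⟩ := h
      obtain ⟨g', hg', ht'⟩ := ih _ h1 (by omega)
      have hp : l168G.getD (byteA l168Gen i) 0 ∈ l168G := by
        rw [List.getD_eq_getElem _ _ (by show byteA l168Gen i < 2; exact h2)]
        exact List.getElem_mem _
      have hv : validCode (l168G.getD (byteA l168Gen i) 0) = true :=
        List.all_eq_true.mp l168G_ok _ hp
      have htb := isTbl_permOf hv
      refine ⟨permOf (l168G.getD (byteA l168Gen i) 0) * g', ?_, ?_⟩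
      · exact mul_mem (Subgroup.subset_closure ⟨_, hp, htb⟩) hg'
      · rw [Nat.eq_of_beq_eq_true h3]
        exact htb.mulF ht'

theorem keyS_eq168 {g : Equiv.Perm GolayPt} {c c' : ℕ} (h : IsTbl g c) (h' : IsTbl g c') :
    keyS c = keyS c' := by
  have ht : ∀ j, j < 24 → tbl c j = tbl c' j := by
    intro j hj
    have a := h (pt j)
    have b := h' (pt j)
    rw [idx_pt hj] at a b
    exact a.symm.trans b
  rw [keyS, keyS, ht 0 (by norm_num), ht 1 (by norm_num), ht 3 (by norm_num)]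

theorem l168E_inj {g : Equiv.Perm GolayPt} {i j : ℕ} (hi : i < 168) (hj : j < 168)
    (h : IsTbl g (l168E i)) (h' : IsTbl g (l168E j)) : i = j := by
  have a : tenA l168K (keyS (l168E i)) = i := Nat.eq_of_beq_eq_true (all168_spec l168K_ok hi)
  have b : tenA l168K (keyS (l168E j)) = j := Nat.eq_of_beq_eq_true (all168_spec l168K_ok hj)
  rw [← a, ← b, keyS_eq168 h h']

/-- The coordinates of the model. -/
noncomputable def l168Coord : Coord168 ↥l168H := by
  let f : Fin 168 → ↥l168H := fun i =>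
    ⟨(l168E_mem i i.2).choose, (l168E_mem i i.2).choose_spec.1⟩
  have hf : ∀ i : Fin 168, IsTbl ((f i : ↥l168H) : Equiv.Perm GolayPt) (l168E i) :=
    fun i => (l168E_mem i i.2).choose_spec.2
  have hbij : Function.Bijective f := by
    constructor
    · intro i j hij
      have h1 := hf i
      rw [hij] at h1
      exact Fin.ext (l168E_inj i.2 j.2 h1 (hf j))
    · intro g
      obtain ⟨i, hi, hti⟩ := l168H_sub g.2
      exact ⟨⟨i, hi⟩, Subtype.ext ((hf ⟨i, hi⟩).eq hti)⟩
  let e : Fin 168 ≃ ↥l168H := Equiv.ofBijective f hbij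
  have he : ∀ x : ↥l168H, IsTbl (x : Equiv.Perm GolayPt) (l168E (e.symm x)) := by
    intro x
    have := hf (e.symm x)
    have h2 : f (e.symm x) = x := e.apply_symm_apply x
    rwa [h2] at this
  refine ⟨e.symm, ?_, ?_⟩
  · have h1 := he 1
    have h2 : IsTbl ((1 : ↥l168H) : Equiv.Perm GolayPt) (l168E 0) := by
      rw [Nat.eq_of_beq_eq_true l168E_zero]
      exact IsTbl.one
    exact l168E_inj (e.symm 1).2 (by norm_num) h1 h2
  · intro a b
    have h1 := he (a * b)
    obtain ⟨h2, h3⟩ := mulT_spec (e.symm a).2 (e.symm b).2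
    have h4 : IsTbl ((a * b : ↥l168H) : Equiv.Perm GolayPt) (l168E (mulT (e.symm a) (e.symm b))) := by
      rw [← h3]
      exact (he a).mulF (he b)
    exact l168E_inj (e.symm (a * b)).2 h2 h1 h4

/-- Every simple group of order 168 has the multiplication table of `PSL(2,7)`. -/
theorem exists_coord168 {G : Type*} [Group G] [Finite G] [IsSimpleGroup G]
    (h : Nat.card G = 168) : Nonempty (Coord168 G) := by
  haveI : Fact (Nat.Prime 7) := ⟨by norm_num⟩
  have hF : Fintype.card (ZMod 7) = 7 := ZMod.card 7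
  obtain ⟨φ1⟩ := Cfsg.Agent.S0495.result h hF
  haveI : IsSimpleGroup ↥l168H := l168Coord.isSimpleGroup
  obtain ⟨φ2⟩ := Cfsg.Agent.S0495.result l168Coord.card_eq hF
  exact ⟨l168Coord.ofMulEquiv (φ1.trans φ2.symm)⟩

end Cfsg.Agent.Helper7
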