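/-
Helper7 library: subgroups of a group coordinatised by the multiplication table of `PSL(2,7)`,
given by 168-bit masks; cardinalities, normalisers, Sylow subgroups, isomorphisms from tables.
-/
import Cfsg.Agent.Helper7.L168

set_option autoImplicit false
open scoped Pointwise

namespace Cfsg.Agent.Helper7

open Cfsg

theorem allRange_of (p : ℕ → Bool) (d s : ℕ) (h : ∀ c, s ≤ c → c < s + 2 ^ d → p c = true) :
    allRange p d s = true := by
  induction d generalizing s with
  | zero => exact h s le_rfl (by simp)
  | succ d ih =>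
    show (allRange p d s && allRange p d (s + 2 ^ d)) = true
    rw [Bool.and_eq_true]
    exact ⟨ih s (fun c h1 h2 => h c h1 (by rw [pow_succ]; omega)),
      ih _ (fun c h1 h2 => h c (by omega) (by rw [pow_succ]; omega))⟩

theorem all168_of {p : ℕ → Bool} (h : ∀ i, i < 168 → p i = true) : all168 p = true := by
  apply allRange_of
  intro c _ _
  by_cases hc : c < 168
  · rw [h c hc]; simp
  · have : Nat.blt c 168 = false := by
      rw [← Bool.not_eq_true, Nat.blt_eq]; exact hc
    rw [this]; rfl

theorem all168_iff {p : ℕ → Bool} : all168 p = true ↔ ∀ i, i < 168 → p i = true :=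
  ⟨fun h _ hi => all168_spec h hi, all168_of⟩

/-- Bit `i` of the mask `m`. -/
def bitA (m i : ℕ) : Bool := Nat.beq (Nat.mod (Nat.shiftRight m i) 2) 1

/-- The mask is closed under the table operations. -/
def subOK (m : ℕ) : Bool :=
  bitA m 0 && all168 (fun i => !bitA m i ||
    (bitA m (invT i) && all168 (fun j => !bitA m j || bitA m (mulT i j))))

/-- Equality of booleans. -/
def eqB : Bool → Bool → Bool
  | true, b => b
  | false, b => !b

theorem eqB_iff {a b : Bool} : eqB a b = true ↔ a = b := by
  cases a <;> cases b <;> simp [eqB]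

/-- The elements normalising the mask. -/
def normB (m i : ℕ) : Bool := all168 (fun j => eqB (bitA m j) (bitA m (conjT i j)))

theorem sum_range_ite_eq_countP (p : ℕ → Bool) (n : ℕ) :
    ∑ i ∈ Finset.range n, (if p i = true then 1 else 0) = (List.range n).countP p := by
  induction n with
  | zero => simp
  | succ n ih =>
    rw [Finset.sum_range_succ, List.range_succ, List.countP_append, ih, List.countP_singleton]

namespace Coord168

variable {G : Type*} [Group G] (C : Coord168 G)

theorem forall_iff (p : ℕ → Bool) : (∀ g : G, p (C.ψ g) = true) ↔ all168 p = true := by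
  constructor
  · intro h
    apply all168_of
    intro i hi
    have := h (C.elt i hi)
    rwa [C.ψ_elt] at this
  · intro h g
    exact all168_spec h (C.ψ g).2

/-- The subgroup with a given mask. -/
def sub (m : ℕ) (hm : subOK m = true) : Subgroup G where
  carrier := {g | bitA m (C.ψ g) = true}
  mul_mem' := by
    intro a b ha hb
    simp only [subOK, Bool.and_eq_true] at hm
    have h1 := all168_spec hm.2 (C.ψ a).2
    rw [Set.mem_ofPred_eq] at ha hb ⊢
    rw [ha] at h1
    simp only [Bool.not_true, Bool.false_or, Bool.and_eq_true] at h1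
    have h2 := all168_spec h1.2 (C.ψ b).2
    rw [hb] at h2
    rw [C.map_mul]
    simpa using h2
  one_mem' := by
    simp only [subOK, Bool.and_eq_true] at hm
    rw [Set.mem_ofPred_eq, C.map_one]
    exact hm.1
  inv_mem' := by
    intro a ha
    simp only [subOK, Bool.and_eq_true] at hm
    have h1 := all168_spec hm.2 (C.ψ a).2
    rw [Set.mem_ofPred_eq] at ha ⊢
    rw [ha] at h1
    simp only [Bool.not_true, Bool.false_or, Bool.and_eq_true] at h1
    rw [C.map_inv]
    exact h1.1

theorem mem_sub {m : ℕ} {hm : subOK m = true} {g : G} :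
    g ∈ C.sub m hm ↔ bitA m (C.ψ g) = true := Iff.rfl

/-- Counting the elements with a property read off the index. -/
theorem card_subtype (P : G → Prop) (p : ℕ → Bool) (hP : ∀ g, P g ↔ p (C.ψ g) = true) :
    Nat.card {g // P g} = (List.range 168).countP p := by
  classical
  have e : {g // P g} ≃ {i : Fin 168 // p i = true} := Equiv.subtypeEquiv C.ψ hP
  rw [Nat.card_congr e, Nat.card_eq_fintype_card, Fintype.card_subtype, Finset.card_filter,
    Fin.sum_univ_eq_sum_range (fun i => if p i = true then 1 else 0) 168,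
    sum_range_ite_eq_countP]

theorem card_sub (m : ℕ) (hm : subOK m = true) :
    Nat.card ↥(C.sub m hm) = (List.range 168).countP (bitA m) :=
  C.card_subtype (fun g => g ∈ C.sub m hm) (bitA m) (fun _ => Iff.rfl)

theorem mem_normalizer_sub {m : ℕ} {hm : subOK m = true} {g : G} :
    g ∈ Subgroup.normalizer ((C.sub m hm : Subgroup G) : Set G) ↔ normB m (C.ψ g) = true := by
  rw [Subgroup.mem_set_normalizer_iff, normB, ← C.forall_iff]
  refine forall_congr' fun x => ?_
  rw [SetLike.mem_coe, SetLike.mem_coe, mem_sub, mem_sub, C.map_conj, eqB_iff]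
  cases bitA m (C.ψ x) <;> cases bitA m (conjT (C.ψ g) (C.ψ x)) <;> simp

theorem card_normalizer_sub (m : ℕ) (hm : subOK m = true) :
    Nat.card ↥(Subgroup.normalizer ((C.sub m hm : Subgroup G) : Set G)) =
      (List.range 168).countP (normB m) :=
  C.card_subtype (fun g => g ∈ Subgroup.normalizer ((C.sub m hm : Subgroup G) : Set G)) (normB m)
    (fun _ => C.mem_normalizer_sub)

/-- The normaliser of a subgroup given by a mask is given by a mask. -/
theorem normalizer_sub (m : ℕ) (hm : subOK m = true) (n : ℕ) (hn : subOK n = true)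
    (h : all168 (fun i => eqB (normB m i) (bitA n i)) = true) :
    Subgroup.normalizer ((C.sub m hm : Subgroup G) : Set G) = C.sub n hn := by
  ext g
  rw [C.mem_normalizer_sub, mem_sub]
  have := all168_spec h (C.ψ g).2
  rw [eqB_iff] at this
  rw [this]

include C in
/-- The number of Sylow subgroups from the mask of one of them. -/
theorem card_sylow_mul [Finite G] {p : ℕ} [Fact p.Prime] (m : ℕ) (hm : subOK m = true)
    (k j c : ℕ) (h1 : (List.range 168).countP (bitA m) = p ^ k) (hj : p ^ k * j = 168)
    (h2 : ¬ p ∣ j) (h3 : (List.range 168).countP (normB m) = c) :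
    Nat.card (Sylow p G) * c = 168 := by
  have hc : Nat.card ↥(C.sub m hm) = p ^ k := (C.card_sub m hm).trans h1
  have hidx : (C.sub m hm).index = j := by
    have := (C.sub m hm).card_mul_index
    rw [hc, C.card_eq, ← hj] at this
    exact Nat.eq_of_mul_eq_mul_left (pow_pos (Fact.out : p.Prime).pos k) this
  let P : Sylow p G := (IsPGroup.of_card hc).toSylow (by rw [hidx]; exact h2)
  have hP : (P : Subgroup G) = C.sub m hm := IsPGroup.toSylow_coe _ _
  have hN : Subgroup.normalizer (P : Set G) =
      Subgroup.normalizer ((C.sub m hm : Subgroup G) : Set G) := by rw [← hP]; rfl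
  rw [P.card_eq_index_normalizer, hN, mul_comm, ← h3, ← C.card_normalizer_sub m hm,
    Subgroup.card_mul_index, C.card_eq]

/-- A Sylow subgroup with the given mask. -/
theorem exists_sylow_eq_sub [Finite G] {p : ℕ} [Fact p.Prime] (m : ℕ) (hm : subOK m = true)
    (k j : ℕ) (h1 : (List.range 168).countP (bitA m) = p ^ k) (hj : p ^ k * j = 168)
    (h2 : ¬ p ∣ j) : ∃ P : Sylow p G, (P : Subgroup G) = C.sub m hm := by
  have hc : Nat.card ↥(C.sub m hm) = p ^ k := (C.card_sub m hm).trans h1
  have hidx : (C.sub m hm).index = j := by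
    have := (C.sub m hm).card_mul_index
    rw [hc, C.card_eq, ← hj] at this
    exact Nat.eq_of_mul_eq_mul_left (pow_pos (Fact.out : p.Prime).pos k) this
  exact ⟨(IsPGroup.of_card hc).toSylow (by rw [hidx]; exact h2), IsPGroup.toSylow_coe _ _⟩

/-- Coordinates after conjugation. -/
def conjCoord (g : G) : Coord168 G := C.ofMulEquiv (MulAut.conj g⁻¹)

theorem conjCoord_ψ (g x : G) :
    (((C.conjCoord g).ψ x : Fin 168) : ℕ) = C.ψ (g⁻¹ * x * g) := by
  show ((C.ψ (MulAut.conj g⁻¹ x) : Fin 168) : ℕ) = _
  rw [MulAut.conj_apply, inv_inv]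

include C in
/-- Every Sylow subgroup has the mask of a given one, in suitable coordinates. -/
theorem exists_coord_sylow [Finite G] {p : ℕ} [Fact p.Prime] (m : ℕ) (hm : subOK m = true)
    (k j : ℕ) (h1 : (List.range 168).countP (bitA m) = p ^ k) (hj : p ^ k * j = 168)
    (h2 : ¬ p ∣ j) (T : Sylow p G) : ∃ C' : Coord168 G, (T : Subgroup G) = C'.sub m hm := by
  obtain ⟨P, hP⟩ := C.exists_sylow_eq_sub m hm k j h1 hj h2
  obtain ⟨g, rfl⟩ := MulAction.exists_smul_eq G P T
  refine ⟨C.conjCoord g, ?_⟩
  ext x
  rw [Sylow.coe_subgroup_smul, Subgroup.mem_pointwise_smul_iff_inv_smul_mem, hP, mem_sub, mem_sub,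
    C.conjCoord_ψ, MulAut.smul_def, MulAut.conj_inv_apply]

/-- An isomorphism from a subgroup given by a mask, read off a table. -/
theorem nonempty_mulEquiv_sub {H : Type*} [Group H] [Finite H] (m : ℕ) (hm : subOK m = true)
    (f : ℕ → H)
    (hmul : ∀ i j, i < 168 → j < 168 → bitA m i = true → bitA m j = true →
      f (mulT i j) = f i * f j)
    (hinj : ∀ i j, i < 168 → j < 168 → bitA m i = true → bitA m j = true → f i = f j → i = j)
    (hcard : Nat.card H = (List.range 168).countP (bitA m)) :
    Nonempty (↥(C.sub m hm) ≃* H) := by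
  let φ : ↥(C.sub m hm) →* H := MonoidHom.mk' (fun x => f (C.ψ (x : G))) (by
    intro a b
    rw [Subgroup.coe_mul, C.map_mul]
    exact hmul _ _ (C.ψ (a : G)).2 (C.ψ (b : G)).2 a.2 b.2)
  have hφ : Function.Injective φ := by
    intro a b hab
    exact Subtype.ext (C.eq_of_idx (hinj _ _ (C.ψ (a : G)).2 (C.ψ (b : G)).2 a.2 b.2 hab))
  haveI : Finite ↥(C.sub m hm) := Nat.finite_of_card_ne_zero (by
    rw [C.card_sub, ← hcard]; exact Nat.card_pos.ne')
  have hb : Function.Bijective φ :=
    (Nat.bijective_iff_injective_and_card φ).mpr ⟨hφ, by rw [C.card_sub, hcard]⟩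
  exact ⟨MulEquiv.ofBijective φ hb⟩

end Coord168

end Cfsg.Agent.Helper7
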