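/-
Helper7 library: element orders and conjugacy classes of a group with the multiplication
table of `PSL(2,7)`.
-/
import Cfsg.Agent.Helper7.L168Sub

set_option autoImplicit false

namespace Cfsg.Agent.Helper7

open Cfsg

theorem nbeq_iff {a b : ℕ} : Nat.beq a b = true ↔ a = b :=
  ⟨Nat.eq_of_beq_eq_true, fun h => h ▸ Nat.beq_refl a⟩

theorem nbeq_false_iff {a b : ℕ} : Nat.beq a b = false ↔ a ≠ b := by
  rw [← Bool.not_eq_true, nbeq_iff]

theorem l168OC_ok : all168 (fun i =>
    (Nat.beq (ordT i) 1 && Nat.beq (clsT i) 0) ||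
    (Nat.beq (ordT i) 2 && Nat.beq (clsT i) 2) ||
    (Nat.beq (ordT i) 3 && Nat.beq (clsT i) 3) ||
    (Nat.beq (ordT i) 4 && Nat.beq (clsT i) 5) ||
    (Nat.beq (ordT i) 7 && (Nat.beq (clsT i) 1 || Nat.beq (clsT i) 4) &&
      !(Nat.beq (clsT (invT i)) (clsT i)))) = true := by
  decide +kernel

/-- The order of an element determines its class, except for the two classes of order 7. -/
theorem ord_cls {i : ℕ} (hi : i < 168) :
    (ordT i = 1 ∧ clsT i = 0) ∨ (ordT i = 2 ∧ clsT i = 2) ∨ (ordT i = 3 ∧ clsT i = 3) ∨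
    (ordT i = 4 ∧ clsT i = 5) ∨
    (ordT i = 7 ∧ (clsT i = 1 ∨ clsT i = 4) ∧ clsT (invT i) ≠ clsT i) := by
  have h := all168_spec l168OC_ok hi
  generalize ordT i = a at h ⊢
  generalize clsT (invT i) = c' at h ⊢
  generalize clsT i = c at h ⊢
  simp only [Bool.or_eq_true, Bool.and_eq_true, nbeq_iff, Bool.not_eq_true', nbeq_false_iff] at h
  rcases h with (((h | h) | h) | h) | h
  · exact Or.inl h
  · exact Or.inr (Or.inl h)
  · exact Or.inr (Or.inr (Or.inl h))
  · exact Or.inr (Or.inr (Or.inr (Or.inl h)))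
  · exact Or.inr (Or.inr (Or.inr (Or.inr ⟨h.1.1, h.1.2, h.2⟩)))

theorem cnt_ord2 : (List.range 168).countP (fun i => Nat.beq (ordT i) 2) = 21 := by
  decide +kernel

theorem cnt_ord3 : (List.range 168).countP (fun i => Nat.beq (ordT i) 3) = 56 := by
  decide +kernel

theorem cnt_ord4 : (List.range 168).countP (fun i => Nat.beq (ordT i) 4) = 42 := by
  decide +kernel

theorem cnt_ord7 : (List.range 168).countP (fun i => Nat.beq (ordT i) 7) = 48 := by
  decide +kernel

theorem cnt_cls1 : (List.range 168).countP (fun i => Nat.beq (clsT i) 1) = 24 := by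
  decide +kernel

theorem cnt_cls4 : (List.range 168).countP (fun i => Nat.beq (clsT i) 4) = 24 := by
  decide +kernel

namespace Coord168

variable {G : Type*} [Group G] (C : Coord168 G)

include C in
theorem orderOf_mem (g : G) :
    _root_.orderOf g = 1 ∨ _root_.orderOf g = 2 ∨ _root_.orderOf g = 3 ∨ _root_.orderOf g = 4 ∨
      _root_.orderOf g = 7 := by
  rw [C.orderOf]
  rcases ord_cls (C.ψ g).2 with h | h | h | h | h
  · exact Or.inl h.1
  · exact Or.inr (Or.inl h.1)
  · exact Or.inr (Or.inr (Or.inl h.1))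
  · exact Or.inr (Or.inr (Or.inr (Or.inl h.1)))
  · exact Or.inr (Or.inr (Or.inr (Or.inr h.1)))

include C in
theorem card_orderOf (n : ℕ) :
    Nat.card {g : G // _root_.orderOf g = n} = (List.range 168).countP (fun i => Nat.beq (ordT i) n) :=
  C.card_subtype (fun g => _root_.orderOf g = n) (fun i => Nat.beq (ordT i) n)
    (fun g => by rw [C.orderOf, nbeq_iff])

include C in
/-- Elements of the same order 2, 3 or 4 are conjugate. -/
theorem isConj_of_orderOf {s t : G} {n : ℕ} (hn : n = 2 ∨ n = 3 ∨ n = 4)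
    (hs : _root_.orderOf s = n) (ht : _root_.orderOf t = n) : IsConj s t := by
  rw [C.orderOf] at hs ht
  rw [C.isConj_iff]
  have h1 := ord_cls (C.ψ s).2
  have h2 := ord_cls (C.ψ t).2
  omega

include C in
theorem card_isConj_seven {x : G} (hx : _root_.orderOf x = 7) :
    Nat.card {g : G // IsConj x g} = 24 := by
  rw [C.orderOf] at hx
  have h1 := ord_cls (C.ψ x).2
  have hc : clsT (C.ψ x) = 1 ∨ clsT (C.ψ x) = 4 := by omega
  rcases hc with hc | hc
  · rw [C.card_subtype (fun g => IsConj x g) (fun i => Nat.beq (clsT i) 1)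
      (fun g => by rw [C.isConj_iff, hc, nbeq_iff, eq_comm])]
    exact cnt_cls1
  · rw [C.card_subtype (fun g => IsConj x g) (fun i => Nat.beq (clsT i) 4)
      (fun g => by rw [C.isConj_iff, hc, nbeq_iff, eq_comm])]
    exact cnt_cls4

include C in
theorem not_isConj_inv_seven {x : G} (hx : _root_.orderOf x = 7) : ¬ IsConj x x⁻¹ := by
  rw [C.orderOf] at hx
  have h1 := ord_cls (C.ψ x).2
  rw [C.isConj_iff, C.map_inv]
  omega

end Coord168

end Cfsg.Agent.Helper7
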