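/-
Helper7 library: Sylow subgroups of the table model of `PSL(2,7)` (generated data).
-/
import Cfsg.Agent.Helper7.L168Sub

set_option autoImplicit false

namespace Cfsg.Agent.Helper7

open Cfsg

/-- Mask of a Sylow 2-subgroup. -/
def mT : ℕ := 0x4000000002800000000006801001

/-- Mask of a Sylow 3-subgroup. -/
def mP3 : ℕ := 0x8011

/-- Mask of a Sylow 7-subgroup. -/
def mP7 : ℕ := 0x4008084b

theorem mT_ok : subOK mT = true := by decide +kernel

theorem mP3_ok : subOK mP3 = true := by decide +kernel

theorem mP7_ok : subOK mP7 = true := by decide +kernel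

theorem mT_card : (List.range 168).countP (bitA mT) = 2 ^ 3 := by decide +kernel

theorem mP3_card : (List.range 168).countP (bitA mP3) = 3 ^ 1 := by decide +kernel

theorem mP7_card : (List.range 168).countP (bitA mP7) = 7 ^ 1 := by decide +kernel

theorem mT_norm : (List.range 168).countP (normB mT) = 8 := by decide +kernel

theorem mP3_norm : (List.range 168).countP (normB mP3) = 6 := by decide +kernel

theorem mP7_norm : (List.range 168).countP (normB mP7) = 21 := by decide +kernel

theorem mT_self : all168 (fun i => eqB (normB mT i) (bitA mT i)) = true := by decide +kernel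

/-- The central elements of the Sylow 2-subgroup have it as centraliser. -/
theorem mT_cent : all168 (fun i => !(bitA mT i && !Nat.beq i 0 &&
      all168 (fun j => !bitA mT j || Nat.beq (mulT j i) (mulT i j))) ||
    all168 (fun k => eqB (Nat.beq (mulT i k) (mulT k i)) (bitA mT k))) = true := by
  decide +kernel

/-- The isomorphism of the Sylow 2-subgroup with the dihedral group. -/
def dihT (i : ℕ) : DihedralGroup 4 :=
  cond (Nat.beq i 0) (DihedralGroup.r 0) (cond (Nat.beq i 12) (DihedralGroup.r 1) (cond (Nat.beq i 23) (DihedralGroup.sr 0) (cond (Nat.beq i 25) (DihedralGroup.sr 3) (cond (Nat.beq i 26) (DihedralGroup.r 3) (cond (Nat.beq i 71) (DihedralGroup.r 2) (cond (Nat.beq i 73) (DihedralGroup.sr 1) (cond (Nat.beq i 110) (DihedralGroup.sr 2) (DihedralGroup.r 0))))))))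

theorem dihT_mul : all168 (fun i => !bitA mT i || all168 (fun j => !bitA mT j ||
    decide (dihT (mulT i j) = dihT i * dihT j))) = true := by
  decide +kernel

theorem dihT_inj : all168 (fun i => !bitA mT i || all168 (fun j => !bitA mT j ||
    !decide (dihT i = dihT j) || Nat.beq i j)) = true := by
  decide +kernel

end Cfsg.Agent.Helper7
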