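/-
Helper7 library: the Sylow 2-subgroup of a group with the multiplication table of `PSL(2,7)`:
dihedral of order 8, self-normalising, the centraliser of its central involution.
-/
import Cfsg.Agent.Helper7.L168Syl
import Cfsg.Agent.Helper7.L168Facts

set_option autoImplicit false

namespace Cfsg.Agent.Helper7

open Cfsg

theorem dihT_mul' {i j : ℕ} (hi : i < 168) (hj : j < 168) (h1 : bitA mT i = true)
    (h2 : bitA mT j = true) : dihT (mulT i j) = dihT i * dihT j := by
  have h := all168_spec dihT_mul hi
  rw [h1] at h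
  have h' := all168_spec (by simpa using h) hj
  rw [h2] at h'
  simpa using h'

theorem dihT_inj' {i j : ℕ} (hi : i < 168) (hj : j < 168) (h1 : bitA mT i = true)
    (h2 : bitA mT j = true) (he : dihT i = dihT j) : i = j := by
  have h := all168_spec dihT_inj hi
  rw [h1] at h
  have h' := all168_spec (by simpa using h) hj
  rw [h2] at h'
  simp only [Bool.not_true, Bool.false_or, Bool.or_eq_true, Bool.not_eq_true',
    decide_eq_false_iff_not] at h'
  rcases h' with h' | h'
  · exact absurd he h'
  · exact nbeq_iff.mp h'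

namespace Coord168

variable {G : Type*} [Group G] (C : Coord168 G)

theorem nonempty_mulEquiv_dihedral :
    Nonempty (↥(C.sub mT mT_ok) ≃* DihedralGroup 4) :=
  C.nonempty_mulEquiv_sub mT mT_ok dihT (fun _ _ hi hj h1 h2 => dihT_mul' hi hj h1 h2)
    (fun _ _ hi hj h1 h2 he => dihT_inj' hi hj h1 h2 he)
    (by rw [DihedralGroup.nat_card, mT_card]; norm_num)

theorem normalizer_sylow_two :
    Subgroup.normalizer ((C.sub mT mT_ok : Subgroup G) : Set G) = C.sub mT mT_ok :=
  C.normalizer_sub mT mT_ok mT mT_ok mT_self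

theorem centralizer_central {z : G} (hz : z ∈ C.sub mT mT_ok) (hz1 : z ≠ 1)
    (hc : ∀ t ∈ C.sub mT mT_ok, t * z = z * t) :
    Subgroup.centralizer ({z} : Set G) = C.sub mT mT_ok := by
  have h := all168_spec mT_cent (C.ψ z).2
  have h1 : bitA mT (C.ψ z) = true := hz
  have h2 : Nat.beq (C.ψ z) 0 = false := nbeq_false_iff.mpr (fun h0 => hz1 (C.eq_one h0))
  have h3 : all168 (fun j => !bitA mT j || Nat.beq (mulT j (C.ψ z)) (mulT (C.ψ z) j)) = true := by
    rw [← C.forall_iff]
    intro g
    by_cases hg : bitA mT (C.ψ g) = true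
    · have := hc g hg
      rw [hg, ← C.map_mul, ← C.map_mul, this]
      simp [Nat.beq_refl]
    · rw [Bool.not_eq_true] at hg
      rw [hg]
      rfl
  rw [h1, h2, h3] at h
  simp only [Bool.not_false, Bool.and_self, Bool.not_true, Bool.false_or] at h
  ext g
  have hg := all168_spec h (C.ψ g).2
  rw [eqB_iff] at hg
  rw [Subgroup.mem_centralizer_iff, mem_sub, ← hg, nbeq_iff]
  constructor
  · intro hh
    rw [← C.map_mul, ← C.map_mul, hh z rfl]
  · intro hh y hy
    rw [Set.mem_singleton_iff] at hy
    subst hy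
    exact C.eq_of_idx (by rw [C.map_mul, C.map_mul, hh])

end Coord168

end Cfsg.Agent.Helper7
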