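/-
Helper7 library: the Klein four-subgroups of the table model of `PSL(2,7)` (generated data).
-/
import Cfsg.Agent.Helper7.L168D8

set_option autoImplicit false

namespace Cfsg.Agent.Helper7

open Cfsg

/-- Mask of the first Klein four-subgroup of the Sylow 2-subgroup. -/
def mU1 : ℕ := 0x4000000000800000000000800001

/-- Mask of the second Klein four-subgroup of the Sylow 2-subgroup. -/
def mU2 : ℕ := 0x2800000000002000001

/-- Mask of the elements of the first that are not in the second. -/
def mUA : ℕ := 0x4000000000000000000000800000

theorem mU1_ok : subOK mU1 = true := by decide +kernel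

theorem mU2_ok : subOK mU2 = true := by decide +kernel

theorem mU1_card : (List.range 168).countP (bitA mU1) = 4 := by decide +kernel

theorem mU2_card : (List.range 168).countP (bitA mU2) = 4 := by decide +kernel

theorem mU1_ord : all168 (fun i => !bitA mU1 i || Nat.beq i 0 || Nat.beq (ordT i) 2) = true := by
  decide +kernel

theorem mU2_ord : all168 (fun i => !bitA mU2 i || Nat.beq i 0 || Nat.beq (ordT i) 2) = true := by
  decide +kernel

theorem mU1_le : all168 (fun i => !bitA mU1 i || bitA mT i) = true := by decide +kernel

theorem mU2_le : all168 (fun i => !bitA mU2 i || bitA mT i) = true := by decide +kernel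

theorem mU_chk1 : all168 (fun i => !bitA mUA i || all168 (fun j =>
    !(bitA mT j && Nat.beq (mulT j j) 0 && Nat.beq (mulT (mulT i j) (mulT i j)) 0) ||
      bitA mU1 j)) = true := by
  decide +kernel

theorem mU_chk2 : all168 (fun j =>
    !(bitA mT j && Nat.beq (mulT j j) 0 && !bitA mUA j) || bitA mU2 j) = true := by
  decide +kernel

theorem mU12_conj : all168 (fun u =>
    !all168 (fun i => !bitA mU1 i || bitA mU2 (conjT u i))) = true := by
  decide +kernel

theorem mU21_conj : all168 (fun u =>
    !all168 (fun i => !bitA mU2 i || bitA mU1 (conjT u i))) = true := by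
  decide +kernel

theorem mU1_norm : (List.range 168).countP (normB mU1) = 24 := by decide +kernel

theorem mU2_norm : (List.range 168).countP (normB mU2) = 24 := by decide +kernel

/-- An index in the first Klein four-subgroup and not in the second. -/
def mUw : ℕ := 23

theorem mU_ne : (bitA mU1 mUw && !bitA mU2 mUw && Nat.blt mUw 168) = true := by decide +kernel

end Cfsg.Agent.Helper7
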