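/-
Helper7 library: Klein four-subgroups of a group with the multiplication table of `PSL(2,7)`.
A Sylow 2-subgroup contains exactly two, they are not conjugate, and the normaliser of every
Klein four-subgroup has order 24 and no element of order 6, so it is the symmetric group of
degree 4 (statement S1012).
-/
import Cfsg.Agent.Helper7.L168KleinData
import Cfsg.Agent.S1012

set_option autoImplicit false

namespace Cfsg.Agent.Helper7

open Cfsg

namespace Coord168

variable {G : Type*} [Group G] (C : Coord168 G)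

include C in
theorem finite : Finite G := Finite.of_equiv _ C.ψ.symm

theorem sub_le_sub {m n : ℕ} {hm : subOK m = true} {hn : subOK n = true}
    (h : all168 (fun i => !bitA m i || bitA n i) = true) : C.sub m hm ≤ C.sub n hn := by
  intro g hg
  have := all168_spec h (C.ψ g).2
  rw [mem_sub] at hg ⊢
  rw [hg] at this
  simpa using this

theorem isKleinFour_sub (m : ℕ) (hm : subOK m = true)
    (hcard : (List.range 168).countP (bitA m) = 4)
    (hord : all168 (fun i => !bitA m i || Nat.beq i 0 || Nat.beq (ordT i) 2) = true) :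
    IsKleinFour ↥(C.sub m hm) := by
  have hc : Nat.card ↥(C.sub m hm) = 4 := (C.card_sub m hm).trans hcard
  haveI : Finite ↥(C.sub m hm) := Nat.finite_of_card_ne_zero (by rw [hc]; norm_num)
  haveI : Nontrivial ↥(C.sub m hm) := Finite.one_lt_card_iff_nontrivial.mp (by rw [hc]; norm_num)
  refine ⟨hc, (Monoid.exponent_eq_prime_iff Nat.prime_two).mpr ?_⟩
  intro g hg
  rw [← Subgroup.orderOf_coe, C.orderOf]
  have h := all168_spec hord (C.ψ (g : G)).2
  have h1 : bitA m (C.ψ (g : G)) = true := g.2
  have h2 : Nat.beq (C.ψ (g : G)) 0 = false :=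
    nbeq_false_iff.mpr (fun h0 => hg (Subtype.ext (C.eq_one h0)))
  rw [h1, h2] at h
  exact nbeq_iff.mp (by simpa using h)

/-- The Klein four-subgroups of the Sylow 2-subgroup. -/
theorem kleinFour_le (U : Subgroup G) (hU : U ≤ C.sub mT mT_ok) [IsKleinFour ↥U] :
    U = C.sub mU1 mU1_ok ∨ U = C.sub mU2 mU2_ok := by
  haveI := C.finite
  have hsq : ∀ y ∈ U, mulT (C.ψ y) (C.ψ y) = 0 := by
    intro y hy
    have := IsKleinFour.mul_self (⟨y, hy⟩ : ↥U)
    have h2 : y * y = 1 := congrArg Subtype.val this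
    rw [← C.map_mul, h2, C.map_one]
  have hcard : Nat.card ↥U = 4 := IsKleinFour.card_four
  by_cases hx : ∃ x ∈ U, bitA mUA (C.ψ x) = true
  · left
    obtain ⟨x, hxU, hxA⟩ := hx
    have hle : U ≤ C.sub mU1 mU1_ok := by
      intro y hy
      have h := all168_spec mU_chk1 (C.ψ x).2
      rw [hxA] at h
      have h' := all168_spec (by simpa using h) (C.ψ y).2
      have e1 : bitA mT (C.ψ y) = true := hU hy
      have e2 : Nat.beq (mulT (C.ψ y) (C.ψ y)) 0 = true := nbeq_iff.mpr (hsq y hy)
      have e3 : Nat.beq (mulT (mulT (C.ψ x) (C.ψ y)) (mulT (C.ψ x) (C.ψ y))) 0 = true := by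
        rw [nbeq_iff, ← C.map_mul]
        exact hsq _ (U.mul_mem hxU hy)
      rw [e1, e2, e3] at h'
      have h'' : bitA mU1 (C.ψ y) = true := by simpa using h'
      exact h''
    exact Subgroup.eq_of_le_of_card_ge hle (by rw [C.card_sub, mU1_card, hcard])
  · right
    have hx' : ∀ x ∈ U, bitA mUA (C.ψ x) = false := fun x hxU => by
      rw [← Bool.not_eq_true]
      exact fun hxA => hx ⟨x, hxU, hxA⟩
    have hle : U ≤ C.sub mU2 mU2_ok := by
      intro y hy
      have h := all168_spec mU_chk2 (C.ψ y).2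
      have e1 : bitA mT (C.ψ y) = true := hU hy
      have e2 : Nat.beq (mulT (C.ψ y) (C.ψ y)) 0 = true := nbeq_iff.mpr (hsq y hy)
      have e3 : bitA mUA (C.ψ y) = false := hx' y hy
      rw [e1, e2, e3] at h
      have h'' : bitA mU2 (C.ψ y) = true := by simpa using h
      exact h''
    exact Subgroup.eq_of_le_of_card_ge hle (by rw [C.card_sub, mU2_card, hcard])

theorem sub_mU_ne : (C.sub mU1 mU1_ok : Subgroup G) ≠ C.sub mU2 mU2_ok := by
  intro h
  have hw := mU_ne
  simp only [Bool.and_eq_true, Nat.blt_eq, Bool.not_eq_true'] at hw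
  obtain ⟨⟨h1, h2⟩, h3⟩ := hw
  have hm : C.elt mUw h3 ∈ C.sub mU1 mU1_ok := by
    rw [mem_sub, C.ψ_elt]; exact h1
  rw [h, mem_sub, C.ψ_elt, h2] at hm
  exact Bool.false_ne_true hm

theorem map_conj_sub_ne {m n : ℕ} {hm : subOK m = true} {hn : subOK n = true}
    (h : all168 (fun u => !all168 (fun i => !bitA m i || bitA n (conjT u i))) = true) (g : G) :
    (C.sub m hm).map (MulAut.conj g).toMonoidHom ≠ C.sub n hn := by
  intro he
  have h1 := all168_spec h (C.ψ g).2
  have h2 : all168 (fun i => !bitA m i || bitA n (conjT (C.ψ g) i)) = true := by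
    rw [← C.forall_iff]
    intro x
    by_cases hx : bitA m (C.ψ x) = true
    · have hx' : (MulAut.conj g).toMonoidHom x ∈ (C.sub m hm).map (MulAut.conj g).toMonoidHom :=
        Subgroup.mem_map_of_mem _ hx
      rw [he] at hx'
      have hx2 : bitA n (C.ψ (g * x * g⁻¹)) = true := hx'
      rw [C.map_conj] at hx2
      rw [hx, hx2]
      rfl
    · rw [Bool.not_eq_true] at hx
      rw [hx]
      rfl
  rw [h2] at h1
  exact Bool.false_ne_true h1

/-- The Klein four-subgroups of a Sylow 2-subgroup: two, not conjugate. -/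
theorem kleinFour_sylow :
    Nat.card {U : Subgroup G // U ≤ C.sub mT mT_ok ∧ IsKleinFour ↥U} = 2 ∧
    (∀ U W : Subgroup G, U ≤ C.sub mT mT_ok → W ≤ C.sub mT mT_ok → IsKleinFour ↥U →
      IsKleinFour ↥W → U ≠ W → ∀ g : G, U.map (MulAut.conj g).toMonoidHom ≠ W) := by
  constructor
  · rw [Nat.card_eq_two_iff]
    refine ⟨⟨C.sub mU1 mU1_ok, C.sub_le_sub mU1_le, C.isKleinFour_sub _ _ mU1_card mU1_ord⟩,
      ⟨C.sub mU2 mU2_ok, C.sub_le_sub mU2_le, C.isKleinFour_sub _ _ mU2_card mU2_ord⟩, ?_, ?_⟩
    · intro h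
      exact C.sub_mU_ne (congrArg Subtype.val h)
    · ext ⟨U, hU, hK⟩
      simp only [Set.mem_insert_iff, Set.mem_singleton_iff, Set.mem_univ, iff_true]
      haveI := hK
      rcases C.kleinFour_le U hU with h | h
      · left; exact Subtype.ext h
      · right; exact Subtype.ext h
  · intro U W hU hW hKU hKW hne g
    haveI := hKU
    haveI := hKW
    rcases C.kleinFour_le U hU with rfl | rfl <;> rcases C.kleinFour_le W hW with rfl | rfl
    · exact absurd rfl hne
    · exact C.map_conj_sub_ne mU12_conj g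
    · exact C.map_conj_sub_ne mU21_conj g
    · exact absurd rfl hne

include C in
/-- The normaliser of a Klein four-subgroup is the symmetric group of degree 4. -/
theorem normalizer_kleinFour (U : Subgroup G) [IsKleinFour ↥U] :
    Nonempty (↥(Subgroup.normalizer (U : Set G)) ≃* Equiv.Perm (Fin 4)) := by
  haveI := C.finite
  haveI : Fact (Nat.Prime 2) := ⟨Nat.prime_two⟩
  have hp : IsPGroup 2 ↥U := IsPGroup.of_card (n := 2) (by rw [IsKleinFour.card_four]; rfl)
  obtain ⟨Q, hQ⟩ := hp.exists_le_sylow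
  obtain ⟨C', hC'⟩ := C.exists_coord_sylow mT mT_ok 3 21 mT_card (by norm_num) (by norm_num) Q
  rw [hC'] at hQ
  have hcard : Nat.card ↥(Subgroup.normalizer (U : Set G)) = 24 := by
    rcases C'.kleinFour_le U hQ with rfl | rfl
    · rw [C'.card_normalizer_sub]; exact mU1_norm
    · rw [C'.card_normalizer_sub]; exact mU2_norm
  refine Cfsg.Agent.S1012.result hcard (fun g hg => ?_)
  rw [← Subgroup.orderOf_coe] at hg
  have := C.orderOf_mem (g : G)
  omega

end Coord168

end Cfsg.Agent.Helper7
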