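/-
Helper7 library: the maximal subgroups of a group with the multiplication table of `PSL(2,7)`.
Every proper subgroup lies in a conjugate of one of three subgroups: two of order 24 (both
symmetric groups of degree 4, not conjugate) and one of order 21 (not abelian).
-/
import Cfsg.Agent.Helper7.L168MaxData

set_option autoImplicit false

namespace Cfsg.Agent.Helper7

open Cfsg

theorem le_or_le_of_forall_mem {G : Type*} [Group G] {M A B : Subgroup G}
    (h : ∀ y ∈ M, y ∈ A ∨ y ∈ B) : M ≤ A ∨ M ≤ B := by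
  by_contra hc
  rw [not_or] at hc
  obtain ⟨h1, h2⟩ := hc
  obtain ⟨a, haM, haA⟩ := SetLike.not_le_iff_exists.mp h1
  obtain ⟨b, hbM, hbB⟩ := SetLike.not_le_iff_exists.mp h2
  have haB : a ∈ B := (h a haM).resolve_left haA
  have hbA : b ∈ A := (h b hbM).resolve_right hbB
  rcases h (a * b) (M.mul_mem haM hbM) with h3 | h3
  · exact haA ((Subgroup.mul_mem_cancel_right A hbA).mp h3)
  · exact hbB ((Subgroup.mul_mem_cancel_left B haB).mp h3)

namespace Coord168

variable {G : Type*} [Group G] (C : Coord168 G)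

theorem exists_conjCoord_rep (x : G) :
    ∃ g : G, (((C.conjCoord g).ψ x : Fin 168) : ℕ) = repT (clsT (C.ψ x)) := by
  obtain ⟨u, hu⟩ := C.conj_rep x
  refine ⟨u⁻¹, ?_⟩
  rw [C.conjCoord_ψ, inv_inv, hu, C.ψ_elt]

theorem conjCoord_sub (g : G) (m : ℕ) (hm : subOK m = true) :
    (C.conjCoord g).sub m hm = (C.sub m hm).map (MulAut.conj g).toMonoidHom := by
  ext x
  rw [mem_sub, C.conjCoord_ψ, Subgroup.mem_map]
  constructor
  · intro h
    refine ⟨g⁻¹ * x * g, h, ?_⟩
    show MulAut.conj g (g⁻¹ * x * g) = x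
    rw [MulAut.conj_apply]
    group
  · rintro ⟨y, hy, rfl⟩
    have : g⁻¹ * (MulAut.conj g).toMonoidHom y * g = y := by
      show g⁻¹ * MulAut.conj g y * g = y
      rw [MulAut.conj_apply]
      group
    rw [this]
    exact hy

theorem conjCoord_conjCoord_sub (g h : G) (m : ℕ) (hm : subOK m = true) :
    ((C.conjCoord g).conjCoord h).sub m hm = (C.conjCoord (h * g)).sub m hm := by
  ext x
  rw [mem_sub, mem_sub, conjCoord_ψ, conjCoord_ψ, conjCoord_ψ]
  have : g⁻¹ * (h⁻¹ * x * h) * g = (h * g)⁻¹ * x * (h * g) := by group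
  rw [this]

/-- A mask that is the conjugate of another one. -/
theorem sub_conj_mask (m n : ℕ) (hm : subOK m = true) (hn : subOK n = true) (u : ℕ)
    (hu : u < 168) (h : all168 (fun i => eqB (bitA m i) (bitA n (conjT u i))) = true) :
    C.sub n hn = (C.conjCoord (C.elt u hu)).sub m hm := by
  ext x
  rw [mem_sub, mem_sub, conjCoord_ψ]
  have h1 := all168_spec h (C.ψ ((C.elt u hu)⁻¹ * x * C.elt u hu)).2
  rw [eqB_iff] at h1
  rw [h1]
  have h2 : conjT u (C.ψ ((C.elt u hu)⁻¹ * x * C.elt u hu)) = C.ψ x := by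
    have h3 := C.map_conj (C.elt u hu) ((C.elt u hu)⁻¹ * x * C.elt u hu)
    rw [C.ψ_elt] at h3
    rw [← h3]
    have h4 : C.elt u hu * ((C.elt u hu)⁻¹ * x * C.elt u hu) * (C.elt u hu)⁻¹ = x := by group
    rw [h4]
  rw [h2]

/-- The three kinds of maximal subgroups. -/
def IsMaxK (K : Subgroup G) : Prop :=
  ∃ g : G, K = (C.conjCoord g).sub mN1 mN1_ok ∨ K = (C.conjCoord g).sub mN2 mN2_ok ∨
    K = (C.conjCoord g).sub mN7 mN7_ok

/-- A subgroup containing the two generators is everything. -/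
theorem eq_top_of_gens (M : Subgroup G) (h1 : ∃ a ∈ M, ((C.ψ a : Fin 168) : ℕ) = 1)
    (h2 : ∃ b ∈ M, ((C.ψ b : Fin 168) : ℕ) = 2) : M = ⊤ := by
  have key : ∀ i, i < 168 → ∃ g ∈ M, ((C.ψ g : Fin 168) : ℕ) = i := by
    intro i
    induction i using Nat.strong_induction_on with
    | _ i ih =>
      intro hi
      have h := all168_spec par_ok hi
      rcases Bool.or_eq_true _ _ ▸ h with h | h
      · exact ⟨1, M.one_mem, by rw [C.map_one]; exact (nbeq_iff.mp h).symm⟩
      · simp only [Bool.and_eq_true, Nat.blt_eq] at h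
        obtain ⟨⟨hp, hm⟩, hg⟩ := h
        obtain ⟨p, hpM, hpi⟩ := ih _ hp (by omega)
        have hgen : ∃ c ∈ M, ((C.ψ c : Fin 168) : ℕ) = Nat.add 1 (byteA l168Gen i) := by
          have : byteA l168Gen i = 0 ∨ byteA l168Gen i = 1 := by omega
          rcases this with e | e
          · rw [e]; exact h1
          · rw [e]; exact h2
        obtain ⟨c, hcM, hci⟩ := hgen
        exact ⟨c * p, M.mul_mem hcM hpM, by rw [C.map_mul, hci, hpi]; exact nbeq_iff.mp hm⟩
  rw [eq_top_iff]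
  intro g _
  obtain ⟨g', hg', he⟩ := key (C.ψ g) (C.ψ g).2
  rw [← C.eq_of_idx he]
  exact hg'

/-- The value of a word in two elements of a subgroup is in the subgroup. -/
theorem wordE_mem (M : Subgroup G) {x y : ℕ} (hx : ∃ a ∈ M, ((C.ψ a : Fin 168) : ℕ) = x)
    (hy : ∃ b ∈ M, ((C.ψ b : Fin 168) : ℕ) = y) :
    ∀ (f acc w : ℕ), (∃ c ∈ M, ((C.ψ c : Fin 168) : ℕ) = acc) →
      ∃ c ∈ M, ((C.ψ c : Fin 168) : ℕ) = wordE x y f acc w := by
  intro f
  induction f with
  | zero => intro acc w h; exact h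
  | succ f ih =>
    intro acc w h
    show ∃ c ∈ M, ((C.ψ c : Fin 168) : ℕ) = cond (Nat.ble w 1) acc
      (wordE x y f (mulT acc (cond (Nat.beq (Nat.mod w 2) 1) y x)) (Nat.div w 2))
    cases Nat.ble w 1
    · apply ih
      obtain ⟨c, hc, hci⟩ := h
      cases Nat.beq (Nat.mod w 2) 1
      · obtain ⟨a, ha, hai⟩ := hx
        exact ⟨c * a, M.mul_mem hc ha, by rw [C.map_mul, hci, hai]; rfl⟩
      · obtain ⟨b, hb, hbi⟩ := hy
        exact ⟨c * b, M.mul_mem hc hb, by rw [C.map_mul, hci, hbi]; rfl⟩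
    · exact h

/-- A proper subgroup containing the generator of order 7 normalises its subgroup. -/
theorem max7 (M : Subgroup G) (hM : M ≠ ⊤) {x : G} (hx : x ∈ M)
    (hx1 : ((C.ψ x : Fin 168) : ℕ) = 1) : M ≤ C.sub mN7 mN7_ok := by
  intro y hy
  by_contra hny
  apply hM
  have hb : bitA mN7 (C.ψ y) = false := by rw [← Bool.not_eq_true]; exact hny
  have h := all168_spec max7_ok (C.ψ y).2
  rw [hb] at h
  have h2 : wordE 1 (C.ψ y) 16 0 (w16A l168W7 (C.ψ y)) = 2 := nbeq_iff.mp (by simpa using h)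
  apply C.eq_top_of_gens M ⟨x, hx, hx1⟩
  rw [← h2]
  exact C.wordE_mem M ⟨x, hx, hx1⟩ ⟨y, hy, rfl⟩ 16 0 _ ⟨1, M.one_mem, C.map_one⟩

/-- A subgroup without elements of order 7 containing the representative of order 4. -/
theorem max4 (M : Subgroup G) (h7 : ∀ z ∈ M, _root_.orderOf z ≠ 7) {x : G} (hx : x ∈ M)
    (hx1 : ((C.ψ x : Fin 168) : ℕ) = 12) :
    M ≤ C.sub mN1 mN1_ok ∨ M ≤ C.sub mN2 mN2_ok := by
  have hno7 : ∀ z ∈ M, Nat.beq (ordT (C.ψ z)) 7 = false := fun z hz => by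
    rw [nbeq_false_iff, ← C.orderOf]; exact h7 z hz
  apply le_or_le_of_forall_mem
  intro y hy
  have h := all168_spec max4_ok (C.ψ y).2
  have e1 := hno7 y hy
  have e2 := hno7 (x * x * y * x * y * y)
    (M.mul_mem (M.mul_mem (M.mul_mem (M.mul_mem (M.mul_mem hx hx) hy) hx) hy) hy)
  have e3 := hno7 (x * x * y) (M.mul_mem (M.mul_mem hx hx) hy)
  simp only [C.map_mul, hx1] at e2 e3
  rw [e1, e2, e3] at h
  simp only [Bool.or_false, Bool.or_eq_true] at h
  exact h

/-- A subgroup without elements of order 4 or 7 containing the representative of order 3. -/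
theorem max3 (M : Subgroup G) (h7 : ∀ z ∈ M, _root_.orderOf z ≠ 7)
    (h4 : ∀ z ∈ M, _root_.orderOf z ≠ 4) {x : G} (hx : x ∈ M)
    (hx1 : ((C.ψ x : Fin 168) : ℕ) = 4) :
    M ≤ C.sub mNA mNA_ok ∨ M ≤ C.sub mNB mNB_ok := by
  have hno : ∀ z ∈ M, o47 (C.ψ z) = false := fun z hz => by
    have a := h7 z hz
    have b := h4 z hz
    rw [C.orderOf] at a b
    rw [o47, nbeq_false_iff.mpr a, nbeq_false_iff.mpr b]
    rfl
  apply le_or_le_of_forall_mem
  intro y hy
  have h := all168_spec max3_ok (C.ψ y).2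
  have e1 := hno y hy
  have e2 := hno (x * y * x * y * y * y)
    (M.mul_mem (M.mul_mem (M.mul_mem (M.mul_mem (M.mul_mem hx hy) hx) hy) hy) hy)
  have e3 := hno (x * x * y * x * y * y)
    (M.mul_mem (M.mul_mem (M.mul_mem (M.mul_mem (M.mul_mem hx hx) hy) hx) hy) hy)
  simp only [C.map_mul, hx1] at e2 e3
  rw [e1, e2, e3] at h
  simp only [Bool.or_false, Bool.or_eq_true] at h
  exact h

/-- A subgroup of elements of order at most 2 containing the representative involution. -/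
theorem max2 (M : Subgroup G) (h : ∀ z ∈ M, _root_.orderOf z = 1 ∨ _root_.orderOf z = 2)
    {x : G} (hx : x ∈ M) (hx1 : ((C.ψ x : Fin 168) : ℕ) = 2) : M ≤ C.sub mNC mNC_ok := by
  have hle : ∀ z ∈ M, Nat.ble (ordT (C.ψ z)) 2 = true := fun z hz => by
    have a := h z hz
    rw [C.orderOf] at a
    rw [Nat.ble_eq]
    omega
  intro y hy
  have h' := all168_spec max2_ok (C.ψ y).2
  have e1 := hle y hy
  have e2 := hle (x * y) (M.mul_mem hx hy)
  simp only [C.map_mul, hx1] at e2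
  rw [e1, e2] at h'
  have h'' : bitA mNC (C.ψ y) = true := by simpa using h'
  exact h''

include C in
/-- Every proper subgroup lies in one of the subgroups of the three kinds. -/
theorem exists_isMaxK_ge (M : Subgroup G) (hM : M ≠ ⊤) : ∃ K, C.IsMaxK K ∧ M ≤ K := by
  have hrep := rep_vals
  simp only [Bool.and_eq_true, nbeq_iff] at hrep
  obtain ⟨⟨⟨r1, r2⟩, r3⟩, r5⟩ := hrep
  have hg := gN_lt
  simp only [Bool.and_eq_true, Nat.blt_eq] at hg
  obtain ⟨⟨gA, gB⟩, gC⟩ := hg
  by_cases h7 : ∃ x ∈ M, _root_.orderOf x = 7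
  · obtain ⟨x0, hx0, ho0⟩ := h7
    obtain ⟨x, hx, hcls⟩ : ∃ x ∈ M, clsT (C.ψ x) = 1 := by
      have h := ord_cls (C.ψ x0).2
      rw [C.orderOf] at ho0
      by_cases hc : clsT (C.ψ x0) = 1
      · exact ⟨x0, hx0, hc⟩
      · refine ⟨x0⁻¹, M.inv_mem hx0, ?_⟩
        have h' := ord_cls (C.ψ x0⁻¹).2
        have ho' : ordT (C.ψ x0⁻¹) = 7 := by
          rw [← C.orderOf, orderOf_inv, C.orderOf]; exact ho0
        rw [C.map_inv] at h' ho' ⊢
        omega
    obtain ⟨g, hg⟩ := C.exists_conjCoord_rep x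
    rw [hcls, r1] at hg
    exact ⟨(C.conjCoord g).sub mN7 mN7_ok, ⟨g, Or.inr (Or.inr rfl)⟩,
      (C.conjCoord g).max7 M hM hx hg⟩
  · have h7' : ∀ z ∈ M, _root_.orderOf z ≠ 7 := fun z hz hz7 => h7 ⟨z, hz, hz7⟩
    by_cases h4 : ∃ x ∈ M, _root_.orderOf x = 4
    · obtain ⟨x, hx, ho⟩ := h4
      have hcls : clsT (C.ψ x) = 5 := by
        have h := ord_cls (C.ψ x).2
        rw [C.orderOf] at ho
        omega
      obtain ⟨g, hg⟩ := C.exists_conjCoord_rep x
      rw [hcls, r5] at hg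
      rcases (C.conjCoord g).max4 M h7' hx hg with h | h
      · exact ⟨_, ⟨g, Or.inl rfl⟩, h⟩
      · exact ⟨_, ⟨g, Or.inr (Or.inl rfl)⟩, h⟩
    · have h4' : ∀ z ∈ M, _root_.orderOf z ≠ 4 := fun z hz hz4 => h4 ⟨z, hz, hz4⟩
      by_cases h3 : ∃ x ∈ M, _root_.orderOf x = 3
      · obtain ⟨x, hx, ho⟩ := h3
        have hcls : clsT (C.ψ x) = 3 := by
          have h := ord_cls (C.ψ x).2
          rw [C.orderOf] at ho
          omega
        obtain ⟨g, hg⟩ := C.exists_conjCoord_rep x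
        rw [hcls, r3] at hg
        rcases (C.conjCoord g).max3 M h7' h4' hx hg with h | h
        · rw [(C.conjCoord g).sub_conj_mask mN1 mNA mN1_ok mNA_ok gNA gA mNA_conj,
            conjCoord_conjCoord_sub] at h
          exact ⟨_, ⟨_, Or.inl rfl⟩, h⟩
        · rw [(C.conjCoord g).sub_conj_mask mN2 mNB mN2_ok mNB_ok gNB gB mNB_conj,
            conjCoord_conjCoord_sub] at h
          exact ⟨_, ⟨_, Or.inr (Or.inl rfl)⟩, h⟩
      · have h3' : ∀ z ∈ M, _root_.orderOf z ≠ 3 := fun z hz hz3 => h3 ⟨z, hz, hz3⟩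
        have h12 : ∀ z ∈ M, _root_.orderOf z = 1 ∨ _root_.orderOf z = 2 := fun z hz => by
          have a := C.orderOf_mem z
          have b := h7' z hz
          have c := h4' z hz
          have d := h3' z hz
          omega
        by_cases h2 : ∃ x ∈ M, _root_.orderOf x = 2
        · obtain ⟨x, hx, ho⟩ := h2
          have hcls : clsT (C.ψ x) = 2 := by
            have h := ord_cls (C.ψ x).2
            rw [C.orderOf] at ho
            omega
          obtain ⟨g, hg⟩ := C.exists_conjCoord_rep x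
          rw [hcls, r2] at hg
          have h := (C.conjCoord g).max2 M h12 hx hg
          rw [(C.conjCoord g).sub_conj_mask mN1 mNC mN1_ok mNC_ok gNC gC mNC_conj,
            conjCoord_conjCoord_sub] at h
          exact ⟨_, ⟨_, Or.inl rfl⟩, h⟩
        · have hbot : M = ⊥ := by
            rw [eq_bot_iff]
            intro y hy
            have a := h12 y hy
            have b : _root_.orderOf y ≠ 2 := fun hb => h2 ⟨y, hy, hb⟩
            rw [Subgroup.mem_bot, ← orderOf_eq_one_iff]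
            omega
          exact ⟨(C.conjCoord 1).sub mN1 mN1_ok, ⟨1, Or.inl rfl⟩, by rw [hbot]; exact bot_le⟩

end Coord168

end Cfsg.Agent.Helper7
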