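/-
Helper7 library: the maximal subgroups of a group with the multiplication table of `PSL(2,7)`,
final statements.
-/
import Cfsg.Agent.Helper7.L168Max

set_option autoImplicit false

namespace Cfsg.Agent.Helper7

open Cfsg

namespace Coord168

variable {G : Type*} [Group G] (C : Coord168 G)

/-- A subgroup of order 24 is a symmetric group of degree 4. -/
theorem nonempty_mulEquiv_perm (m : ℕ) (hm : subOK m = true)
    (h : (List.range 168).countP (bitA m) = 24) :
    Nonempty (↥(C.sub m hm) ≃* Equiv.Perm (Fin 4)) := by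
  haveI := C.finite
  refine Cfsg.Agent.S1012.result ((C.card_sub m hm).trans h) (fun g hg => ?_)
  rw [← Subgroup.orderOf_coe] at hg
  have := C.orderOf_mem (g : G)
  omega

theorem sub_ne_top (m : ℕ) (hm : subOK m = true) (h : (List.range 168).countP (bitA m) < 168) :
    C.sub m hm ≠ ⊤ := by
  intro he
  have h1 := C.card_sub m hm
  rw [he, Subgroup.card_top, C.card_eq] at h1
  omega

theorem not_comm_mN7 : ¬ IsMulCommutative ↥(C.sub mN7 mN7_ok) := by
  intro hc
  rw [isMulCommutative_iff] at hc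
  have h := mN7_nc
  simp only [Bool.and_eq_true, Nat.blt_eq, Bool.not_eq_true', nbeq_false_iff] at h
  obtain ⟨⟨⟨⟨ha, hb⟩, hla⟩, hlb⟩, hne⟩ := h
  have hab := hc ⟨C.elt nc7a hla, by rw [mem_sub, C.ψ_elt]; exact ha⟩
    ⟨C.elt nc7b hlb, by rw [mem_sub, C.ψ_elt]; exact hb⟩
  have h2 : C.elt nc7a hla * C.elt nc7b hlb = C.elt nc7b hlb * C.elt nc7a hla :=
    congrArg Subtype.val hab
  have e := congrArg (fun z => ((C.ψ z : Fin 168) : ℕ)) h2
  simp only [C.map_mul, C.ψ_elt] at e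
  exact hne e

theorem IsMaxK.card_le {K : Subgroup G} (hK : C.IsMaxK K) : Nat.card ↥K ≤ 24 := by
  obtain ⟨g, h | h | h⟩ := hK
  · rw [h, card_sub, mN1_card]
  · rw [h, card_sub, mN2_card]
  · rw [h, card_sub, mN7_card]; norm_num

theorem IsMaxK.ne_top {K : Subgroup G} (hK : C.IsMaxK K) : K ≠ ⊤ := by
  intro he
  have h1 := hK.card_le
  rw [he, Subgroup.card_top, C.card_eq] at h1
  omega

include C in
theorem isMaxK_of_isCoatom {M : Subgroup G} (hM : IsCoatom M) : C.IsMaxK M := by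
  obtain ⟨K, hK, hle⟩ := C.exists_isMaxK_ge M hM.1
  have : K = M := (hM.le_iff_eq (IsMaxK.ne_top C hK)).mp hle
  rw [← this]
  exact hK

theorem isCoatom_sub (m : ℕ) (hm : subOK m = true)
    (h : (List.range 168).countP (bitA m) = 24) : IsCoatom (C.sub m hm) := by
  haveI := C.finite
  refine ⟨C.sub_ne_top m hm (by rw [h]; norm_num), fun K hlt => ?_⟩
  by_contra hK
  obtain ⟨K', hK', hle⟩ := C.exists_isMaxK_ge K hK
  have h1 : C.sub m hm = K' :=
    Subgroup.eq_of_le_of_card_ge (hlt.le.trans hle) (by rw [C.card_sub, h]; exact hK'.card_le)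
  rw [← h1] at hle
  exact absurd hle hlt.not_ge

theorem card_perm_four {H : Type*} [Group H] (e : H ≃* Equiv.Perm (Fin 4)) : Nat.card H = 24 := by
  rw [Nat.card_congr e.toEquiv, Nat.card_perm, Nat.card_fin]
  rfl

include C in
/-- The maximal subgroups. -/
theorem maximal_subgroups :
    (∀ M : Subgroup G, IsCoatom M → Nonempty (↥M ≃* Equiv.Perm (Fin 4)) ∨
      (Nat.card ↥M = 21 ∧ ¬ IsMulCommutative ↥M)) ∧
    (∀ M M' : Subgroup G, IsCoatom M → IsCoatom M' → Nat.card ↥M = 21 → Nat.card ↥M' = 21 →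
      ∃ g : G, M' = M.map (MulAut.conj g).toMonoidHom) ∧
    ∃ M₁ M₂ : Subgroup G, IsCoatom M₁ ∧ IsCoatom M₂ ∧ Nonempty (↥M₁ ≃* Equiv.Perm (Fin 4)) ∧
      Nonempty (↥M₂ ≃* Equiv.Perm (Fin 4)) ∧
      (∀ g : G, M₂ ≠ M₁.map (MulAut.conj g).toMonoidHom) ∧
      ∀ M : Subgroup G, IsCoatom M → Nonempty (↥M ≃* Equiv.Perm (Fin 4)) →
        ∃ g : G, M = M₁.map (MulAut.conj g).toMonoidHom ∨
          M = M₂.map (MulAut.conj g).toMonoidHom := by
  refine ⟨?_, ?_, C.sub mN1 mN1_ok, C.sub mN2 mN2_ok, C.isCoatom_sub _ _ mN1_card,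
    C.isCoatom_sub _ _ mN2_card, C.nonempty_mulEquiv_perm _ _ mN1_card,
    C.nonempty_mulEquiv_perm _ _ mN2_card, fun g h => C.map_conj_sub_ne mN12_conj g h.symm, ?_⟩
  · intro M hM
    obtain ⟨g, h | h | h⟩ := C.isMaxK_of_isCoatom hM
    · rw [h]; exact Or.inl ((C.conjCoord g).nonempty_mulEquiv_perm _ _ mN1_card)
    · rw [h]; exact Or.inl ((C.conjCoord g).nonempty_mulEquiv_perm _ _ mN2_card)
    · rw [h]
      exact Or.inr ⟨by rw [card_sub, mN7_card], (C.conjCoord g).not_comm_mN7⟩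
  · intro M M' hM hM' hc hc'
    have key : ∀ K : Subgroup G, IsCoatom K → Nat.card ↥K = 21 →
        ∃ g : G, K = (C.conjCoord g).sub mN7 mN7_ok := by
      intro K hK hcK
      obtain ⟨g, h | h | h⟩ := C.isMaxK_of_isCoatom hK
      · rw [h, card_sub, mN1_card] at hcK; omega
      · rw [h, card_sub, mN2_card] at hcK; omega
      · exact ⟨g, h⟩
    obtain ⟨g, hg⟩ := key M hM hc
    obtain ⟨g', hg'⟩ := key M' hM' hc'
    refine ⟨g' * g⁻¹, ?_⟩
    rw [hg, hg', ← conjCoord_sub, conjCoord_conjCoord_sub, inv_mul_cancel_right]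
  · intro M hM ⟨e⟩
    have hc := card_perm_four e
    obtain ⟨g, h | h | h⟩ := C.isMaxK_of_isCoatom hM
    · exact ⟨g, Or.inl (by rw [h, conjCoord_sub])⟩
    · exact ⟨g, Or.inr (by rw [h, conjCoord_sub])⟩
    · rw [h, card_sub, mN7_card] at hc; omega

end Coord168

end Cfsg.Agent.Helper7
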