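/-
Helper7 library: the set `Cfsg.leechSet` is an additive subgroup, so it is `Cfsg.leechLattice`.
-/
import Cfsg.Prelude.Def_Sporadic_a

set_option autoImplicit false
open scoped Pointwise

namespace Cfsg.Agent.Helper7

open Cfsg

theorem mem_support₂ {w : GolayPt → ZMod 2} {i : GolayPt} : i ∈ support₂ w ↔ w i ≠ 0 := by
  simp [support₂]

theorem mem_filter_modEq {x : GolayPt → ℤ} {k : ℤ} {i : GolayPt} :
    i ∈ (Finset.univ.filter fun i => x i ≡ k [ZMOD 4]) ↔ x i % 4 = k % 4 := by
  rw [Finset.mem_filter]
  simp only [Finset.mem_univ, true_and]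
  rfl

theorem zmod2_key : ∀ a b : ZMod 2, (a + b + 1 ≠ 0 ↔ ((a ≠ 0) ↔ (b ≠ 0))) ∧
    (a + b ≠ 0 ↔ ¬((a ≠ 0) ↔ (b ≠ 0))) := by decide

theorem leech_zero_mem : (0 : GolayPt → ℤ) ∈ leechSet := by
  refine ⟨0, fun i => rfl, by simp, fun k => ?_⟩
  by_cases hk : k % 4 = 0
  · refine ⟨1, Submodule.subset_span (Or.inr rfl), ?_⟩
    ext i
    rw [mem_filter_modEq, mem_support₂]
    simp only [Pi.one_apply, Pi.zero_apply]
    constructor
    · intro _; omega
    · intro _; decide
  · refine ⟨0, Submodule.zero_mem _, ?_⟩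
    ext i
    rw [mem_filter_modEq, mem_support₂]
    simp only [Pi.zero_apply]
    constructor
    · intro h; exact absurd rfl h
    · intro h; omega

theorem leech_neg_mem {x : GolayPt → ℤ} (hx : x ∈ leechSet) : -x ∈ leechSet := by
  obtain ⟨m, h1, h2, h3⟩ := hx
  refine ⟨-m, fun i => ?_, ?_, fun k => ?_⟩
  · have := h1 i
    simp only [Pi.neg_apply, Int.ModEq] at this ⊢
    omega
  · simp only [Pi.neg_apply, Finset.sum_neg_distrib, Int.ModEq] at h2 ⊢
    omega
  · obtain ⟨v, hv, hvs⟩ := h3 (-k)
    refine ⟨v, hv, ?_⟩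
    rw [hvs]
    ext i
    rw [mem_filter_modEq, mem_filter_modEq]
    simp only [Pi.neg_apply]
    constructor <;> intro h <;> omega

theorem leech_add_mem {x y : GolayPt → ℤ} (hx : x ∈ leechSet) (hy : y ∈ leechSet) : x + y ∈ leechSet := by
  obtain ⟨m, h1, h2, h3⟩ := hx
  obtain ⟨m', h1', h2', h3'⟩ := hy
  refine ⟨m + m', fun i => ?_, ?_, fun k => ?_⟩
  · have a := h1 i
    have b := h1' i
    simp only [Pi.add_apply, Int.ModEq] at a b ⊢
    omega
  · simp only [Pi.add_apply, Finset.sum_add_distrib, Int.ModEq] at h2 h2' ⊢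
    omega
  · obtain ⟨v, hv, hvs⟩ := h3 m
    obtain ⟨w, hw, hws⟩ := h3' m'
    have hvi : ∀ i, v i ≠ 0 ↔ x i % 4 = m % 4 := by
      intro i
      rw [← mem_support₂, hvs, mem_filter_modEq]
    have hwi : ∀ i, w i ≠ 0 ↔ y i % 4 = m' % 4 := by
      intro i
      rw [← mem_support₂, hws, mem_filter_modEq]
    have hpx : ∀ i, x i % 2 = m % 2 := h1
    have hpy : ∀ i, y i % 2 = m' % 2 := h1'
    have hvw : v + w ∈ golayCode := Submodule.add_mem _ hv hw
    have hone : (1 : GolayPt → ZMod 2) ∈ golayCode := Submodule.subset_span (Or.inr rfl)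
    rcases (show (k - m - m') % 4 = 0 ∨ (k - m - m') % 4 = 2 ∨ (k - m - m') % 2 = 1 by omega)
      with hr | hr | hr
    · refine ⟨v + w + 1, Submodule.add_mem _ hvw hone, ?_⟩
      ext i
      rw [mem_filter_modEq, mem_support₂]
      simp only [Pi.add_apply, Pi.one_apply]
      rw [(zmod2_key (v i) (w i)).1, hvi, hwi]
      have a := hpx i
      have b := hpy i
      constructor
      · intro h
        by_cases hP : x i % 4 = m % 4
        · have := h.mp hP; omega
        · have : ¬ (y i % 4 = m' % 4) := fun hQ => hP (h.mpr hQ)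
          omega
      · intro h
        constructor <;> intro _ <;> omega
    · refine ⟨v + w, hvw, ?_⟩
      ext i
      rw [mem_filter_modEq, mem_support₂]
      simp only [Pi.add_apply]
      rw [(zmod2_key (v i) (w i)).2, hvi, hwi]
      have a := hpx i
      have b := hpy i
      constructor
      · intro h
        by_cases hP : x i % 4 = m % 4
        · have : ¬ (y i % 4 = m' % 4) := fun hQ => h ⟨fun _ => hQ, fun _ => hP⟩
          omega
        · have : y i % 4 = m' % 4 := by
            by_contra hQ
            exact h ⟨fun h' => absurd h' hP, fun h' => absurd h' hQ⟩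
          omega
      · intro h hiff
        by_cases hP : x i % 4 = m % 4
        · have := hiff.mp hP; omega
        · have : ¬ (y i % 4 = m' % 4) := fun hQ => hP (hiff.mpr hQ)
          omega
    · refine ⟨0, Submodule.zero_mem _, ?_⟩
      ext i
      rw [mem_filter_modEq, mem_support₂]
      simp only [Pi.zero_apply, Pi.add_apply]
      have a := hpx i
      have b := hpy i
      constructor
      · intro h; exact absurd rfl h
      · intro h; omega

/-- `leechSet` as an additive subgroup. -/
def leechSub : AddSubgroup (GolayPt → ℤ) where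
  carrier := leechSet
  zero_mem' := leech_zero_mem
  add_mem' := fun hx hy => leech_add_mem hx hy
  neg_mem' := fun hx => leech_neg_mem hx

theorem leechLattice_eq : leechLattice = leechSub := by
  apply le_antisymm
  · exact (AddSubgroup.closure_le leechSub).mpr (fun x hx => hx)
  · intro x hx
    exact AddSubgroup.subset_closure hx

theorem mem_leechLattice_iff {x : GolayPt → ℤ} : x ∈ leechLattice ↔ x ∈ leechSet := by
  rw [leechLattice_eq]; rfl

end Cfsg.Agent.Helper7
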