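/-
Helper7 library: sums of squares of the vectors of `Cfsg.leechSet`: divisibility by 16 and
the lower bound 32 for nonzero vectors.
-/
import Cfsg.Agent.Helper7.Leech
import Cfsg.Agent.Helper7.Rigid

set_option autoImplicit false
open scoped Pointwise

namespace Cfsg.Agent.Helper7

open Cfsg

theorem card_supports_cases {s : Finset GolayPt}
    (hs : s ∈ supports (golayCode : Set (GolayPt → ZMod 2))) :
    s = ∅ ∨ s.card = 8 ∨ s.card = 12 ∨ s.card = 16 ∨ s.card = 24 := by
  obtain ⟨w, hw, rfl⟩ := hs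
  rcases weight_cases hw with h | h | h | h | h
  · left; rw [h, support₂_zero]
  · right; left; exact h
  · right; right; left; exact h
  · right; right; right; left; exact h
  · right; right; right; right; rw [h, support₂_one, card_univ_golayPt]

theorem card_supports_mod4 {s : Finset GolayPt}
    (hs : s ∈ supports (golayCode : Set (GolayPt → ZMod 2))) : ∃ a : ℕ, s.card = 4 * a := by
  rcases card_supports_cases hs with h | h | h | h | h
  · exact ⟨0, by rw [h]; rfl⟩
  · exact ⟨2, h⟩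
  · exact ⟨3, h⟩
  · exact ⟨4, h⟩
  · exact ⟨6, h⟩

theorem sq_even_mod (a : ℤ) (h : a % 2 = 0) :
    (16 : ℤ) ∣ a ^ 2 - 4 * (if a ≡ 2 [ZMOD 4] then 1 else 0) := by
  have h4 : a % 4 = 0 ∨ a % 4 = 2 := by omega
  rcases h4 with h4 | h4
  · obtain ⟨t, rfl⟩ : ∃ t, a = 4 * t := ⟨a / 4, by omega⟩
    rw [if_neg (by unfold Int.ModEq; omega)]
    exact ⟨t ^ 2, by ring⟩
  · obtain ⟨t, rfl⟩ : ∃ t, a = 4 * t + 2 := ⟨a / 4, by omega⟩
    rw [if_pos (by unfold Int.ModEq; omega)]
    exact ⟨t ^ 2 + t, by ring⟩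

theorem sq_odd_mod (a : ℤ) (h : a % 2 = 1) :
    (16 : ℤ) ∣ a ^ 2 - (2 * a - 13 + 12 * (if a ≡ 1 [ZMOD 4] then 1 else 0)) := by
  have h4 : a % 4 = 1 ∨ a % 4 = 3 := by omega
  rcases h4 with h4 | h4
  · obtain ⟨t, rfl⟩ : ∃ t, a = 4 * t + 1 := ⟨a / 4, by omega⟩
    rw [if_pos (by unfold Int.ModEq; omega)]
    exact ⟨t ^ 2, by ring⟩
  · obtain ⟨t, rfl⟩ : ∃ t, a = 4 * t + 3 := ⟨a / 4, by omega⟩
    rw [if_neg (by unfold Int.ModEq; omega)]
    exact ⟨t ^ 2 + t + 1, by ring⟩

theorem sq_four_mod (a : ℤ) (h : a % 4 = 0) : (32 : ℤ) ∣ a ^ 2 - 4 * a := by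
  have h8 : a % 8 = 0 ∨ a % 8 = 4 := by omega
  rcases h8 with h8 | h8
  · obtain ⟨t, rfl⟩ : ∃ t, a = 8 * t := ⟨a / 8, by omega⟩
    exact ⟨2 * t ^ 2 - t, by ring⟩
  · obtain ⟨t, rfl⟩ : ∃ t, a = 8 * t + 4 := ⟨a / 8, by omega⟩
    exact ⟨2 * t ^ 2 + t, by ring⟩

/-- The sum of squares of a vector of `leechSet` is divisible by 16. -/
theorem sqNorm_dvd {x : GolayPt → ℤ} (hx : x ∈ leechSet) : (16 : ℤ) ∣ sqNorm x := by
  obtain ⟨m, h1, h2, h3⟩ := hx
  have hpar : ∀ i, x i % 2 = m % 2 := h1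
  have hS : (∑ i, x i) % 8 = (4 * m) % 8 := h2
  rcases Int.emod_two_eq_zero_or_one m with hm | hm
  · obtain ⟨a, ha⟩ := card_supports_mod4 (h3 2)
    have hsum := Finset.dvd_sum (s := Finset.univ) (fun i _ => sq_even_mod (x i) (by rw [hpar, hm]))
    rw [Finset.sum_sub_distrib, ← Finset.mul_sum, Finset.sum_boole, ha] at hsum
    have : sqNorm x = ∑ i, x i ^ 2 := rfl
    rw [this]
    push_cast at hsum
    omega
  · obtain ⟨a, ha⟩ := card_supports_mod4 (h3 1)
    have hsum := Finset.dvd_sum (s := Finset.univ) (fun i _ => sq_odd_mod (x i) (by rw [hpar, hm]))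
    rw [Finset.sum_sub_distrib, Finset.sum_add_distrib, Finset.sum_sub_distrib, ← Finset.mul_sum,
      ← Finset.mul_sum, Finset.sum_boole, ha, Finset.sum_const, Finset.card_univ] at hsum
    have hcard : Fintype.card GolayPt = 24 := by decide
    rw [hcard] at hsum
    have : sqNorm x = ∑ i, x i ^ 2 := rfl
    rw [this]
    push_cast at hsum
    simp only [nsmul_eq_mul] at hsum
    push_cast at hsum
    omega

theorem sqNorm_pos {x : GolayPt → ℤ} (h0 : x ≠ 0) : 0 < sqNorm x := by
  have : ∃ j, x j ≠ 0 := by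
    by_contra h
    simp only [not_exists, not_not] at h
    exact h0 (funext h)
  obtain ⟨j, hj⟩ := this
  have h1 : x j ^ 2 ≤ sqNorm x :=
    Finset.single_le_sum (f := fun i => x i ^ 2) (fun i _ => sq_nonneg (x i)) (Finset.mem_univ j)
  have h2 : 0 < x j ^ 2 := by positivity
  omega

/-- A nonzero vector of `leechSet` has sum of squares at least 32. -/
theorem sqNorm_ge {x : GolayPt → ℤ} (hx : x ∈ leechSet) (h0 : x ≠ 0) : 32 ≤ sqNorm x := by
  have hdvd := sqNorm_dvd hx
  have hpos := sqNorm_pos h0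
  obtain ⟨m, h1, h2, h3⟩ := hx
  have hpar : ∀ i, x i % 2 = m % 2 := h1
  have hS : (∑ i, x i) % 8 = (4 * m) % 8 := h2
  have hdef : sqNorm x = ∑ i, x i ^ 2 := rfl
  rcases Int.emod_two_eq_zero_or_one m with hm | hm
  · rcases card_supports_cases (h3 2) with h | h
    · -- all coordinates divisible by 4
      have h4 : ∀ i, x i % 4 = 0 := by
        intro i
        have hi : i ∉ (Finset.univ.filter fun i => x i ≡ 2 [ZMOD 4]) := by
          rw [h]; exact Finset.notMem_empty i
        rw [mem_filter_modEq] at hi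
        have := hpar i
        omega
      have hsum := Finset.dvd_sum (s := Finset.univ) (fun i _ => sq_four_mod (x i) (h4 i))
      rw [Finset.sum_sub_distrib, ← Finset.mul_sum, ← hdef] at hsum
      omega
    · -- at least 8 coordinates congruent to 2 modulo 4
      have hle : ∑ i, (4 : ℤ) * (if x i ≡ 2 [ZMOD 4] then 1 else 0) ≤ ∑ i, x i ^ 2 := by
        apply Finset.sum_le_sum
        intro i _
        split_ifs with hi
        · have hi' : x i % 4 = 2 := hi
          have : x i ≤ -2 ∨ 2 ≤ x i := by omega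
          rcases this with h' | h' <;> nlinarith
        · have := sq_nonneg (x i); linarith
      rw [← Finset.mul_sum, Finset.sum_boole, ← hdef] at hle
      have hc : 8 ≤ (Finset.univ.filter fun i => x i ≡ 2 [ZMOD 4]).card := by omega
      have hc' : (8 : ℤ) ≤ ((Finset.univ.filter fun i => x i ≡ 2 [ZMOD 4]).card : ℤ) := by
        exact_mod_cast hc
      linarith
  · -- all coordinates odd
    have hle : ∑ i : GolayPt, (1 : ℤ) ≤ ∑ i, x i ^ 2 := by
      apply Finset.sum_le_sum
      intro i _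
      have := hpar i
      have : x i ≤ -1 ∨ 1 ≤ x i := by omega
      rcases this with h' | h' <;> nlinarith
    rw [Finset.sum_const, Finset.card_univ] at hle
    have hcard : Fintype.card GolayPt = 24 := by decide
    rw [hcard, ← hdef] at hle
    simp only [nsmul_eq_mul] at hle
    push_cast at hle
    omega

end Cfsg.Agent.Helper7
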