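/-
Helper7 library: the action of `M24` on 6-tuples of distinct points: two orbits, according as
the six points lie in an octad or not.
-/
import Cfsg.Agent.Helper7.M24Sets

set_option autoImplicit false
open scoped Pointwise

namespace Cfsg.Agent.Helper7

open Cfsg

/-- The stabilizer of the points `0,…,4` is transitive on the three other points of the octad
`O0`. -/
theorem fix5_trans_in {x : GolayPt} (hx : x ∈ setOf O0) (hx' : x ∉ ([0, 1, 2, 3, 4] : List ℕ).map pt) :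
    ∃ h ∈ M24 ⊓ fixL [0, 1, 2, 3, 4], h (pt 7) = x :=
  lv_h2 m24level5 G3_le x (mem_lvD.mpr ⟨hx, hx'⟩)

/-- The stabilizer of the points `0,…,4` is transitive on the 16 points outside the octad
`O0`. -/
theorem fix5_trans_out {x : GolayPt} (hx : x ∉ setOf O0) :
    ∃ h ∈ M24 ⊓ fixL [0, 1, 2, 3, 4], h (pt 5) = x := by
  have hx1 : x ∈ setOf (0xffffff ^^^ O0) := by
    rw [mem_setOf, Nat.testBit_xor]
    have h1 : (0xffffff : ℕ).testBit (idx x) = true := by
      have := Finset.mem_univ x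
      rw [← setOf_ones, mem_setOf] at this
      exact this
    rw [mem_setOf] at hx
    rw [h1]
    cases h : O0.testBit (idx x)
    · rfl
    · exact absurd h hx
  have hx2 : x ∉ ([0, 1, 2, 3, 4, 7] : List ℕ).map pt := by
    intro hmem
    apply hx
    rw [List.mem_map] at hmem
    obtain ⟨j, hj, rfl⟩ := hmem
    have hall : ∀ j ∈ ([0, 1, 2, 3, 4, 7] : List ℕ), pt j ∈ setOf O0 := by decide +kernel
    exact hall j hj
  obtain ⟨h, hh, hhx⟩ := lv_h2 m24level6 G3_le x (mem_lvD.mpr ⟨hx1, hx2⟩)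
  refine ⟨h, ⟨hh.1, ?_⟩, hhx⟩
  intro j hj
  exact hh.2 j (by
    simp only [List.mem_cons, List.not_mem_nil, or_false] at hj ⊢
    tauto)

theorem pts5_mem_O0 : ∀ j ∈ ([0, 1, 2, 3, 4] : List ℕ), pt j ∈ setOf O0 := by decide +kernel

theorem pt5_not_mem_O0 : pt 5 ∉ setOf O0 := by decide +kernel

theorem pt7_mem_O0 : pt 7 ∈ setOf O0 := by decide +kernel

/-- An octad containing the points `0,…,4` is `setOf O0`. -/
theorem octad_eq_O0 {o : Finset GolayPt} (ho : o ∈ octads)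
    (h : ∀ j ∈ ([0, 1, 2, 3, 4] : List ℕ), pt j ∈ o) : o = setOf O0 := by
  apply octads_eq_of_inter ho setOf_O0_mem
  have hsub : ({pt 0, pt 1, pt 2, pt 3, pt 4} : Finset GolayPt) ⊆ o ∩ setOf O0 := by
    intro x hx
    simp only [Finset.mem_insert, Finset.mem_singleton] at hx
    rw [Finset.mem_inter]
    rcases hx with rfl | rfl | rfl | rfl | rfl
    · exact ⟨h 0 (by simp), pts5_mem_O0 0 (by simp)⟩
    · exact ⟨h 1 (by simp), pts5_mem_O0 1 (by simp)⟩
    · exact ⟨h 2 (by simp), pts5_mem_O0 2 (by simp)⟩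
    · exact ⟨h 3 (by simp), pts5_mem_O0 3 (by simp)⟩
    · exact ⟨h 4 (by simp), pts5_mem_O0 4 (by simp)⟩
  have hc : ({pt 0, pt 1, pt 2, pt 3, pt 4} : Finset GolayPt).card = 5 := by decide
  have := Finset.card_le_card hsub
  omega

/-- Normal form of six distinct points: the first five are moved to the points `0,…,4`. -/
theorem six_normal {a1 a2 a3 a4 a5 a6 : GolayPt} (hnd : [a1, a2, a3, a4, a5, a6].Nodup) :
    ∃ g ∈ M24, [a1, a2, a3, a4, a5].map g = [pt 0, pt 1, pt 2, pt 3, pt 4] ∧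
      g a6 ∉ ([0, 1, 2, 3, 4] : List ℕ).map pt := by
  have hnd5 : [a1, a2, a3, a4, a5].Nodup := by
    have : [a1, a2, a3, a4, a5, a6] = [a1, a2, a3, a4, a5] ++ [a6] := rfl
    rw [this] at hnd
    exact (List.nodup_append.mp hnd).1
  obtain ⟨g, hg, hmap⟩ := m24_lists (l := [a1, a2, a3, a4, a5])
    (l' := [pt 0, pt 1, pt 2, pt 3, pt 4]) rfl (by simp) hnd5 (by decide)
  refine ⟨g, hg, hmap, ?_⟩
  intro hmem
  have hmem' : g a6 ∈ [a1, a2, a3, a4, a5].map g := by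
    rw [hmap]; exact hmem
  rw [List.mem_map] at hmem'
  obtain ⟨b, hb, hb'⟩ := hmem'
  have hba : b = a6 := g.injective hb'
  have : [a1, a2, a3, a4, a5, a6] = [a1, a2, a3, a4, a5] ++ [a6] := rfl
  rw [this, List.nodup_append] at hnd
  exact hnd.2.2 b hb a6 (by simp) hba

/-- Six distinct points in an octad can be moved to the points `0, 1, 2, 3, 4, 7`. -/
theorem six_normal_in {l : List GolayPt} (hl : l.length = 6) (hnd : l.Nodup)
    (ho : ∃ o ∈ octads, ∀ x ∈ l, x ∈ o) :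
    ∃ g ∈ M24, l.map g = [pt 0, pt 1, pt 2, pt 3, pt 4, pt 7] := by
  obtain ⟨a1, a2, a3, a4, a5, a6, rfl⟩ : ∃ a1 a2 a3 a4 a5 a6, l = [a1, a2, a3, a4, a5, a6] := by
    match l, hl with
    | [a1, a2, a3, a4, a5, a6], _ => exact ⟨a1, a2, a3, a4, a5, a6, rfl⟩
  obtain ⟨g, hg, hmap, hx'⟩ := six_normal hnd
  obtain ⟨o, ho, hall⟩ := ho
  have hgo : g • o = setOf O0 := by
    apply octad_eq_O0 (smul_mem_wordsOfWeight hg ho)
    intro j hj
    have hj' : pt j ∈ [a1, a2, a3, a4, a5].map g := by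
      rw [hmap]
      exact List.mem_map.mpr ⟨j, hj, rfl⟩
    rw [List.mem_map] at hj'
    obtain ⟨b, hb, hb'⟩ := hj'
    rw [← hb']
    exact Finset.smul_mem_smul_finset (hall b (by
      simp only [List.mem_cons, List.not_mem_nil, or_false] at hb ⊢
      tauto))
  have hx : g a6 ∈ setOf O0 := by
    rw [← hgo]
    exact Finset.smul_mem_smul_finset (hall a6 (by simp))
  obtain ⟨h, hh, hhx⟩ := fix5_trans_in hx hx'
  refine ⟨h⁻¹ * g, M24.mul_mem (M24.inv_mem hh.1) hg, ?_⟩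
  simp only [List.map_cons, List.map_nil, List.cons.injEq, and_true] at hmap ⊢
  have hfix : ∀ j ∈ ([0, 1, 2, 3, 4] : List ℕ), h⁻¹ (pt j) = pt j := by
    intro j hj
    rw [Equiv.Perm.inv_eq_iff_eq]
    exact (hh.2 j hj).symm
  simp only [Equiv.Perm.mul_apply]
  rw [hmap.1, hmap.2.1, hmap.2.2.1, hmap.2.2.2.1, hmap.2.2.2.2, ← hhx]
  refine ⟨hfix 0 (by simp), hfix 1 (by simp), hfix 2 (by simp), hfix 3 (by simp),
    hfix 4 (by simp), by simp⟩

/-- Six distinct points not in an octad can be moved to the points `0, 1, 2, 3, 4, 5`. -/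
theorem six_normal_out {l : List GolayPt} (hl : l.length = 6) (hnd : l.Nodup)
    (ho : ¬ ∃ o ∈ octads, ∀ x ∈ l, x ∈ o) :
    ∃ g ∈ M24, l.map g = [pt 0, pt 1, pt 2, pt 3, pt 4, pt 5] := by
  obtain ⟨a1, a2, a3, a4, a5, a6, rfl⟩ : ∃ a1 a2 a3 a4 a5 a6, l = [a1, a2, a3, a4, a5, a6] := by
    match l, hl with
    | [a1, a2, a3, a4, a5, a6], _ => exact ⟨a1, a2, a3, a4, a5, a6, rfl⟩
  obtain ⟨g, hg, hmap, hx'⟩ := six_normal hnd
  have hx : g a6 ∉ setOf O0 := by
    intro hmem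
    apply ho
    refine ⟨g⁻¹ • setOf O0, smul_mem_wordsOfWeight (M24.inv_mem hg) setOf_O0_mem, ?_⟩
    intro x hx
    rw [Finset.mem_inv_smul_finset_iff]
    simp only [List.mem_cons, List.not_mem_nil, or_false] at hx
    simp only [List.map_cons, List.map_nil, List.cons.injEq, and_true] at hmap
    show g x ∈ setOf O0
    rcases hx with rfl | rfl | rfl | rfl | rfl | rfl
    · rw [hmap.1]; exact pts5_mem_O0 0 (by simp)
    · rw [hmap.2.1]; exact pts5_mem_O0 1 (by simp)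
    · rw [hmap.2.2.1]; exact pts5_mem_O0 2 (by simp)
    · rw [hmap.2.2.2.1]; exact pts5_mem_O0 3 (by simp)
    · rw [hmap.2.2.2.2]; exact pts5_mem_O0 4 (by simp)
    · exact hmem
  obtain ⟨h, hh, hhx⟩ := fix5_trans_out hx
  refine ⟨h⁻¹ * g, M24.mul_mem (M24.inv_mem hh.1) hg, ?_⟩
  simp only [List.map_cons, List.map_nil, List.cons.injEq, and_true] at hmap ⊢
  have hfix : ∀ j ∈ ([0, 1, 2, 3, 4] : List ℕ), h⁻¹ (pt j) = pt j := by
    intro j hj
    rw [Equiv.Perm.inv_eq_iff_eq]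
    exact (hh.2 j hj).symm
  simp only [Equiv.Perm.mul_apply]
  rw [hmap.1, hmap.2.1, hmap.2.2.1, hmap.2.2.2.1, hmap.2.2.2.2, ← hhx]
  refine ⟨hfix 0 (by simp), hfix 1 (by simp), hfix 2 (by simp), hfix 3 (by simp),
    hfix 4 (by simp), by simp⟩

theorem map_mul_inv_of_map_eq {l l' m : List GolayPt} {g g' : Equiv.Perm GolayPt}
    (h : l.map g = m) (h' : l'.map g' = m) : l.map (g'⁻¹ * g) = l' := by
  have : l.map (g'⁻¹ * g) = (l.map g).map (fun x => g'⁻¹ x) := by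
    rw [List.map_map]; rfl
  rw [this, h, ← h', List.map_map]
  conv_rhs => rw [← List.map_id l']
  apply List.map_congr_left
  intro x _
  simp

/-- `M24` is transitive on 6-tuples of distinct points lying in an octad. -/
theorem m24_six_in {l l' : List GolayPt} (hl : l.length = 6) (hl' : l'.length = 6) (hnd : l.Nodup)
    (hnd' : l'.Nodup) (ho : ∃ o ∈ octads, ∀ x ∈ l, x ∈ o) (ho' : ∃ o ∈ octads, ∀ x ∈ l', x ∈ o) :
    ∃ g ∈ M24, l.map g = l' := by
  obtain ⟨g, hg, h⟩ := six_normal_in hl hnd ho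
  obtain ⟨g', hg', h'⟩ := six_normal_in hl' hnd' ho'
  exact ⟨g'⁻¹ * g, M24.mul_mem (M24.inv_mem hg') hg, map_mul_inv_of_map_eq h h'⟩

/-- `M24` is transitive on 6-tuples of distinct points not lying in an octad. -/
theorem m24_six_out {l l' : List GolayPt} (hl : l.length = 6) (hl' : l'.length = 6) (hnd : l.Nodup)
    (hnd' : l'.Nodup) (ho : ¬ ∃ o ∈ octads, ∀ x ∈ l, x ∈ o)
    (ho' : ¬ ∃ o ∈ octads, ∀ x ∈ l', x ∈ o) : ∃ g ∈ M24, l.map g = l' := by
  obtain ⟨g, hg, h⟩ := six_normal_out hl hnd ho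
  obtain ⟨g', hg', h'⟩ := six_normal_out hl' hnd' ho'
  exact ⟨g'⁻¹ * g, M24.mul_mem (M24.inv_mem hg') hg, map_mul_inv_of_map_eq h h'⟩

end Cfsg.Agent.Helper7
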