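/-
Helper7 library: maximality of a point stabilizer from the sizes of its orbits (suborbits).
-/
import Cfsg.Agent.Helper7.Simple

set_option autoImplicit false
open scoped Pointwise

namespace Cfsg.Agent.Helper7

variable {G : Type*} [Group G] {X : Type*} [MulAction G X]

/-- Maximality of a stabilizer is invariant under translation of the point. -/
theorem isCoatom_stabilizer_smul (g : G) (x : X) :
    IsCoatom (MulAction.stabilizer G (g • x)) ↔ IsCoatom (MulAction.stabilizer G x) := by
  rw [MulAction.stabilizer_smul_eq_stabilizer_map_conj]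
  exact (MulEquiv.mapSubgroup (MulAut.conj g)).isCoatom_iff (MulAction.stabilizer G x)

open Classical in
/-- Counting a class-closed subset of a set through the sizes of the classes. -/
theorem ncard_eq_sum_classes {ι : Type*} [DecidableEq ι] (O : Set X) (hO : O.Finite) (c : X → ι)
    (m : ι → ℕ) (hm : ∀ i, {y | y ∈ O ∧ c y = i}.ncard = m i) (B : Set X) (hBO : B ⊆ O)
    (hB : ∀ y ∈ B, ∀ z ∈ O, c z = c y → z ∈ B) (I : Finset ι) (hI : ∀ y ∈ B, c y ∈ I)
    (hI' : ∀ i ∈ I, (∃ y ∈ B, c y = i) ∨ m i = 0) : B.ncard = ∑ i ∈ I, m i := by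
  have hBfin : B.Finite := hO.subset hBO
  rw [Set.ncard_eq_toFinset_card B hBfin,
    Finset.card_eq_sum_card_fiberwise (f := c) (t := I) (fun y hy => hI y (hBfin.mem_toFinset.mp hy))]
  apply Finset.sum_congr rfl
  intro i hi
  rcases hI' i hi with ⟨y₀, hy₀, hy₀i⟩ | h0
  · rw [← hm i, Set.ncard_eq_toFinset_card _ (hO.subset fun y hy => hy.1)]
    congr 1
    ext y
    simp only [Finset.mem_filter, Set.Finite.mem_toFinset, Set.mem_ofPred_eq]
    constructor
    · rintro ⟨hy, hyi⟩
      exact ⟨hBO hy, hyi⟩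
    · rintro ⟨hy, hyi⟩
      exact ⟨hB y₀ hy₀ y hy (hyi.trans hy₀i.symm), hyi⟩
  · rw [h0, Finset.card_eq_zero, Finset.filter_eq_empty_iff]
    intro y hy hyi
    have hyB : y ∈ B := hBfin.mem_toFinset.mp hy
    have hne : {y | y ∈ O ∧ c y = i}.Nonempty := ⟨y, hBO hyB, hyi⟩
    have hpos := (Set.ncard_pos (hO.subset fun y hy => hy.1)).mpr hne
    rw [hm i, h0] at hpos
    exact lt_irrefl _ hpos

/-- **Maximality from suborbits.** Let `K` be the stabilizer of `x` in a finite group `G`. If the
points of the orbit of `x` are labelled by `c` so that two points with the same label are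
conjugate under `K`, the class of `x` is `{x}`, and no sum of class sizes containing the class
of `x` divides the size of the orbit except the trivial ones, then `K` is a maximal subgroup. -/
theorem isCoatom_stabilizer_of_suborbits [Finite G] (x : X) {ι : Type*} [DecidableEq ι]
    (c : X → ι) (L : Finset ι) (m : ι → ℕ) (hL : ∀ y ∈ MulAction.orbit G x, c y ∈ L)
    (hm : ∀ i, {y | y ∈ MulAction.orbit G x ∧ c y = i}.ncard = m i)
    (htrans : ∀ y ∈ MulAction.orbit G x, ∀ z ∈ MulAction.orbit G x, c y = c z →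
      ∃ k : G, k • x = x ∧ k • y = z)
    (i₀ : ι) (hi₀ : c x = i₀) (hx : m i₀ = 1) (hne : ∃ i, i ≠ i₀ ∧ m i ≠ 0)
    (harith : ∀ I ∈ L.powerset, i₀ ∈ I → (∑ i ∈ I, m i) ∣ (∑ i ∈ L, m i) →
      I = {i₀} ∨ ∀ i ∈ L, m i ≠ 0 → i ∈ I) :
    IsCoatom (MulAction.stabilizer G x) := by
  classical
  subst hi₀
  have hOfin : (MulAction.orbit G x).Finite := Set.finite_range _
  have hxO : x ∈ MulAction.orbit G x := MulAction.mem_orbit_self x
  have hclass_pos : ∀ y ∈ MulAction.orbit G x, m (c y) ≠ 0 := by
    intro y hy h0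
    have hne : {z | z ∈ MulAction.orbit G x ∧ c z = c y}.Nonempty := ⟨y, hy, rfl⟩
    have hpos := (Set.ncard_pos (hOfin.subset fun y hy => hy.1)).mpr hne
    rw [hm, h0] at hpos
    exact lt_irrefl _ hpos
  -- the class of `x` is `{x}`
  have hxclass : ∀ y ∈ MulAction.orbit G x, c y = c x → y = x := by
    intro y hy hyc
    have h1 := hm (c x)
    rw [hx, Set.ncard_eq_one] at h1
    obtain ⟨a, ha⟩ := h1
    have hxa : x ∈ ({a} : Set X) := by rw [← ha]; exact ⟨hxO, rfl⟩
    have hya : y ∈ ({a} : Set X) := by rw [← ha]; exact ⟨hy, hyc⟩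
    rw [Set.mem_singleton_iff] at hxa hya
    rw [hya, hxa]
  constructor
  · -- the stabilizer is proper
    obtain ⟨i, hi, hmi⟩ := hne
    have hne' : {y | y ∈ MulAction.orbit G x ∧ c y = i}.Nonempty := by
      apply Set.nonempty_of_ncard_ne_zero
      rw [hm]; exact hmi
    obtain ⟨y, ⟨g, rfl⟩, hyi⟩ := hne'
    intro htop
    have hg : g ∈ MulAction.stabilizer G x := by rw [htop]; exact Subgroup.mem_top g
    rw [MulAction.mem_stabilizer_iff] at hg
    have hg' : g • x = x := hg
    have hyi' : c (g • x) = i := hyi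
    rw [hg'] at hyi'
    exact hi hyi'.symm
  · intro H hKH
    set B : Set X := {y | ∃ h ∈ H, h • x = y} with hBdef
    have hBO : B ⊆ MulAction.orbit G x := by
      rintro y ⟨h, _, rfl⟩
      exact ⟨h, rfl⟩
    have hxB : x ∈ B := ⟨1, H.one_mem, one_smul _ x⟩
    have hBclosed : ∀ y ∈ B, ∀ z ∈ MulAction.orbit G x, c z = c y → z ∈ B := by
      rintro y ⟨h, hh, rfl⟩ z hz hzc
      obtain ⟨k, hkx, hkz⟩ := htrans (h • x) ⟨h, rfl⟩ z hz hzc.symm
      refine ⟨k * h, H.mul_mem (hKH.le (MulAction.mem_stabilizer_iff.mpr hkx)) hh, ?_⟩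
      rw [mul_smul, hkz]
    set I : Finset ι := L.filter (fun i => ∃ y ∈ B, c y = i) with hIdef
    have hcardB : B.ncard = ∑ i ∈ I, m i := by
      apply ncard_eq_sum_classes (MulAction.orbit G x) hOfin c m hm B hBO hBclosed I
      · intro y hy
        rw [hIdef, Finset.mem_filter]
        exact ⟨hL y (hBO hy), y, hy, rfl⟩
      · intro i hi
        rw [hIdef, Finset.mem_filter] at hi
        exact Or.inl hi.2
    have hcardO : (MulAction.orbit G x).ncard = ∑ i ∈ L, m i := by
      apply ncard_eq_sum_classes (MulAction.orbit G x) hOfin c m hm _ subset_rfl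
        (fun _ _ z hz _ => hz) L hL
      intro i _
      by_cases h : ∃ y ∈ MulAction.orbit G x, c y = i
      · exact Or.inl h
      · right
        rw [← hm i]
        have : {y | y ∈ MulAction.orbit G x ∧ c y = i} = ∅ := by
          ext y
          simp only [Set.mem_ofPred_eq, Set.mem_empty_iff_false, iff_false]
          rintro ⟨hy, hyi⟩
          exact h ⟨y, hy, hyi⟩
        rw [this, Set.ncard_empty]
    -- divisibility
    have hdvd : B.ncard ∣ (MulAction.orbit G x).ncard := by
      have hG : Nat.card (MulAction.orbit G x) * Nat.card (MulAction.stabilizer G x)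
          = Nat.card G := by
        rw [Subgroup.card_eq_card_quotient_mul_card_subgroup (MulAction.stabilizer G x),
          Nat.card_congr (MulAction.orbitEquivQuotientStabilizer G x)]
      have hH : Nat.card (MulAction.orbit (↥H) x) * Nat.card (MulAction.stabilizer (↥H) x)
          = Nat.card ↥H := by
        rw [Subgroup.card_eq_card_quotient_mul_card_subgroup (MulAction.stabilizer (↥H) x),
          Nat.card_congr (MulAction.orbitEquivQuotientStabilizer (↥H) x)]
      have horbH : MulAction.orbit (↥H) x = B := by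
        ext y
        constructor
        · rintro ⟨h, rfl⟩
          exact ⟨h.1, h.2, rfl⟩
        · rintro ⟨h, hh, rfl⟩
          exact ⟨⟨h, hh⟩, rfl⟩
      have hstab : Nat.card (MulAction.stabilizer (↥H) x) = Nat.card (MulAction.stabilizer G x) := by
        rw [Nat.card_congr (stabSubEquiv H x).toEquiv, inf_eq_right.mpr hKH.le]
      rw [horbH, hstab, Nat.card_coe_set_eq] at hH
      rw [Nat.card_coe_set_eq] at hG
      have hdiv : Nat.card ↥H ∣ Nat.card G := Subgroup.card_subgroup_dvd_card H
      rw [← hH, ← hG] at hdiv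
      exact Nat.dvd_of_mul_dvd_mul_right Nat.card_pos hdiv
    rw [hcardB, hcardO] at hdvd
    have hxI : c x ∈ I := by
      rw [hIdef, Finset.mem_filter]
      exact ⟨hL x hxO, x, hxB, rfl⟩
    rcases harith I (Finset.mem_powerset.mpr (Finset.filter_subset _ _)) hxI hdvd with hI1 | hIall
    · -- `H` fixes `x`: contradiction
      exfalso
      have hHK : H ≤ MulAction.stabilizer G x := by
        intro h hh
        rw [MulAction.mem_stabilizer_iff]
        have hB' : h • x ∈ B := ⟨h, hh, rfl⟩
        have hmem : c (h • x) ∈ I := by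
          rw [hIdef, Finset.mem_filter]
          exact ⟨hL _ (hBO hB'), h • x, hB', rfl⟩
        rw [hI1, Finset.mem_singleton] at hmem
        exact hxclass _ (hBO hB') hmem
      exact lt_irrefl _ (lt_of_lt_of_le hKH hHK)
    · rw [eq_top_iff]
      intro g _
      have hgO : g • x ∈ MulAction.orbit G x := ⟨g, rfl⟩
      have hmem := hIall (c (g • x)) (hL _ hgO) (hclass_pos _ hgO)
      rw [hIdef, Finset.mem_filter] at hmem
      obtain ⟨_, y, hy, hyc⟩ := hmem
      obtain ⟨h, hh, hhx⟩ := hBclosed y hy (g • x) hgO hyc.symm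
      have hk : h⁻¹ * g ∈ MulAction.stabilizer G x := by
        rw [MulAction.mem_stabilizer_iff, mul_smul, ← hhx, inv_smul_smul]
      have := H.mul_mem hh (hKH.le hk)
      simpa using this

end Cfsg.Agent.Helper7
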