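import Mathlib
import Cfsg.Agent.Helper89.Stem

/-!
# Restriction of the `p`-part of a central extension to a subgroup of index prime to `p` (helper7)

`p_restrict`: if every central extension of `S ≤ Γ` with kernel of exponent `p` inside the
commutator subgroup is trivial and the index of `S` in `Γ` is prime to `p`, then the same holds
for `Γ`.  (Piece RES of the CALL for S2041.)
-/

set_option autoImplicit false

namespace Cfsg.Agent.Helper7

open Subgroup

universe u

theorem p_restrict {Γ : Type u} [Group Γ] [Finite Γ] (p : ℕ) (hp : p.Prime) (S : Subgroup Γ)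
    (hS : ¬ p ∣ S.index)
    (H : ∀ (Y : Type u) [Group Y] [Finite Y] (σ : Y →* ↥S), Function.Surjective σ →
      (∀ y, σ y = 1 → y ∈ Subgroup.center Y ∧ y ^ p = 1) → σ.ker ≤ commutator Y →
      ∀ y, σ y = 1 → y = 1)
    (X : Type u) [Group X] [Finite X] (τ : X →* Γ) (hτ : Function.Surjective τ)
    (hker : ∀ x, τ x = 1 → x ∈ Subgroup.center X ∧ x ^ p = 1) (hd : τ.ker ≤ commutator X) :
    ∀ x, τ x = 1 → x = 1 := by
  have : Fact p.Prime := ⟨hp⟩
  obtain ⟨Y, hY⟩ : ∃ Y : Subgroup X, Y = S.comap τ := ⟨_, rfl⟩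
  have hYidx : ¬ p ∣ Y.index := by
    rw [hY, Subgroup.index_comap_of_surjective S hτ]; exact hS
  have hσval : ∀ y : ↥(S.comap τ), ((τ.subgroupComap S y : ↥S) : Γ) = τ (y : X) := fun _ => rfl
  have hσ1 : ∀ y : ↥(S.comap τ), τ.subgroupComap S y = 1 → τ (y : X) = 1 := by
    intro y h
    rw [← hσval, h]; rfl
  have key : (τ.subgroupComap S).ker ≤ commutator ↥(S.comap τ) := by
    intro y hy
    have hty : τ (y : X) = 1 := hσ1 y (MonoidHom.mem_ker.mp hy)
    obtain ⟨hyc, hyp⟩ := hker _ hty
    have hyd : (y : X) ∈ commutator X := hd (MonoidHom.mem_ker.mpr hty)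
    -- a Sylow subgroup of `S.comap τ` containing `y`
    have hpg : IsPGroup p ↥(zpowers y) := by
      have hyp' : y ^ p = 1 := Subtype.ext (by rw [Subgroup.coe_pow]; exact hyp)
      by_cases h1 : y = 1
      · exact IsPGroup.of_card (n := 0) (by rw [Nat.card_zpowers, h1, orderOf_one, pow_zero])
      · exact IsPGroup.of_card (n := 1)
          (by rw [Nat.card_zpowers, pow_one]; exact orderOf_eq_prime hyp' h1)
    obtain ⟨Q, hQ⟩ := hpg.exists_le_sylow
    have hyQ : y ∈ (Q : Subgroup ↥(S.comap τ)) := hQ (mem_zpowers y)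
    -- its image is a Sylow subgroup of `X`
    have hPp : IsPGroup p ↥((Q : Subgroup ↥(S.comap τ)).map (S.comap τ).subtype) :=
      Q.2.map _
    have hPidx : ¬ p ∣ ((Q : Subgroup ↥(S.comap τ)).map (S.comap τ).subtype).index := by
      rw [Subgroup.index_map_subtype]
      intro hdvd
      rcases (Nat.Prime.dvd_mul hp).mp hdvd with h | h
      · exact Q.not_dvd_index h
      · rw [← hY] at h; exact hYidx h
    have hyP : (y : X) ∈ ((hPp.toSylow hPidx : Sylow p X) : Subgroup X) :=
      ⟨y, hyQ, rfl⟩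
    have hPY : ((hPp.toSylow hPidx : Sylow p X) : Subgroup X) ≤ S.comap τ := by
      rintro _ ⟨z, _, rfl⟩
      exact z.2
    have hc := Cfsg.Agent.Helper89.Stem.mem_commutator_sylow (hPp.toSylow hPidx) hyc hyd hyP
    -- push along the inclusion
    have hmap : (commutator ↥((hPp.toSylow hPidx : Sylow p X) : Subgroup X)).map
        (Subgroup.inclusion hPY) ≤ commutator ↥(S.comap τ) := by
      rw [_root_.commutator_def, _root_.commutator_def, Subgroup.map_commutator]
      exact Subgroup.commutator_mono le_top le_top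
    have h2 := hmap (Subgroup.mem_map_of_mem _ hc)
    have e : Subgroup.inclusion hPY ⟨(y : X), hyP⟩ = y := Subtype.ext rfl
    rw [e] at h2
    exact h2
  have hker' : ∀ y : ↥(S.comap τ), τ.subgroupComap S y = 1 →
      y ∈ Subgroup.center ↥(S.comap τ) ∧ y ^ p = 1 := by
    intro y h
    obtain ⟨hyc, hyp⟩ := hker _ (hσ1 y h)
    refine ⟨?_, Subtype.ext (by rw [Subgroup.coe_pow]; exact hyp)⟩
    rw [Subgroup.mem_center_iff]
    intro g
    exact Subtype.ext (Subgroup.mem_center_iff.mp hyc (g : X))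
  intro x hx
  have hxY : x ∈ S.comap τ := by
    rw [Subgroup.mem_comap, hx]; exact one_mem _
  have hσx : τ.subgroupComap S ⟨x, hxY⟩ = 1 := Subtype.ext hx
  have h := H ↥(S.comap τ) (τ.subgroupComap S)
    (MonoidHom.subgroupComap_surjective_of_surjective τ S hτ) hker' key ⟨x, hxY⟩ hσx
  exact congrArg Subtype.val h

end Cfsg.Agent.Helper7
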