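/-
Helper7: piece F4 of CALL S0429 (uniqueness of the strongly regular graph with parameters
(77, 16, 0, 4)): three common neighbours of a nonadjacent pair have at most two common
neighbours with a third vertex nonadjacent to both.
-/
import Cfsg.Agent.Helper67.S77Defs

set_option autoImplicit false
set_option linter.unusedSectionVars false
set_option linter.unusedVariables false

namespace Cfsg.Agent.Helper7.S77F4

open Finset Cfsg.Agent.Helper67.S77

variable {V : Type*} [Fintype V] [DecidableEq V] {G : SimpleGraph V} [DecidableRel G.Adj]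

theorem p_F4 (hG : G.IsSRGWith 77 16 0 4) (h4a : F4a G) : F4 G := by
  intro x y hxy z hz
  by_contra hcon
  have ht : 3 ≤ t3 G x y z := by omega
  rw [mem_Rs] at hz
  obtain ⟨hzx, hzy, hxz, hyz⟩ := hz
  have hNAzx : NA G z x := ⟨hzx, fun h => hxz h.symm⟩
  have hNAzy : NA G z y := ⟨hzy, fun h => hyz h.symm⟩
  have c1 := card_common hG hNAzx
  have c2 := card_common hG hNAzy
  have c0 := card_common hG hxy
  have cz := card_nbr hG z
  -- the neighbours of z away from x and y
  have e1 : (G.neighborFinset z \ (G.neighborFinset x ∪ G.neighborFinset y)).card +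
      (G.neighborFinset z ∩ (G.neighborFinset x ∪ G.neighborFinset y)).card = 16 := by
    rw [Finset.card_sdiff_add_card_inter, cz]
  have e2 : (G.neighborFinset z ∩ (G.neighborFinset x ∪ G.neighborFinset y)).card +
      t3 G x y z = 8 := by
    rw [Finset.inter_union_distrib_left]
    have h := Finset.card_union_add_card_inter (G.neighborFinset z ∩ G.neighborFinset x)
      (G.neighborFinset z ∩ G.neighborFinset y)
    have e3 : (G.neighborFinset z ∩ G.neighborFinset x) ∩
        (G.neighborFinset z ∩ G.neighborFinset y) =
        G.neighborFinset x ∩ G.neighborFinset y ∩ G.neighborFinset z := by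
      ext w
      simp only [Finset.mem_inter]
      tauto
    rw [e3, c1, c2] at h
    exact h
  -- the common neighbours of x and y not adjacent to z
  have e4 : ((G.neighborFinset x ∩ G.neighborFinset y) \ G.neighborFinset z).card +
      t3 G x y z = 4 := by
    have h := Finset.card_sdiff_add_card_inter (G.neighborFinset x ∩ G.neighborFinset y)
      (G.neighborFinset z)
    rw [c0] at h
    exact h
  -- the covering
  have hsub : G.neighborFinset z \ (G.neighborFinset x ∪ G.neighborFinset y) ⊆
      Par G x y ∪ ((G.neighborFinset x ∩ G.neighborFinset y) \ G.neighborFinset z).biUnion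
        (fun a => G.neighborFinset a ∩ G.neighborFinset z) := by
    intro w hw
    rw [Finset.mem_sdiff, Finset.mem_union, SimpleGraph.mem_neighborFinset,
      SimpleGraph.mem_neighborFinset, SimpleGraph.mem_neighborFinset] at hw
    obtain ⟨hzw, hw2⟩ := hw
    have hxw : ¬ G.Adj x w := fun h => hw2 (Or.inl h)
    have hyw : ¬ G.Adj y w := fun h => hw2 (Or.inr h)
    have hwR : w ∈ Rs G x y := by
      rw [mem_Rs]
      refine ⟨?_, ?_, hxw, hyw⟩
      · rintro rfl
        exact hxz hzw.symm
      · rintro rfl
        exact hyz hzw.symm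
    by_cases h0 : t3 G x y w = 0
    · exact Finset.mem_union_left _ (mem_Par.mpr ⟨hwR, h0⟩)
    · apply Finset.mem_union_right
      have hne : (G.neighborFinset x ∩ G.neighborFinset y ∩ G.neighborFinset w).Nonempty :=
        Finset.card_pos.mp (Nat.pos_of_ne_zero h0)
      obtain ⟨a, ha⟩ := hne
      rw [Finset.mem_inter, SimpleGraph.mem_neighborFinset] at ha
      obtain ⟨haM, hwa⟩ := ha
      rw [Finset.mem_biUnion]
      refine ⟨a, ?_, ?_⟩
      · rw [Finset.mem_sdiff, SimpleGraph.mem_neighborFinset]
        exact ⟨haM, tri_free hG hzw.symm hwa⟩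
      · rw [Finset.mem_inter, SimpleGraph.mem_neighborFinset, SimpleGraph.mem_neighborFinset]
        exact ⟨hwa.symm, hzw⟩
  have hcard := Finset.card_le_card hsub
  have h5 : (((G.neighborFinset x ∩ G.neighborFinset y) \ G.neighborFinset z).biUnion
      (fun a => G.neighborFinset a ∩ G.neighborFinset z)).card ≤
      ((G.neighborFinset x ∩ G.neighborFinset y) \ G.neighborFinset z).card * 4 := by
    refine Finset.card_biUnion_le_card_mul _ _ _ ?_
    intro a ha
    rw [Finset.mem_sdiff, Finset.mem_inter, SimpleGraph.mem_neighborFinset,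
      SimpleGraph.mem_neighborFinset, SimpleGraph.mem_neighborFinset] at ha
    obtain ⟨⟨hxa, hya⟩, hza⟩ := ha
    have hNA : NA G a z := by
      refine ⟨?_, fun h => hza h.symm⟩
      rintro rfl
      exact hxz hxa
    exact (card_common hG hNA).le
  have h6 := Finset.card_union_le (Par G x y)
    (((G.neighborFinset x ∩ G.neighborFinset y) \ G.neighborFinset z).biUnion
      (fun a => G.neighborFinset a ∩ G.neighborFinset z))
  have h7 := h4a x y hxy
  omega

end Cfsg.Agent.Helper7.S77F4
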