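/-
Helper7: piece F9 of CALL S0429 (uniqueness of the strongly regular graph with parameters
(77, 16, 0, 4)): a common neighbour of two parallel vertices of a pair is nonadjacent to the
pair and has two common neighbours with it.
-/
import Cfsg.Agent.Helper67.S77Defs

set_option autoImplicit false
set_option linter.unusedSectionVars false
set_option linter.unusedVariables false

namespace Cfsg.Agent.Helper7.S77F9

open Finset Cfsg.Agent.Helper67.S77

variable {V : Type*} [Fintype V] [DecidableEq V] {G : SimpleGraph V} [DecidableRel G.Adj]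

/-- the neighbours of a parallel vertex that are adjacent to neither vertex of the pair -/
theorem card_nbr_T2 (hG : G.IsSRGWith 77 16 0 4) (h7 : F7 G) {x y : V} (hxy : NA G x y)
    {p : V} (hp : p ∈ Par G x y) :
    (((Rs G x y).filter (fun q => t3 G x y q = 2)).filter (fun q => G.Adj q p)).card = 8 := by
  have hp' := hp
  rw [mem_Par, mem_Rs] at hp
  obtain ⟨⟨hpx, hpy, hxp, hyp⟩, htp⟩ := hp
  have hNApx : NA G p x := ⟨hpx, fun h => hxp h.symm⟩
  have hNApy : NA G p y := ⟨hpy, fun h => hyp h.symm⟩
  have c1 := card_common hG hNApx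
  have c2 := card_common hG hNApy
  have cp := card_nbr hG p
  have e0 : ((Rs G x y).filter (fun q => t3 G x y q = 2)).filter (fun q => G.Adj q p) =
      G.neighborFinset p \ (G.neighborFinset x ∪ G.neighborFinset y) := by
    ext q
    rw [Finset.mem_filter, Finset.mem_filter, Finset.mem_sdiff, Finset.mem_union, mem_Rs]
    simp only [SimpleGraph.mem_neighborFinset]
    constructor
    · rintro ⟨⟨⟨-, -, hxq, hyq⟩, -⟩, hqp⟩
      exact ⟨hqp.symm, fun h => h.elim hxq hyq⟩
    · rintro ⟨hpq, hn⟩
      have hxq : ¬ G.Adj x q := fun h => hn (Or.inl h)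
      have hyq : ¬ G.Adj y q := fun h => hn (Or.inr h)
      refine ⟨⟨⟨?_, ?_, hxq, hyq⟩, h7 x y hxy p hp' q hpq hxq hyq⟩, hpq.symm⟩
      · rintro rfl
        exact hxp hpq.symm
      · rintro rfl
        exact hyp hpq.symm
  rw [e0]
  have e1 := Finset.card_sdiff_add_card_inter (G.neighborFinset p)
    (G.neighborFinset x ∪ G.neighborFinset y)
  have e2 : (G.neighborFinset p ∩ (G.neighborFinset x ∪ G.neighborFinset y)).card = 8 := by
    rw [Finset.inter_union_distrib_left]
    have h := Finset.card_union_add_card_inter (G.neighborFinset p ∩ G.neighborFinset x)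
      (G.neighborFinset p ∩ G.neighborFinset y)
    have e3 : (G.neighborFinset p ∩ G.neighborFinset x) ∩
        (G.neighborFinset p ∩ G.neighborFinset y) =
        G.neighborFinset x ∩ G.neighborFinset y ∩ G.neighborFinset p := by
      ext q
      simp only [Finset.mem_inter]
      tauto
    rw [e3, c1, c2] at h
    have h0 : (G.neighborFinset x ∩ G.neighborFinset y ∩ G.neighborFinset p).card = 0 := htp
    omega
  omega

theorem p_F9 (hG : G.IsSRGWith 77 16 0 4) (h5 : F5 G) (h7 : F7 G) (h8 : F8 G) : F9 G := by
  intro x y hxy z hz w hw hzw v hzv hwv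
  -- the third parallel vertex
  have hc3 := h5 x y hxy
  have hc1 : (((Par G x y).erase z).erase w).card = 1 := by
    rw [Finset.card_erase_of_mem (Finset.mem_erase.mpr ⟨hzw.symm, hw⟩),
      Finset.card_erase_of_mem hz, hc3]
  obtain ⟨u, hu⟩ := Finset.card_eq_one.mp hc1
  have huP : u ∈ Par G x y ∧ u ≠ z ∧ u ≠ w := by
    have h : u ∈ ((Par G x y).erase z).erase w := by
      rw [hu]
      exact Finset.mem_singleton_self u
    rw [Finset.mem_erase, Finset.mem_erase] at h
    exact ⟨h.2.2, h.2.1, h.1⟩
  obtain ⟨huPar, huz, huw⟩ := huP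
  have hall : ∀ p ∈ Par G x y, p = z ∨ p = w ∨ p = u := by
    intro p hp
    by_cases h1 : p = z
    · exact Or.inl h1
    by_cases h2 : p = w
    · exact Or.inr (Or.inl h2)
    right
    right
    have h : p ∈ ((Par G x y).erase z).erase w :=
      Finset.mem_erase.mpr ⟨h2, Finset.mem_erase.mpr ⟨h1, hp⟩⟩
    rw [hu] at h
    exact Finset.mem_singleton.mp h
  -- each vertex of T2 is adjacent to exactly two of z, w, u
  have htwo : ∀ q ∈ (Rs G x y).filter (fun q => t3 G x y q = 2),
      (G.Adj q z ∧ G.Adj q w ∧ ¬ G.Adj q u) ∨ (G.Adj q z ∧ ¬ G.Adj q w ∧ G.Adj q u) ∨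
        (¬ G.Adj q z ∧ G.Adj q w ∧ G.Adj q u) := by
    intro q hq
    rw [Finset.mem_filter] at hq
    have h := h8 x y hxy q hq.1 hq.2
    have hP : Par G x y = {z, w, u} := by
      ext p
      simp only [Finset.mem_insert, Finset.mem_singleton]
      constructor
      · exact hall p
      · rintro (rfl | rfl | rfl)
        exacts [hz, hw, huPar]
    rw [hP, Finset.card_filter, Finset.sum_insert (by simp [hzw, huz.symm]),
      Finset.sum_insert (by simp [huw.symm]), Finset.sum_singleton] at h
    by_cases a1 : G.Adj q z <;> by_cases a2 : G.Adj q w <;> by_cases a3 : G.Adj q u <;>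
      simp only [a1, a2, a3, if_true, if_false] at h <;> simp_all
  -- the counts
  have hz8 := card_nbr_T2 hG h7 hxy hz
  have hw8 := card_nbr_T2 hG h7 hxy hw
  have hu8 := card_nbr_T2 hG h7 hxy huPar
  set T2 := (Rs G x y).filter (fun q => t3 G x y q = 2) with hT2
  have s1 := Finset.card_filter_add_card_filter_not (s := T2.filter (fun q => G.Adj q z))
    (fun q => G.Adj q w)
  have s2 := Finset.card_filter_add_card_filter_not (s := T2.filter (fun q => G.Adj q w))
    (fun q => G.Adj q z)
  have s3 := Finset.card_filter_add_card_filter_not (s := T2.filter (fun q => G.Adj q u))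
    (fun q => G.Adj q z)
  have r1 : (T2.filter (fun q => G.Adj q z)).filter (fun q => ¬ G.Adj q w) =
      (T2.filter (fun q => G.Adj q z)).filter (fun q => G.Adj q u) := by
    apply Finset.filter_congr
    intro q hq
    rw [Finset.mem_filter] at hq
    rcases htwo q hq.1 with h | h | h <;> tauto
  have r2 : (T2.filter (fun q => G.Adj q w)).filter (fun q => ¬ G.Adj q z) =
      (T2.filter (fun q => G.Adj q w)).filter (fun q => G.Adj q u) := by
    apply Finset.filter_congr
    intro q hq
    rw [Finset.mem_filter] at hq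
    rcases htwo q hq.1 with h | h | h <;> tauto
  have r3 : (T2.filter (fun q => G.Adj q u)).filter (fun q => ¬ G.Adj q z) =
      (T2.filter (fun q => G.Adj q u)).filter (fun q => G.Adj q w) := by
    apply Finset.filter_congr
    intro q hq
    rw [Finset.mem_filter] at hq
    rcases htwo q hq.1 with h | h | h <;> tauto
  rw [r1, hz8] at s1
  rw [r2, hw8] at s2
  rw [r3, hu8] at s3
  have k1 : (T2.filter (fun q => G.Adj q w)).filter (fun q => G.Adj q z) =
      (T2.filter (fun q => G.Adj q z)).filter (fun q => G.Adj q w) := Finset.filter_comm _ _ _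
  have k2 : (T2.filter (fun q => G.Adj q u)).filter (fun q => G.Adj q z) =
      (T2.filter (fun q => G.Adj q z)).filter (fun q => G.Adj q u) := Finset.filter_comm _ _ _
  have k3 : (T2.filter (fun q => G.Adj q u)).filter (fun q => G.Adj q w) =
      (T2.filter (fun q => G.Adj q w)).filter (fun q => G.Adj q u) := Finset.filter_comm _ _ _
  rw [k1] at s2
  rw [k2, k3] at s3
  have h4 : ((T2.filter (fun q => G.Adj q z)).filter (fun q => G.Adj q w)).card = 4 := by omega
  -- z and w are not adjacent
  have hzw' : ¬ G.Adj z w := by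
    intro h
    have hw' := hw
    rw [mem_Par, mem_Rs] at hw'
    have := h7 x y hxy z hz w h hw'.1.2.2.1 hw'.1.2.2.2
    omega
  have c4 := card_common hG (⟨hzw, hzw'⟩ : NA G z w)
  have hsub : (T2.filter (fun q => G.Adj q z)).filter (fun q => G.Adj q w) ⊆
      G.neighborFinset z ∩ G.neighborFinset w := by
    intro q hq
    rw [Finset.mem_filter, Finset.mem_filter] at hq
    rw [Finset.mem_inter, SimpleGraph.mem_neighborFinset, SimpleGraph.mem_neighborFinset]
    exact ⟨hq.1.2.symm, hq.2.symm⟩
  have heq := Finset.eq_of_subset_of_card_le hsub (by rw [c4, h4])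
  have hv : v ∈ G.neighborFinset z ∩ G.neighborFinset w := by
    rw [Finset.mem_inter, SimpleGraph.mem_neighborFinset, SimpleGraph.mem_neighborFinset]
    exact ⟨hzv, hwv⟩
  rw [← heq, Finset.mem_filter, Finset.mem_filter, hT2, Finset.mem_filter] at hv
  exact hv.1.1

end Cfsg.Agent.Helper7.S77F9
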