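import Mathlib
import Cfsg.Agent.Helper43.S88OEDefs
import Cfsg.Agent.Helper35.ELSUBT

/-!
# Sub-CALL S88OE (helper43), piece MODEL0 (helper7, double): a nondegenerate space of dimension
`2 k` of prescribed type (`k = 0` allowed).
-/

set_option autoImplicit false

namespace Cfsg.Agent.Helper7.S88OE

open Module Polynomial Cfsg Cfsg.Geo
open Cfsg.Agent.Helper43 Cfsg.Agent.Helper43.OrthEven

universe u

section fin

variable {F : Type u} [Field F] [Fintype F]

/-- MODEL0 [S]: a nondegenerate space of dimension `2 k` of prescribed type (`k = 0`: the zero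
space, of plus type; `k ≥ 1`: `Cfsg.Agent.Helper35.EL.el_model`). -/
theorem oe_model0 (k : ℕ) (b : Prop) (hb : k = 0 → b) :
    ∃ (V₀ : Type u) (_ : AddCommGroup V₀) (_ : Module F V₀) (_ : FiniteDimensional F V₀)
      (Q₀ : QuadraticForm F V₀), PolarNondeg Q₀ ∧ finrank F V₀ = 2 * k ∧ (HasTS Q₀ k ↔ b) := by
  rcases Nat.eq_zero_or_pos k with hk | hk
  · subst hk
    refine ⟨PUnit.{u+1}, inferInstance, inferInstance, inferInstance, 0, ?_, ?_, ?_⟩
    · intro v _
      exact Subsingleton.elim _ _
    · rw [Module.finrank_zero_of_subsingleton]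
    · constructor
      · intro _
        exact hb rfl
      · intro _
        exact ⟨⊥, Nat.zero_le _, fun u _ => rfl⟩
  · exact Cfsg.Agent.Helper35.EL.el_model (F := F) k hk b

end fin

end Cfsg.Agent.Helper7.S88OE
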