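import Mathlib
import Cfsg.Agent.Helper43.S88OEDefs

/-!
# Sub-CALL S88OE (helper43), piece PSTOP (helper7, double): the restriction of a quadratic form
to `⊤` and to `⊥`.
-/

set_option autoImplicit false

namespace Cfsg.Agent.Helper7.S88OE

open Module Polynomial Cfsg Cfsg.Geo
open Cfsg.Agent.Helper43 Cfsg.Agent.Helper43.OrthEven

universe u

section lin

variable {F : Type*} [Field F] {Va Vb : Type*} [AddCommGroup Va] [Module F Va] [AddCommGroup Vb]
  [Module F Vb]

/-- the polar form of a restriction -/
theorem pstop_polar (Qa : QuadraticForm F Va) (U : Submodule F Va) (v w : U) :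
    QuadraticMap.polar (Qa.comp U.subtype) v w = QuadraticMap.polar Qa (v : Va) (w : Va) := by
  simp [QuadraticMap.polar]

/-- PSTOP [S] (uses ISO): the restriction to `⊤` and to `⊥`.  (`Submodule.topEquiv` is an isometry;
for `⊥`: the space is trivial (`Subsingleton`), `HasTS _ 0` holds with `U = ⊥`.) -/
theorem oe_top_bot (Qa : QuadraticForm F Va) :
    (PolarNondeg (Qa.comp (⊤ : Submodule F Va).subtype) ↔ PolarNondeg Qa) ∧
      (∀ d, HasTS (Qa.comp (⊤ : Submodule F Va).subtype) d ↔ HasTS Qa d) ∧
      PolarNondeg (Qa.comp (⊥ : Submodule F Va).subtype) ∧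
      HasTS (Qa.comp (⊥ : Submodule F Va).subtype) 0 := by
  refine ⟨⟨?_, ?_⟩, ?_, ?_, ?_⟩
  · intro h v hv
    have h1 := h ⟨v, Submodule.mem_top⟩ (fun w => by rw [pstop_polar]; exact hv (w : Va))
    exact congrArg Subtype.val h1
  · intro h v hv
    apply Subtype.ext
    exact h (v : Va) (fun w => by
      have h2 := hv ⟨w, Submodule.mem_top⟩
      rwa [pstop_polar] at h2)
  · intro d
    constructor
    · intro hTS
      exact hasTS_equiv Qa (Qa.comp (⊤ : Submodule F Va).subtype) Submodule.topEquiv
        (fun z => rfl) hTS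
    · intro hTS
      exact hasTS_equiv (Qa.comp (⊤ : Submodule F Va).subtype) Qa Submodule.topEquiv.symm
        (fun z => rfl) hTS
  · intro v hv
    exact Subsingleton.elim _ _
  · exact ⟨⊥, Nat.zero_le _, fun u hu => by rw [(Submodule.mem_bot F).mp hu]; exact map_zero _⟩

end lin

end Cfsg.Agent.Helper7.S88OE
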