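import Mathlib
import Cfsg.Agent.Helper96.S88Good

set_option autoImplicit false
set_option linter.unusedSectionVars false
set_option linter.unusedVariables false

/-!
# CALL S90 (row S5990, helper98), stage OEG in generic form (helper7): port of helper96's
`Cfsg.Agent.Helper96.S88G.s88g_even_good` to an ambient space of MINUS type.

`s90g_even_arith`: the profile arithmetic (`ρ` blocks, `i ρ = 2 d` forces `ρ` odd).
`s90g_even_good`: generic nondegenerate `Q` of minus type on `ι → F`, `card ι = 2 d`, `T ≠ 1` an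
isometry with `T ^ r = 1`, `i = ord_r(q)` even: an invariant elliptic `m`-space under the condition
of the row.
-/

namespace Cfsg.Agent.Helper7.S90G

open Module Polynomial Cfsg Cfsg.Geo
open Cfsg.Agent.Helper13.TIu Cfsg.Agent.Helper96.OH Cfsg.Agent.Helper96.OHAll
open Cfsg.Agent.Helper96.S88G

variable {ι : Type} [Fintype ι] [DecidableEq ι] {F : Type*} [Field F] (Q : (ι → F) → F)

/-- the profile arithmetic for `i` even, ambient space of minus type. -/
theorem s90g_even_arith (d m i ρ : ℕ) (hi0 : 0 < i) (hm : 2 ≤ m) (hmn : m + 2 ≤ 2 * d)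
    (hρ1 : 1 ≤ ρ) (hρ : i * ρ ≤ 2 * d) (hρo : i * ρ = 2 * d → Odd ρ)
    (hcond : ((2 * d) % i = 0 ∧ (Even ((2 * d) / i) ∨ (m % i = 0 ∧ Odd (m / i)))) ∨
      (0 < (2 * d) % i ∧ i ≤ m ∧ ((0 < m % i ∧ m % i < (2 * d) % i) ∨
        (m % i = 0 ∧ Odd (m / i)) ∨
        (m % i = (2 * d) % i ∧ Even ((2 * d + m - 2 * ((2 * d) % i)) / i))))) :
    ∃ s, s ≤ ρ ∧ i * s ≤ m ∧ m - i * s ≤ 2 * d - i * ρ ∧
      ((0 < m - i * s ∧ m - i * s < 2 * d - i * ρ) ∨ (m - i * s = 0 ∧ Odd s) ∨
        (m - i * s = 2 * d - i * ρ ∧ Even (s + ρ))) := by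
  obtain ⟨n', hn'⟩ : ∃ n', n' = (2 * d) / i := ⟨_, rfl⟩
  obtain ⟨k, hk⟩ : ∃ k, k = (2 * d) % i := ⟨_, rfl⟩
  obtain ⟨m', hm'⟩ : ∃ m', m' = m / i := ⟨_, rfl⟩
  obtain ⟨l, hl⟩ : ∃ l, l = m % i := ⟨_, rfl⟩
  have hnk : i * n' + k = 2 * d := by rw [hn', hk]; exact Nat.div_add_mod (2 * d) i
  have hml : i * m' + l = m := by rw [hm', hl]; exact Nat.div_add_mod m i
  have hki : k < i := by rw [hk]; exact Nat.mod_lt _ hi0
  have hli : l < i := by rw [hl]; exact Nat.mod_lt _ hi0
  rw [← hn', ← hk, ← hm', ← hl] at hcond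
  have hρn : ρ ≤ n' := by
    by_contra hcon
    have hcon' : n' + 1 ≤ ρ := by omega
    have h1 : i * (n' + 1) ≤ i * ρ := Nat.mul_le_mul_left i hcon'
    rw [Nat.mul_succ] at h1
    omega
  have h0 : i * ρ ≤ i * n' := Nat.mul_le_mul_left i hρn
  rcases Nat.lt_or_ge ρ m' with hlt | hge
  · -- `s = ρ`
    have h1 : i * (ρ + 1) ≤ i * m' := Nat.mul_le_mul_left i hlt
    rw [Nat.mul_succ] at h1
    exact ⟨ρ, le_rfl, by omega, by omega, Or.inl ⟨by omega, by omega⟩⟩
  · have h3 : i * m' ≤ i * ρ := Nat.mul_le_mul_left i hge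
    rcases Nat.eq_zero_or_pos l with hl0 | hlpos
    · -- `i ∣ m`
      have hm'1 : 1 ≤ m' := by
        rcases Nat.eq_zero_or_pos m' with h0' | h0'
        · rw [h0'] at hml; omega
        · exact h0'
      rcases Nat.even_or_odd m' with hm'e | hm'o
      · -- `m / i` even: `s = m / i - 1`
        have h4 : i * (m' - 1) = i * m' - i := Nat.mul_sub_one i m'
        have h5 : i ≤ i * m' := Nat.le_mul_of_pos_right i hm'1
        have hρlt : ρ < n' := by
          by_contra hcon
          have h7 : ρ = n' := by omega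
          have h7' : i * ρ = i * n' := by rw [h7]
          rcases hcond with ⟨hk0, hA⟩ | ⟨hk0, him, hB⟩
          · rcases hA with hn'e | ⟨_, hm'odd⟩
            · have h8 : Odd ρ := hρo (by omega)
              rw [h7] at h8
              exact (Nat.not_even_iff_odd.mpr h8) hn'e
            · exact (Nat.not_even_iff_odd.mpr hm'odd) hm'e
          · rcases hB with ⟨hl1, _⟩ | ⟨_, hm'odd⟩ | ⟨hlk, _⟩
            · omega
            · exact (Nat.not_even_iff_odd.mpr hm'odd) hm'e
            · omega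
        have h7 : i * (ρ + 1) ≤ i * n' := Nat.mul_le_mul_left i hρlt
        rw [Nat.mul_succ] at h7
        rcases Nat.lt_or_ge (ρ + 1) n' with h6 | h6
        · have h8 : i * (ρ + 2) ≤ i * n' := Nat.mul_le_mul_left i h6
          have h9 : i * (ρ + 2) = i * ρ + 2 * i := by ring
          exact ⟨m' - 1, by omega, by omega, by omega, Or.inl ⟨by omega, by omega⟩⟩
        · have h8 : ρ + 1 = n' := by omega
          have h9 : i * n' = i * ρ + i := by rw [← h8, Nat.mul_succ]
          rcases Nat.eq_zero_or_pos k with hk0 | hkpos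
          · have hn'e : Even n' := by
              rcases hcond with ⟨_, hA⟩ | ⟨hk0', _, _⟩
              · rcases hA with hn'e | ⟨_, hm'odd⟩
                · exact hn'e
                · exact absurd hm'e (Nat.not_even_iff_odd.mpr hm'odd)
              · omega
            refine ⟨m' - 1, by omega, by omega, by omega, Or.inr (Or.inr ⟨by omega, ?_⟩)⟩
            obtain ⟨a, ha⟩ := hm'e
            obtain ⟨b, hb⟩ := hn'e
            exact ⟨a + b - 1, by omega⟩
          · exact ⟨m' - 1, by omega, by omega, by omega, Or.inl ⟨by omega, by omega⟩⟩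
      · exact ⟨m', hge, by omega, by omega, Or.inr (Or.inl ⟨by omega, hm'o⟩)⟩
    · -- `i ∤ m`: `s = m / i`
      rcases Nat.lt_or_ge ρ n' with h6 | h6
      · have h7 : i * (ρ + 1) ≤ i * n' := Nat.mul_le_mul_left i h6
        rw [Nat.mul_succ] at h7
        exact ⟨m', hge, by omega, by omega, Or.inl ⟨by omega, by omega⟩⟩
      · have h7 : ρ = n' := by omega
        have h7' : i * ρ = i * n' := by rw [h7]
        rcases hcond with ⟨hk0, hA⟩ | ⟨hk0, him, hB⟩
        · exfalso
          rcases hA with hn'e | ⟨hl0, _⟩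
          · have h8 : Odd ρ := hρo (by omega)
            rw [h7] at h8
            exact (Nat.not_even_iff_odd.mpr h8) hn'e
          · omega
        · rcases hB with ⟨hl1, hlk⟩ | ⟨hl0, _⟩ | ⟨hlk, hev⟩
          · exact ⟨m', hge, by omega, by omega, Or.inl ⟨by omega, by omega⟩⟩
          · omega
          · have hsum : (2 * d + m - 2 * k) / i = n' + m' := by
              have h1 : 2 * d + m - 2 * k = i * (n' + m') := by
                rw [Nat.mul_add]; omega
              rw [h1, Nat.mul_div_cancel_left _ hi0]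
            rw [hsum] at hev
            refine ⟨m', hge, by omega, by omega, Or.inr (Or.inr ⟨by omega, ?_⟩)⟩
            rw [h7, add_comm]
            exact hev

/-- OEG, generic: `i` even, `Q` of minus type, `T ≠ 1`. -/
theorem s90g_even_good [Fintype F] (hQ : IsNondegenerateQuadraticForm Q) (d m : ℕ)
    (hcard : Fintype.card ι = 2 * d) (hmi : ¬ OPl Q ⊤) (hm : 2 ≤ m) (hme : Even m)
    (hmn : m + 2 ≤ 2 * d)
    (T : Module.End F (ι → F)) (hT : OPres Q T) (r : ℕ) [Fact r.Prime] (hr2 : 2 < r)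
    (hrF : (r : F) ≠ 0) (hTr : T ^ r = 1) (hT1 : T ≠ 1) (i : ℕ)
    (hi : i = orderOf ((Fintype.card F : ℕ) : ZMod r)) (heven : Even i)
    (hcond : ((2 * d) % i = 0 ∧ (Even ((2 * d) / i) ∨ (m % i = 0 ∧ Odd (m / i)))) ∨
      (0 < (2 * d) % i ∧ i ≤ m ∧ ((0 < m % i ∧ m % i < (2 * d) % i) ∨
        (m % i = 0 ∧ Odd (m / i)) ∨
        (m % i = (2 * d) % i ∧ Even ((2 * d + m - 2 * ((2 * d) % i)) / i))))) :
    ∃ W : Submodule F (ι → F), (finrank F W = m ∧ ONd Q W ∧ ¬ OPl Q W) ∧ W.map T ≤ W := by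
  have hc : i = if Even i then i else 2 * i := by rw [if_pos heven]
  have hi0 : 0 < i := by
    rw [hi]
    exact Cfsg.Agent.Helper13.TIsp.ti_ord_pos_of_ne r hrF
  obtain ⟨ρ, Fx, P, hρ, hn, hFx, hP, horth, hsup, hfix, hPT, hPk, hρ1, hsub⟩ :=
    s88g_split Q hQ T hT r hr2 hrF hTr i i hi hc
  have hρ1' := hρ1 hT1
  have hPeven : Even (finrank F P) := by
    rw [hρ]
    exact heven.mul_right ρ
  have hFxeven : Even (finrank F Fx) := by
    have h1 : Even (finrank F P + finrank F Fx) := by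
      rw [hn, hcard]
      exact even_two_mul d
    exact (Nat.even_add.mp h1).mp hPeven
  have htyeven : ∀ (N : Submodule F (ι → F)) (s : ℕ), N.map T ≤ N → ONd Q N →
      finrank F N = i * s → N ⊓ LinearMap.ker (T - 1) = ⊥ → (OPl Q N ↔ Even s) := by
    intro N s hNT hN hNdim hNk
    have h := oall_type_even Q hQ T hT r hr2 hrF hTr (by rw [← hi]; exact heven) N hNT hN hNk
    rw [← hi, hNdim, Nat.mul_div_cancel_left _ hi0] at h
    exact h
  have hPty : OPl Q P ↔ Even ρ := htyeven P ρ hPT hP hρ hPk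
  have hFxty : OPl Q Fx ↔ ¬ Even ρ := by
    have h1 := Cfsg.Agent.Helper33.o_type_mul Q hQ Fx P hFx hP horth hFxeven hPeven
    rw [hsup] at h1
    have h2 : ¬ (OPl Q Fx ↔ OPl Q P) := fun h => hmi (h1.mpr h)
    rw [← hPty]
    constructor
    · intro ha hb
      exact h2 ⟨fun _ => hb, fun _ => ha⟩
    · intro hb
      by_contra ha
      exact h2 ⟨fun h => absurd h ha, fun h => absurd h hb⟩
  have hFxdim : finrank F Fx = 2 * d - i * ρ := by omega
  have hρle : i * ρ ≤ 2 * d := by omega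
  have hρo : i * ρ = 2 * d → Odd ρ := by
    intro h
    have h0 : finrank F Fx = 0 := by omega
    have hFx0 : Fx = ⊥ := Submodule.finrank_eq_zero.mp h0
    rw [← Nat.not_even_iff_odd, ← hFxty, hFx0]
    exact Cfsg.Agent.Helper33.o_plus_bot Q hQ
  obtain ⟨s, hsρ, hsm, hwle, hcases⟩ := s90g_even_arith d m i ρ hi0 hm hmn hρ1' hρle hρo hcond
  obtain ⟨N, hNP, hNT, hN, hNdim, hNk⟩ := hsub s hsρ
  have hNty : OPl Q N ↔ Even s := htyeven N s hNT hN hNdim hNk
  have hNeven : Even (finrank F N) := by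
    rw [hNdim]
    exact heven.mul_right s
  rcases hcases with ⟨hw0, hwlt⟩ | ⟨hw0, hsodd⟩ | ⟨hwf, hsev⟩
  · -- a proper nonzero part of the fixed space
    obtain ⟨k, hk⟩ := hFxeven
    have hweven : Even (m - i * s) :=
      (Nat.even_sub hsm).mpr ⟨fun _ => heven.mul_right s, fun _ => hme⟩
    obtain ⟨X, hXFx, hX, hXdim, hXty⟩ :=
      Cfsg.Agent.Helper35.EL.el_sub Q hQ Fx hFx k (by omega) (m - i * s) hweven hw0
        (by omega) (¬ OPl Q N)
    have horthX : OOrth Q X N := fun u hu v hv => horth u (hXFx hu) v (hNP hv)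
    refine ⟨X ⊔ N, ⟨?_, ?_, ?_⟩, ?_⟩
    · rw [Cfsg.Agent.Helper33.OType.finrank_sup_of_orth Q X N hX horthX, hXdim, hNdim]
      omega
    · exact Cfsg.Agent.Helper33.OType.nondeg_sup Q hQ X N hX hN horthX
    · intro hW
      have h1 := (Cfsg.Agent.Helper33.o_type_mul Q hQ X N hX hN horthX
        (by rw [hXdim]; exact hweven) hNeven).mp hW
      exact not_iff_self (hXty.symm.trans h1)
    · rw [Submodule.map_sup]
      refine sup_le_sup ?_ hNT
      rintro _ ⟨x, hx, rfl⟩
      rw [hfix x (hXFx hx)]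
      exact hx
  · refine ⟨N, ⟨by rw [hNdim]; omega, hN, ?_⟩, hNT⟩
    rw [hNty]
    exact Nat.not_even_iff_odd.mpr hsodd
  · have horthX : OOrth Q Fx N := fun u hu v hv => horth u hu v (hNP hv)
    refine ⟨Fx ⊔ N, ⟨?_, ?_, ?_⟩, ?_⟩
    · rw [Cfsg.Agent.Helper33.OType.finrank_sup_of_orth Q Fx N hFx horthX, hNdim]
      omega
    · exact Cfsg.Agent.Helper33.OType.nondeg_sup Q hQ Fx N hFx hN horthX
    · intro hW
      have h1 := (Cfsg.Agent.Helper33.o_type_mul Q hQ Fx N hFx hN horthX hFxeven hNeven).mp hW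
      have h3 : ¬ Even ρ ↔ Even s := hFxty.symm.trans (h1.trans hNty)
      have h4 : Even s ↔ Even ρ := Nat.even_add.mp hsev
      exact not_iff_self (h3.trans h4)
    · rw [Submodule.map_sup]
      refine sup_le_sup ?_ hNT
      rintro _ ⟨x, hx, rfl⟩
      rw [hfix x hx]
      exact hx

end Cfsg.Agent.Helper7.S90G
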