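import Mathlib
import Cfsg.Prelude.Def_GeometricClasses
import Cfsg.Prelude.Def_Classical
import Cfsg.Agent.Helper58.TSDefs
import Cfsg.Agent.Helper43.PrimeOrdO3
import Cfsg.Agent.Helper33.OType
import Cfsg.Agent.Helper5.TBBLK
import Cfsg.Agent.Helper93.TBCYCB

set_option autoImplicit false

/-!
# Sub-CALL TB (helper43) of CALL TS (helper58), piece BLKO (helper7): the block for `i` odd,
`a` dual pairs.
-/

namespace Cfsg.Agent.Helper7.TB

open Module Polynomial Cfsg Cfsg.Geo Cfsg.Agent.Helper58.TS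
open Cfsg.Agent.Helper43 Cfsg.Agent.Helper43.OrthEven Cfsg.Agent.Helper43.CycFactors
  Cfsg.Agent.Helper43.PrimeOrdMat
open scoped MatrixGroups
open Cfsg.Agent.Helper5.TB Cfsg.Agent.Helper93.TB

universe u

section lvl2

variable {F : Type u} [Field F] [Fintype F]

/-- BLKO [M] (uses BLK, CYCB): the block for `i` odd: `a` dual pairs. -/
theorem tb_blk_odd (p : ℕ) [Fact p.Prime] [CharP F p] (r : ℕ) [Fact r.Prime] (hr2 : 2 < r)
    (hrp : r ≠ p) (hodd : Odd (orderOf ((Fintype.card F : ℕ) : ZMod r))) (a : ℕ) :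
    ∃ (V : Type u) (_ : AddCommGroup V) (_ : Module F V) (_ : FiniteDimensional F V)
      (Q : QuadraticForm F V) (T : Module.End F V),
      PolarNondeg Q ∧ (∀ v, Q (T v) = Q v) ∧ aeval T (cyclotomic r F) = 0 ∧
      finrank F V = 2 * (orderOf ((Fintype.card F : ℕ) : ZMod r) * a) ∧
      HasTS Q (orderOf ((Fintype.card F : ℕ) : ZMod r) * a) ∧
      ∀ U : Submodule F V, U.map T ≤ U → (∀ u ∈ U, Q u = 0) →
        ∃ s, finrank F U = orderOf ((Fintype.card F : ℕ) : ZMod r) * s ∧ s ≤ a := by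
  classical
  have hr : r.Prime := Fact.out
  have hpp : p.Prime := Fact.out
  have hr2' : r ≠ 2 := by omega
  have hrF : (r : F) ≠ 0 := by
    intro h0
    have h1 : p ∣ r := (CharP.cast_eq_zero_iff F p r).mp h0
    exact hrp ((Nat.prime_dvd_prime_iff_eq hpp hr).mp h1).symm
  have hipos : 0 < orderOf ((Fintype.card F : ℕ) : ZMod r) :=
    CycFactors.orderOf_pos_of_card (p := p) rfl hr hrp
  have hcard := CycFactors.cycJ_card_mul (p := p) (F := F) rfl hr hrp
  have hne : (cycJ F r).Nonempty := by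
    rw [← Finset.card_pos]
    by_contra h0
    have h1 : (cycJ F r).card = 0 := by omega
    rw [h1, zero_mul] at hcard
    omega
  obtain ⟨P₀, hP₀⟩ := hne
  have hP₀' := CycFactors.mem_cycJ.mp hP₀
  have h0 := StarPoly.coeff_zero_ne_of_mem hr hP₀
  have hsP₀ : SpReal.star P₀ ∈ cycJ F r := StarPoly.star_mem_cycJ hr hrF hP₀
  have hneq : SpReal.star P₀ ≠ P₀ :=
    StarPoly.star_ne_self_of_odd (p := p) rfl hr hr2' hrp hodd hP₀
  have hss : SpReal.star (SpReal.star P₀) = P₀ := StarPoly.star_star hP₀'.1 h0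
  obtain ⟨c, hc⟩ : ∃ c : F[X] → ℕ,
      c = fun P => if P = P₀ ∨ P = SpReal.star P₀ then a else 0 := ⟨_, rfl⟩
  have hsym : ∀ P ∈ cycJ F r, c (SpReal.star P) = c P := by
    intro P hP
    have hP' := CycFactors.mem_cycJ.mp hP
    have hP0 := StarPoly.coeff_zero_ne_of_mem hr hP
    have hssP : SpReal.star (SpReal.star P) = P := StarPoly.star_star hP'.1 hP0
    have e1 : (SpReal.star P = P₀ ∨ SpReal.star P = SpReal.star P₀) ↔
        (P = P₀ ∨ P = SpReal.star P₀) := by
      constructor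
      · rintro (h | h)
        · right
          rw [← h, hssP]
        · left
          rw [← hssP, h, hss]
      · rintro (h | h)
        · right
          rw [h]
        · left
          rw [h, hss]
    rw [hc]
    show (if SpReal.star P = P₀ ∨ SpReal.star P = SpReal.star P₀ then a else 0) =
      if P = P₀ ∨ P = SpReal.star P₀ then a else 0
    by_cases h : P = P₀ ∨ P = SpReal.star P₀
    · rw [if_pos h, if_pos (e1.mpr h)]
    · rw [if_neg h, if_neg (fun h' => h (e1.mp h'))]
  obtain ⟨V, iV1, iV2, iV3, Q, T, l, hnd, hT, hcyc, hch, hfr, hfl, hodd'⟩ :=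
    tb_blk p r hr2 hrp c hsym
  have hsum : ∑ P ∈ cycJ F r, c P = 2 * a := by
    rw [hc]
    rw [Finset.sum_ite, Finset.sum_const_zero, add_zero, Finset.sum_const, smul_eq_mul]
    have hfil : (cycJ F r).filter (fun P => P = P₀ ∨ P = SpReal.star P₀) =
        {P₀, SpReal.star P₀} := by
      ext P
      simp only [Finset.mem_filter, Finset.mem_insert, Finset.mem_singleton]
      constructor
      · rintro ⟨-, h⟩
        exact h
      · rintro (h | h)
        · exact ⟨h ▸ hP₀, Or.inl h⟩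
        · exact ⟨h ▸ hsP₀, Or.inr h⟩
    rw [hfil, Finset.card_pair hneq.symm]
  have hts := hodd' hodd
  have hcb := fun (U : Submodule F V) (hUT : U.map T ≤ U) (hU : ∀ u ∈ U, Q u = 0) =>
    tb_cyc_bound r hrF Q T hnd hT hcyc U hUT hU
  rw [hsum] at hfr
  generalize orderOf ((Fintype.card F : ℕ) : ZMod r) = i at *
  have hin : i * (2 * a) = 2 * (i * a) := by ring
  have hl : l = i * a := by omega
  refine ⟨V, iV1, iV2, iV3, Q, T, hnd, hT, hcyc, ?_, ?_, ?_⟩
  · rw [hfl, hl]
  · rw [← hl]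
    exact hts
  · intro U hUT hU
    obtain ⟨s, hs, hle⟩ := hcb U hUT hU
    refine ⟨s, hs, ?_⟩
    have h1 : i * s ≤ i * a := by
      have e1 : 2 * (i * s) ≤ 2 * (i * a) := by
        rw [← hs, ← hin, ← hfr]
        exact hle
      omega
    exact Nat.le_of_mul_le_mul_left h1 hipos

end lvl2

end Cfsg.Agent.Helper7.TB
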