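import Mathlib
import Cfsg.Agent.Helper48.TSCDefs

set_option autoImplicit false

/-!
# Sub-CALL TSC (helper48; COUNT stage of helper58's CALL TS), piece BIJ (helper7)
-/

namespace Cfsg.Agent.Helper7.TSC

open Module Cfsg Cfsg.Geo Cfsg.Agent.Helper58.TS
open Cfsg.Agent.Helper43 Cfsg.Agent.Helper43.OrthEven Cfsg.Agent.Helper48.TSC

/-- BIJ (pure algebra). The fibre over `1`: `y ↦ u + y - Q y • w` is a bijection from
`{y ⟂ v, y ⟂ w, y ⟂ u}` onto `{x singular, x ⟂ v, polar x w = 1}`, with inverse
`x ↦ x - u - polar x u • w`. -/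
theorem tsc_bij {F : Type*} [Field F] {V : Type*} [AddCommGroup V] [Module F V]
    (Q : QuadraticForm F V) (j : ℕ) (v : Fin j → V) (w u : V)
    (hQw : Q w = 0) (hvw : ∀ a, QuadraticMap.polar Q (v a) w = 0)
    (hQu : Q u = 0) (huw : QuadraticMap.polar Q u w = 1)
    (huv : ∀ a, QuadraticMap.polar Q u (v a) = 0) :
    Nat.card {x : V // (Q x = 0 ∧ ∀ a, QuadraticMap.polar Q x (v a) = 0) ∧
        QuadraticMap.polar Q x w = 1} =
      Nat.card {y : V // (∀ a, QuadraticMap.polar Q y (v a) = 0) ∧
        QuadraticMap.polar Q y w = 0 ∧ QuadraticMap.polar Q y u = 0} := by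
  have hwv : ∀ a, QuadraticMap.polar Q w (v a) = 0 := by
    intro a
    rw [QuadraticMap.polar_comm]
    exact hvw a
  have hww : QuadraticMap.polar Q w w = 0 := by
    rw [QuadraticMap.polar_self, hQw, smul_zero]
  have huu : QuadraticMap.polar Q u u = 0 := by
    rw [QuadraticMap.polar_self, hQu, smul_zero]
  have hwu : QuadraticMap.polar Q w u = 1 := by
    rw [QuadraticMap.polar_comm]
    exact huw
  -- `Q (a + c • w)` for `a` with known `polar a w`
  have hQadd : ∀ (a : V) (c : F), Q (a + c • w) = Q a + c * QuadraticMap.polar Q a w := by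
    intro a c
    rw [QuadraticMap.map_add Q a (c • w), QuadraticMap.map_smul, hQw, smul_zero, add_zero,
      QuadraticMap.polar_smul_right, smul_eq_mul]
  refine Nat.card_congr
    { toFun := fun x => ⟨x.1 - u - QuadraticMap.polar Q x.1 u • w, ?_, ?_, ?_⟩
      invFun := fun y => ⟨u + y.1 - Q y.1 • w, ⟨?_, ?_⟩, ?_⟩
      left_inv := ?_
      right_inv := ?_ }
  · intro a
    rw [QuadraticMap.polar_sub_left, QuadraticMap.polar_sub_left, QuadraticMap.polar_smul_left,
      x.2.1.2 a, huv a, hwv a]
    simp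
  · rw [QuadraticMap.polar_sub_left, QuadraticMap.polar_sub_left, QuadraticMap.polar_smul_left,
      x.2.2, huw, hww]
    simp
  · rw [QuadraticMap.polar_sub_left, QuadraticMap.polar_sub_left, QuadraticMap.polar_smul_left,
      huu, hwu]
    simp
  · -- `Q (u + y - Q y • w) = 0`
    have hyu : QuadraticMap.polar Q u y.1 = 0 := by
      rw [QuadraticMap.polar_comm]
      exact y.2.2.2
    have h1 : u + y.1 - Q y.1 • w = (u + y.1) + (- Q y.1) • w := by
      rw [neg_smul, sub_eq_add_neg]
    rw [h1, hQadd, QuadraticMap.map_add Q u y.1, hQu, hyu, QuadraticMap.polar_add_left, huw, y.2.2.1]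
    ring
  · intro a
    rw [QuadraticMap.polar_sub_left, QuadraticMap.polar_add_left, QuadraticMap.polar_smul_left,
      huv a, y.2.1 a, hwv a]
    simp
  · rw [QuadraticMap.polar_sub_left, QuadraticMap.polar_add_left, QuadraticMap.polar_smul_left,
      huw, y.2.2.1, hww]
    simp
  · -- left inverse
    intro x
    apply Subtype.ext
    obtain ⟨x, ⟨hx1, hx2⟩, hx3⟩ := x
    show u + (x - u - QuadraticMap.polar Q x u • w) -
      Q (x - u - QuadraticMap.polar Q x u • w) • w = x
    have hQy : Q (x - u - QuadraticMap.polar Q x u • w) = - QuadraticMap.polar Q x u := by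
      have h1 : x - u - QuadraticMap.polar Q x u • w =
          (x + -u) + (- QuadraticMap.polar Q x u) • w := by
        rw [neg_smul, sub_eq_add_neg, sub_eq_add_neg]
      rw [h1, hQadd, QuadraticMap.map_add Q x (-u), QuadraticMap.map_neg, hx1, hQu,
        QuadraticMap.polar_neg_right, QuadraticMap.polar_add_left, QuadraticMap.polar_neg_left,
        hx3, huw]
      ring
    rw [hQy, neg_smul]
    abel
  · -- right inverse
    intro y
    apply Subtype.ext
    obtain ⟨y, hy1, hy2, hy3⟩ := y
    show u + y - Q y • w - u - QuadraticMap.polar Q (u + y - Q y • w) u • w = y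
    have hp : QuadraticMap.polar Q (u + y - Q y • w) u = - Q y := by
      rw [QuadraticMap.polar_sub_left, QuadraticMap.polar_add_left,
        QuadraticMap.polar_smul_left, huu, hy3, hwu]
      simp
    rw [hp, neg_smul]
    abel

end Cfsg.Agent.Helper7.TSC
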