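import Mathlib
import Cfsg.Agent.Helper48.TSCDefs

set_option autoImplicit false

/-!
# Sub-CALL TSC (helper48; COUNT stage of helper58's CALL TS), piece BR (helper7)
-/

namespace Cfsg.Agent.Helper7.TSC

open Module Cfsg Cfsg.Geo Cfsg.Agent.Helper58.TS
open Cfsg.Agent.Helper43 Cfsg.Agent.Helper43.OrthEven Cfsg.Agent.Helper48.TSC

/-- BR. Bridge between the Prelude type and `HasTS` for the bundled form
`Cfsg.Agent.Helper98.op_qf Q hQ`. -/
theorem tsc_bridge {ι : Type} [Fintype ι] [DecidableEq ι] {F : Type*} [Field F] [Fintype F]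
    (Q : (ι → F) → F) (hQ : IsNondegenerateQuadraticForm Q) (d : ℕ)
    (hcard : Fintype.card ι = 2 * d) :
    IsPlusTypeOn Q ⊤ ↔ HasTS (Cfsg.Agent.Helper98.op_qf Q hQ) d := by
  have hV : finrank F (ι → F) = 2 * d := by
    rw [Module.finrank_fintype_fun_eq_card, hcard]
  have htop : finrank F (⊤ : Submodule F (ι → F)) = 2 * d := by
    rw [finrank_top, hV]
  constructor
  · rintro ⟨U, -, hts, hd⟩
    exact ⟨U, by omega, fun u hu => hts u hu⟩
  · rintro ⟨U, hdU, hQU⟩
    have hnd := Cfsg.Agent.Helper98.op_qf_nondeg Q hQ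
    have hle : U ≤ LinearMap.BilinForm.orthogonal
        (QuadraticMap.polarBilin (Cfsg.Agent.Helper98.op_qf Q hQ)) U := by
      intro u hu
      rw [LinearMap.BilinForm.mem_orthogonal_iff]
      intro n hn
      rw [QuadraticMap.polarBilin_apply_apply, QuadraticMap.polar, hQU _ (U.add_mem hn hu),
        hQU n hn, hQU u hu]
      simp
    have hfo := LinearMap.BilinForm.finrank_orthogonal hnd U
    have h2 := Submodule.finrank_mono hle
    refine ⟨U, le_top, fun u hu => hQU u hu, ?_⟩
    omega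

end Cfsg.Agent.Helper7.TSC
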