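import Mathlib
import Cfsg.Agent.Helper48.TSCDefs

set_option autoImplicit false

/-!
# Sub-CALL TSC (helper48; COUNT stage of helper58's CALL TS), piece HYP (helper7)
-/

namespace Cfsg.Agent.Helper7.TSC

open Module Cfsg Cfsg.Geo Cfsg.Agent.Helper58.TS
open Cfsg.Agent.Helper43 Cfsg.Agent.Helper43.OrthEven Cfsg.Agent.Helper48.TSC

/-- HYP. A singular vector `u` with `polar u w = 1`, orthogonal to the family `v`. -/
theorem tsc_hyp {F : Type*} [Field F] [Fintype F] {V : Type*} [AddCommGroup V] [Module F V]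
    [FiniteDimensional F V] (Q : QuadraticForm F V)
    (hker : ∀ (k : ℕ) (u : Fin k → V), LinearIndependent F u →
      Nat.card {x : V // ∀ a, QuadraticMap.polar Q x (u a) = 0} =
        Fintype.card F ^ (finrank F V - k))
    (j : ℕ) (v : Fin j → V) (w : V)
    (hli : LinearIndependent F v) (hw : w ∉ Submodule.span F (Set.range v)) (hQw : Q w = 0)
    (hvw : ∀ a, QuadraticMap.polar Q (v a) w = 0) :
    ∃ u : V, Q u = 0 ∧ QuadraticMap.polar Q u w = 1 ∧ ∀ a, QuadraticMap.polar Q u (v a) = 0 := by
  classical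
  have hfinV : Finite V := Module.finite_of_finite F
  have hli1 : LinearIndependent F (Fin.snoc v w : Fin (j + 1) → V) :=
    linearIndependent_finSnoc.mpr ⟨hli, hw⟩
  have hdim : j + 1 ≤ finrank F V := by
    have h1 := hli1.fintype_card_le_finrank
    rwa [Fintype.card_fin] at h1
  have hc0 := hker j v hli
  have hc1 := hker (j + 1) (Fin.snoc v w) hli1
  -- some `x₀ ⟂ v` has `polar x₀ w ≠ 0`
  have hex : ∃ x₀ : V, (∀ a, QuadraticMap.polar Q x₀ (v a) = 0) ∧
      QuadraticMap.polar Q x₀ w ≠ 0 := by
    by_contra hcon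
    push Not at hcon
    have hinj : Function.Injective
        (fun x : {x : V // ∀ a, QuadraticMap.polar Q x (v a) = 0} =>
          (⟨x.1, by
            intro a
            induction a using Fin.lastCases with
            | last =>
              rw [Fin.snoc_last]
              exact hcon x.1 x.2
            | cast a =>
              rw [Fin.snoc_castSucc]
              exact x.2 a⟩ :
            {x : V // ∀ a, QuadraticMap.polar Q x ((Fin.snoc v w : Fin (j + 1) → V) a) = 0})) := by
      intro x y hxy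
      apply Subtype.ext
      have h := congrArg Subtype.val hxy
      exact h
    have hle := Nat.card_le_card_of_injective _ hinj
    rw [hc0, hc1] at hle
    have hq : 1 < Fintype.card F := Fintype.one_lt_card
    have hlt : Fintype.card F ^ (finrank F V - (j + 1)) < Fintype.card F ^ (finrank F V - j) :=
      Nat.pow_lt_pow_right hq (by omega)
    omega
  obtain ⟨x₀, hx₀v, hx₀w⟩ := hex
  have hwv : ∀ a, QuadraticMap.polar Q w (v a) = 0 := by
    intro a
    rw [QuadraticMap.polar_comm]
    exact hvw a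
  have hww : QuadraticMap.polar Q w w = 0 := by
    rw [QuadraticMap.polar_self, hQw, smul_zero]
  -- scale
  obtain ⟨u₀, hu₀⟩ : ∃ u₀ : V, u₀ = (QuadraticMap.polar Q x₀ w)⁻¹ • x₀ := ⟨_, rfl⟩
  have hu₀w : QuadraticMap.polar Q u₀ w = 1 := by
    rw [hu₀, QuadraticMap.polar_smul_left, smul_eq_mul, inv_mul_cancel₀ hx₀w]
  have hu₀v : ∀ a, QuadraticMap.polar Q u₀ (v a) = 0 := by
    intro a
    rw [hu₀, QuadraticMap.polar_smul_left, hx₀v a, smul_zero]
  refine ⟨u₀ + (- Q u₀) • w, ?_, ?_, ?_⟩
  · rw [QuadraticMap.map_add Q u₀ ((- Q u₀) • w), QuadraticMap.map_smul, hQw, smul_zero, add_zero,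
      QuadraticMap.polar_smul_right, hu₀w, smul_eq_mul]
    ring
  · rw [QuadraticMap.polar_add_left, QuadraticMap.polar_smul_left, hu₀w, hww, smul_zero, add_zero]
  · intro a
    rw [QuadraticMap.polar_add_left, QuadraticMap.polar_smul_left, hu₀v a, hwv a, smul_zero,
      add_zero]

end Cfsg.Agent.Helper7.TSC
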