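import Mathlib
import Cfsg.Agent.S1027
import Cfsg.Agent.S1037
import Cfsg.Agent.S1048
import Cfsg.Agent.S1053

/-!
# CALL S2314 (helper40), piece CV5 (helper7): the assembly, with the pieces SYL, CV2, CV3, CV6
as explicit hypotheses (in exactly the skeleton's form).
-/

set_option autoImplicit false

namespace Cfsg.Agent.Helper7.UCCV5Pre

open Cfsg.Lie

variable {F : Type*} [Field F] [Fintype F] {D : ChevalleyDatum}

/-- `U ≤ P_J`. -/
theorem posUnipotent_le_parabolic (J : Set ℕ) : D.posUnipotent F ≤ D.parabolicSubgroup F J := by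
  unfold ChevalleyDatum.parabolicSubgroup ChevalleyDatum.borelSubgroup
  exact le_sup_left.trans le_sup_left

/-- `U_J ≤ U`. -/
theorem unipotentRadical_le_posUnipotent (J : Set ℕ) :
    D.unipotentRadical F J ≤ D.posUnipotent F := by
  unfold ChevalleyDatum.unipotentRadical ChevalleyDatum.posUnipotent
  apply Subgroup.closure_mono
  rintro g ⟨r, t, hr, -, hg⟩
  exact ⟨r, t, hr, hg⟩

/-- `U ⊓ V = ⊥`. -/
theorem posUnipotent_inf_negUnipotent
    (hD : D ∈ [chevG2, chevB2, chevD4, chevF4, chevE6, chevE7, chevE8]) :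
    D.posUnipotent F ⊓ D.negUnipotent F = ⊥ := by
  have h := (Cfsg.Agent.S1037.result (F := F) D hD).1
  rw [eq_bot_iff, ← h]
  apply inf_le_inf_right
  unfold ChevalleyDatum.borelSubgroup
  exact le_sup_left

/-- `|V| = |U|`. -/
theorem card_negUnipotent
    (hD : D ∈ [chevG2, chevB2, chevD4, chevF4, chevE6, chevE7, chevE8]) :
    Nat.card (D.negUnipotent F) = Fintype.card F ^ (D.nroots / 2) := by
  obtain ⟨n, -, hn⟩ := Cfsg.Agent.S1053.result (F := F) D hD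
  rw [← hn, ← Cfsg.Agent.S1027.result (F := F) D hD]
  exact Nat.card_congr ((D.posUnipotent F).equivMapOfInjective (MulAut.conj n).toMonoidHom
    (MulAut.conj n).injective).symm.toEquiv

/-- `V` is a `p`-group. -/
theorem isPGroup_negUnipotent (p : ℕ) [Fact p.Prime] [CharP F p]
    (hD : D ∈ [chevG2, chevB2, chevD4, chevF4, chevE6, chevE7, chevE8]) :
    IsPGroup p (D.negUnipotent F) := by
  obtain ⟨k, hk⟩ := FiniteField.card F p
  apply IsPGroup.of_card (n := (k : ℕ) * (D.nroots / 2))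
  rw [card_negUnipotent hD, hk.2, pow_mul]

/-- CV5 with the pieces SYL, CV2, CV3, CV6 as hypotheses. -/
theorem exists_conj_inter_of (p : ℕ) [Fact p.Prime] [CharP F p]
    (hD : D ∈ [chevG2, chevB2, chevD4, chevF4, chevE6, chevE7, chevE8]) (J : Set ℕ)
    (hSYL : ∀ (U V PJ UJ Y : Subgroup (GL D.Idx F)), U ≤ PJ → UJ ≤ U →
      (∀ g ∈ PJ, ∀ u ∈ UJ, g * u * g⁻¹ ∈ UJ) → Y ≤ PJ → Y ≤ V →
      U ⊓ V = ⊥ → IsPGroup p V →
      Nat.card U ≤ Nat.card UJ * Nat.card Y →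
      (∀ Q : Subgroup (GL D.Idx F), Q ≤ PJ → IsPGroup p Q →
        ∃ c ∈ PJ, ∀ x ∈ Q, c⁻¹ * x * c ∈ U) →
      ∃ c ∈ PJ, ∀ u ∈ U, c⁻¹ * u * c ∈ U → u ∈ UJ)
    (hCV2 : Fintype.card F ^ (D.nroots / 2) ≤ Nat.card ↥(D.unipotentRadical F J) *
      Fintype.card F ^ (Nat.card {r : ℕ // D.IsPosRoot r ∧ D.InRootSub J r}))
    (hCV3 : ∃ Y : Subgroup (GL D.Idx F), Y ≤ D.negUnipotent F ∧ Y ≤ D.parabolicSubgroup F J ∧
      Fintype.card F ^ (Nat.card {r : ℕ // D.IsPosRoot r ∧ D.InRootSub J r}) ≤ Nat.card ↥Y)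
    (hCV6 : ∀ Q : Subgroup (GL D.Idx F), Q ≤ D.parabolicSubgroup F J → IsPGroup p Q →
      ∃ c ∈ D.parabolicSubgroup F J, ∀ x ∈ Q, c⁻¹ * x * c ∈ D.posUnipotent F) :
    ∃ c ∈ D.parabolicSubgroup F J, ∀ u ∈ D.posUnipotent F,
      c⁻¹ * u * c ∈ D.posUnipotent F → u ∈ D.unipotentRadical F J := by
  obtain ⟨Y, hYV, hYP, hYc⟩ := hCV3
  refine hSYL (D.posUnipotent F) (D.negUnipotent F) (D.parabolicSubgroup F J)
    (D.unipotentRadical F J) Y (posUnipotent_le_parabolic J)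
    (unipotentRadical_le_posUnipotent J) ?_ hYP hYV (posUnipotent_inf_negUnipotent hD)
    (isPGroup_negUnipotent p hD) ?_ hCV6
  · intro g hg u hu
    have h := (Cfsg.Agent.S1048.result (F := F) D hD J).1 hg
    exact (Subgroup.mem_normalizer_iff.mp h u).mp hu
  · rw [Cfsg.Agent.S1027.result (F := F) D hD]
    exact hCV2.trans (Nat.mul_le_mul_left _ hYc)

end Cfsg.Agent.Helper7.UCCV5Pre
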