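import Mathlib
import Cfsg.Agent.Helper7.UCCV5Pre
import Cfsg.Agent.Helper8.UCSYL
import Cfsg.Agent.Helper18.UCCV3
import Cfsg.Agent.Helper31.UCCV2
import Cfsg.Agent.Helper59.UCCV6

/-!
# CALL S2314 (helper40), piece CV5 (helper7): some conjugate of `U` inside `P_J` meets `U` in
`U_J`.  Assembly of SYL (helper8), CV2 (helper31), CV3 (helper18), CV6 (helper59).
-/

set_option autoImplicit false

namespace Cfsg.Agent.Helper7.UCCV5

open Cfsg.Lie

variable {F : Type*} [Field F] [Fintype F] {D : ChevalleyDatum}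

/-- CV5: some conjugate of `U` inside `P_J` meets `U` in `U_J`. -/
theorem exists_conj_inter (p : ℕ) [Fact p.Prime] [CharP F p]
    (hD : D ∈ [chevG2, chevB2, chevD4, chevF4, chevE6, chevE7, chevE8]) (J : Set ℕ) :
    ∃ c ∈ D.parabolicSubgroup F J, ∀ u ∈ D.posUnipotent F,
      c⁻¹ * u * c ∈ D.posUnipotent F → u ∈ D.unipotentRadical F J := by
  classical
  exact Cfsg.Agent.Helper7.UCCV5Pre.exists_conj_inter_of p hD J
    (fun U V PJ UJ Y h1 h2 h3 h4 h5 h6 h7 h8 h9 =>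
      Cfsg.Agent.Helper8.UCSYL.sylow_step p U V PJ UJ Y h1 h2 h3 h4 h5 h6 h7 h8 h9)
    (Cfsg.Agent.Helper31.UCCV2.card_unipotentRadical_ge hD J)
    (Cfsg.Agent.Helper18.UCCV3.exists_opposite hD J)
    (Cfsg.Agent.Helper59.UCCV6.sylow_in_parabolic p hD J)

end Cfsg.Agent.Helper7.UCCV5
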